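import Cfsg.Agent.H77.C8Skew
import Cfsg.Agent.H27.Quad

/-! Overgroups in `SL(V)` of orthogonal groups. -/

set_option autoImplicit false
set_option linter.unusedSectionVars false

namespace Cfsg.Agent.H77

open Module Cfsg.Agent.H27 QuadraticMap

variable {F V : Type*} [Field F] [AddCommGroup V] [Module F V] [FiniteDimensional F V]
  {H : Subgroup (V ≃ₗ[F] V)}

theorem exists_singular_not_mem [Finite F] (Q : QuadraticForm F V) {U W : Submodule F V}
    (h : finrank F W + 3 ≤ finrank F U) : ∃ x ∈ U, x ∉ W ∧ Q x = 0 := by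
  obtain ⟨C, hC⟩ := W.exists_isCompl
  have h1 := Submodule.finrank_sup_add_finrank_inf_eq U C
  have h2 := Submodule.finrank_add_eq_of_isCompl hC
  have h3 := Submodule.finrank_le (U ⊔ C)
  obtain ⟨x, hx, hx0, hQ⟩ := exists_singular_of_three_le Q (U ⊓ C) (by omega)
  exact ⟨x, hx.1, fun hW => hx0 (Submodule.disjoint_def.mp hC.disjoint x hW hx.2), hQ⟩

theorem exists_singular_perp [Finite F] (Q : QuadraticForm F V) (l l' : List V)
    (h : l.length + l'.length + 3 ≤ finrank F V) :
    ∃ x, Q x = 0 ∧ (∀ w ∈ l, polarBilin Q w x = 0) ∧ x ∉ sp F l' := by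
  have h1 := finrank_perp (polarBilin Q) l
  have h2 := finrank_sp_le (F := F) l'
  obtain ⟨x, hx, hx', hQ⟩ := exists_singular_not_mem Q (U := perp (polarBilin Q) l) (W := sp F l')
    (by omega)
  exact ⟨x, hQ, hx, hx'⟩

theorem rf_polar {Q : QuadraticForm F V} (h : (polarBilin Q).SeparatingLeft) :
    RF (σ := RingHom.id F) (polarBilin Q) :=
  ⟨fun _ => rfl, h, fun x y hxy => by rwa [polarBilin_apply_apply, polar_comm]⟩

theorem solv_quad_val [Finite F] {Q : QuadraticForm F V} (h : RF (σ := RingHom.id F) (polarBilin Q))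
    {k : ℕ} (hn : 2 * k + 5 ≤ finrank F V) (d : F) : Solv (polarBilin Q) (fun x => Q x = d) k := by
  intro l hl x₀
  obtain ⟨e, he, h1, h2⟩ := exists_singular_perp Q (x₀ :: l) (x₀ :: l) (by simp; omega)
  obtain ⟨y, h3, h4⟩ := h.exists_perp h2 1
  obtain ⟨f, hf, h5, h6⟩ := exists_singular_partner (Q := Q) (perp (polarBilin Q) (x₀ :: l)) h1 h3 he
    (by rw [← polarBilin_apply_apply, h4]; exact one_ne_zero)
  refine ⟨x₀ + (e + (d - Q x₀) • f), ?_, fun w hw => ?_⟩
  · have a1 : polar Q x₀ e = 0 := h1 x₀ (by simp)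
    have a2 : polar Q x₀ f = 0 := hf x₀ (by simp)
    show Q _ = d
    rw [quad_add, quad_add_smul, polar_add_right, polar_smul_right, a1, a2, he, h5, h6]
    simp
  · rw [map_add, map_add, map_smul, h1 w (by simp [hw]), hf w (by simp [hw])]
    simp

theorem quad_add_of_perp (Q : QuadraticForm F V) (x y : V) (hx : Q x = 0) (hy : Q y = 0)
    (hxy : polarBilin Q x y = 0) : Q (x + y) = 0 := by
  rw [quad_add, hx, hy, ← polarBilin_apply_apply, hxy]; simp

/-- `H` contains the Siegel transformation of the pair `x, y`. -/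
def Sg (H : Subgroup (V ≃ₗ[F] V)) (B : V →ₗ[F] V →ₗ[F] F) (x y : V) : Prop :=
  Has H fun t => t + B x t • y - B y t • x

theorem Dset_comp {u : V} {φ : Dual F V} (h : φ ∈ Dset H u) {g : V ≃ₗ[F] V} (hg : g ∈ H)
    (hu : g u = u) : φ ∘ₗ (g : V →ₗ[F] V) ∈ Dset H u := by
  refine ⟨by simpa [hu] using h.1, fun c => ?_⟩
  have := (h.2 c).conj' hg
  have h1 : g⁻¹ u = u := by
    apply g.injective; rw [le_apply_inv, hu]
  rwa [h1] at this

variable {Q : QuadraticForm F V}

theorem orth_Aset_eq_top (h : RF (σ := RingHom.id F) (polarBilin Q))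
    (hS : Solv (polarBilin Q) (fun x => Q x = 0) 4) (hn : 4 < finrank F V)
    (hE : ∀ x y, Q x = 0 → Q y = 0 → polarBilin Q x y = 0 → Sg H (polarBilin Q) x y)
    {A : Submodule F V} (hA : ∀ g ∈ H, ∀ x ∈ A, g x ∈ A) {w : V} (hw0 : w ≠ 0) (hw : w ∈ A) :
    A = ⊤ := by
  have step : ∀ w ∈ A, ∀ y, Q y = 0 → polarBilin Q w y = 0 → w ∉ sp F [y] → y ∈ A := by
    intro w hw y hy hwy hwn
    obtain ⟨x, hx, h1, h2⟩ := hS.one h hwn 1 (by simp)
    obtain ⟨g, hg, hgf⟩ := hE x y hx hy (h.refl _ _ (h1 y (by simp)))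
    have h3 := A.sub_mem (hA g hg w hw) hw
    have h4 : polarBilin Q x w = 1 := by rwa [polarBilin_apply_apply, polar_comm]
    simpa only [hgf, h.refl _ _ hwy, h4, one_smul, zero_smul, sub_zero, add_sub_cancel_left] using h3
  have main : ∀ w ∈ A, w ≠ 0 → ∀ a, a ∉ sp F [w] → ∃ x ∈ A, polarBilin Q a x ≠ 0 := by
    intro w hw hw0 a ha
    obtain ⟨y, hy, h1, h2, h3⟩ := hS.one_not h ha 1 [w] (by simp) (by simp; omega)
    exact ⟨y, step w hw y hy (h1 w (by simp)) (not_mem_sp_one_symm h3 hw0),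
      by rw [h2]; exact one_ne_zero⟩
  refine h.eq_top fun a ha => ?_
  by_cases haw : a ∈ sp F [w]
  · obtain ⟨y, hy, h1, h2⟩ := hS.zero_not h [w] [w] (by simp) (by simp; omega)
    have hy0 : y ≠ 0 := by rintro rfl; exact h2 (Submodule.zero_mem _)
    refine main y (step w hw y hy (h1 w (by simp)) (not_mem_sp_one_symm h2 hw0)) hy0 a ?_
    refine not_mem_sp_one_symm (fun hm => h2 ?_) ha
    exact sp_le (by simpa using haw) hm
  · exact main w hw hw0 a haw

theorem orth_mem_Aset (h : RF (σ := RingHom.id F) (polarBilin Q))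
    (hS : Solv (polarBilin Q) (fun x => Q x = 0) 4) (hn : 6 < finrank F V)
    (hE : ∀ x y, Q x = 0 → Q y = 0 → polarBilin Q x y = 0 → Sg H (polarBilin Q) x y)
    {w y : V} (hy : y ∉ sp F [w]) (hD : polarBilin Q y ∈ Dset H w) : w ∈ Aset H := by
  have step : ∀ y, y ∉ sp F [w] → polarBilin Q y ∈ Dset H w → ∀ z, Q z = 0 →
      polarBilin Q w z = 0 → polarBilin Q y z = 0 → z ∉ sp F [y, w] → polarBilin Q z ∈ Dset H w := by
    intro y hy hD z hz hwz hyz hzn
    obtain ⟨x, hx, h1, h2⟩ := hS.one h (not_mem_sp_exchange hzn hy) 1 (by simp)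
    obtain ⟨g, hg, hgf⟩ := hE x z hx hz (h.refl _ _ (h1 z (by simp)))
    have h3 := (Dset H w).sub_mem hD (Dset_comp hD hg (by
      simp only [hgf, h.refl _ _ (h1 w (by simp)), h.refl _ _ hwz]; simp))
    convert h3 using 1
    ext t
    simp only [LinearMap.sub_apply, LinearMap.comp_apply, LinearEquiv.coe_coe, hgf, map_sub,
      map_add, map_smul, hyz, h2, smul_eq_mul]
    ring
  have main : ∀ y, y ∉ sp F [w] → polarBilin Q y ∈ Dset H w → ∀ p, p ∉ sp F [y, w] →
      ∃ φ ∈ Dset H w, φ p ≠ 0 := by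
    intro y hy hD p hp
    obtain ⟨z, hz, h1, h2, h3⟩ := hS.one_not h hp 1 [y, w] (by simp) (by simp; omega)
    exact ⟨_, step y hy hD z hz (h1 w (by simp)) (h1 y (by simp)) h3,
      h.refl_ne (by rw [h2]; exact one_ne_zero)⟩
  apply mem_Aset_of_Dset
  intro p hp
  by_cases hpy : p ∈ sp F [y, w]
  · obtain ⟨z, hz, h1, h2⟩ := hS.zero_not h [y, w] [y, w] (by simp) (by simp; omega)
    refine main z (fun hm => h2 (sp_mono (by simp) hm))
      (step y hy hD z hz (h1 w (by simp)) (h1 y (by simp)) h2) p ?_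
    refine not_mem_sp_exchange (fun hm => h2 (sp_le ?_ hm)) hp
    intro x hx
    simp only [List.mem_cons, List.not_mem_nil, or_false] at hx
    rcases hx with rfl | rfl
    · exact hpy
    · exact mem_sp (by simp)
  · exact main y hy hD p hpy

theorem orth_SLV_le [Finite F] (h : RF (σ := RingHom.id F) (polarBilin Q))
    (hn : 13 ≤ finrank F V)
    (hE : ∀ x y, Q x = 0 → Q y = 0 → polarBilin Q x y = 0 → Sg H (polarBilin Q) x y)
    {g : V ≃ₗ[F] V} (hgH : g ∈ H)
    (hg : ∀ c : F, ¬ ∀ x y, polarBilin Q x y = c * polarBilin Q (g x) (g y)) : SLV F V ≤ H := by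
  have hS : Solv (polarBilin Q) (fun x => Q x = 0) 4 := solv_quad_val h (by omega) 0
  have hself : ∀ x, Q x = 0 → polarBilin Q x x = 0 := fun x hx => by
    rw [polarBilin_apply_apply, polar_self_eq, hx, mul_zero]
  set B := polarBilin Q with hB
  obtain ⟨g', hg'⟩ := h.exists_adj g
  obtain ⟨u, hu, hu'⟩ := hS.exists_adj_not_mem h (by norm_num) (by omega) (quad_add_of_perp Q) g hg'
    (by simpa using hg)
  set f : V →ₗ[F] V := ((g⁻¹ : V ≃ₗ[F] V) : V →ₗ[F] V) ∘ₗ g' with hf
  have hu'' : f u ∉ sp F [u] := hu'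
  have hu0 : u ≠ 0 := by
    rintro rfl
    exact hu'' (by rw [map_zero]; exact Submodule.zero_mem _)
  obtain ⟨v, hv, huv, hv0, hv'⟩ : ∃ v, Q v = 0 ∧ B u v = 0 ∧ v ≠ 0 ∧ f u ∉ sp F [f v, v, u] := by
    obtain ⟨v, hv, h1, h2⟩ := hS.zero_not h [u] [f u, u] (by simp) (by simp; omega)
    have huv : B u v = 0 := h1 u (by simp)
    have h3 : f u ∉ sp F [v, u] := not_mem_sp_exchange h2 hu''
    by_cases h4 : f u ∈ sp F [f v, v, u]
    · obtain ⟨α, β, γ, h5⟩ := mem_sp_three.mp h4
      refine ⟨α • v - u, ?_, ?_, ?_, fun hm => h3 (sp_le ?_ hm)⟩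
      · rw [sub_eq_add_neg]
        exact quad_add_of_perp Q _ _ (by rw [quad_smul, hv, mul_zero]) (by rw [Q.map_neg, hu])
          (by rw [← hB, map_neg, map_smul, LinearMap.smul_apply, h.refl _ _ huv]; simp)
      · rw [map_sub, map_smul, huv, hself u hu]; simp
      · intro h0
        rw [sub_eq_zero] at h0
        have hα : α ≠ 0 := by rintro rfl; exact hu0 (by simpa using h0.symm)
        exact h2 ((Submodule.smul_mem_iff _ hα).mp (h0 ▸ mem_sp (by simp)))
      · intro x hx
        simp only [List.mem_cons, List.not_mem_nil, or_false] at hx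
        rcases hx with rfl | rfl | rfl
        · exact mem_sp_two.mpr ⟨-β, -γ, by rw [map_sub, map_smul, h5]; module⟩
        · exact mem_sp_two.mpr ⟨α, -1, by module⟩
        · exact mem_sp (by simp)
    · exact ⟨v, hv, huv, by rintro rfl; exact h2 (Submodule.zero_mem _), h4⟩
  have hgf : ∀ x, g (f x) = g' x := fun x => le_apply_inv g _
  have ha : g' u ∉ sp F [g' v, g v, g u] := by
    intro hm
    obtain ⟨α, β, γ, h5⟩ := mem_sp_three.mp hm
    refine hv' (mem_sp_three.mpr ⟨α, β, γ, g.injective ?_⟩)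
    simp only [map_add, map_smul, hgf, h5]
  have hinv : ∀ v t, B v (g⁻¹ t) = B (g' v) t := fun v t => by rw [← hg', le_apply_inv]
  have hs : ∀ u v, Q u = 0 → Q v = 0 → B u v = 0 →
      Has H fun t => t + B (g' u) t • g v - B (g' v) t • g u := fun u v hu hv huv =>
    (Has.conj (hE u v hu hv huv) hgH).congr fun t => by
      simp only [map_sub, map_add, map_smul, le_apply_inv, hinv]
  have haw : B (g' u) (g v) = 0 := by rw [hg', huv]
  have haz : B (g' u) (g u) = 0 := by rw [hg', hself u hu]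
  have hbw : B (g' v) (g v) = 0 := by rw [hg', hself v hv]
  have hbz : B (g' v) (g u) = 0 := by rw [hg', h.refl _ _ huv]
  have s1 := hs u v hu hv huv
  have s2 := hs v u hv hu (h.refl _ _ huv)
  have hw0 : g v ≠ 0 := fun h0 => hv0 (g.map_eq_zero_iff.mp h0)
  set a := g' u
  set b := g' v
  set w := g v
  set z := g u
  obtain ⟨x, hx, h1, h2⟩ := hS.one h ha 1 (by simp)
  obtain ⟨y, hy, h3, h4⟩ := exists_singular_perp Q [a, b, w, z, x] [w] (by simp; omega)
  rw [← hB] at h3
  have hD : B y ∈ Dset H w := by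
    refine ⟨h.refl _ _ (h3 w (by simp)), fun c => ?_⟩
    have hy' : Q ((-c) • y) = 0 := by rw [quad_smul, hy, mul_zero]
    have hxy : B x y = 0 := h3 x (by simp)
    have hxy' : B x ((-c) • y) = 0 := by rw [map_smul, hxy, smul_zero]
    have e1 := hE x _ hx hy' hxy'
    have e2 := hE _ x hy' hx (h.refl _ _ hxy')
    refine (Has.comp e2 (Has.comp s1 (Has.comp e1 s2))).congr fun t => ?_
    simp only [map_sub, map_add, map_smul, LinearMap.smul_apply, smul_eq_mul, haw, haz, hbw, hbz, h2,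
      hxy, h.refl _ _ hxy, hself x hx, hself y hy, h3 a (by simp), h3 b (by simp),
      h1 b (by simp), h.refl _ _ (h1 w (by simp)), h.refl _ _ (h1 z (by simp)),
      h.refl _ _ (h3 w (by simp)), h.refl _ _ (h3 z (by simp))]
    module
  exact SLV_le_of_Aset (orth_Aset_eq_top h hS (by omega) hE (fun g hg x hx => Aset_apply hx hg) hw0
    (orth_mem_Aset h hS (by omega) hE h4 hD))

/-- The Siegel transformation as a product of two transvections. -/
theorem exists_siegel {x y : V} (hx : Q x = 0) (hy : Q y = 0) (hxy : polarBilin Q x y = 0) :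
    ∃ g ∈ SLV F V, (∀ t, g t = t + polarBilin Q x t • y - polarBilin Q y t • x) ∧
      ∀ t, Q (g t) = Q t := by
  have hyx : polarBilin Q y x = 0 := by rwa [polarBilin_apply_apply, polar_comm]
  have hxx : polarBilin Q x x = 0 := by rw [polarBilin_apply_apply, polar_self_eq, hx, mul_zero]
  have key : ∀ t, (tv y (polarBilin Q x) hxy * tv x (-polarBilin Q y) (by simp only [LinearMap.neg_apply, hyx, neg_zero])) t =
      t + polarBilin Q x t • y - polarBilin Q y t • x := by
    intro t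
    simp only [le_mul_apply, tv_apply, map_add, map_smul, LinearMap.neg_apply, hxx]
    module
  refine ⟨_, (SLV F V).mul_mem (tv_mem_SLV _ _ _) (tv_mem_SLV _ _ _), key, fun t => ?_⟩
  rw [key, sub_eq_add_neg, ← neg_smul, quad_add_smul, quad_add_smul, polar_add_left,
    polar_smul_left, hx, hy]
  simp only [polarBilin_apply_apply] at hyx ⊢
  rw [hyx, polar_comm Q t y, polar_comm Q t x]
  simp only [smul_eq_mul]
  ring

section Mat

open Cfsg.Geo Matrix

variable {ι : Type} [Fintype ι] [DecidableEq ι]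

/-- The quadratic form belonging to a function. -/
def toQF {Q : (ι → F) → F} (hQ : IsNondegenerateQuadraticForm Q) : QuadraticForm F (ι → F) :=
  QuadraticMap.ofPolar Q (fun a x => by rw [hQ.smul, smul_eq_mul, pow_two])
    hQ.polar_bilinear.add_left (fun a x y => hQ.polar_bilinear.smul_left a x y)

theorem toQF_apply {Q : (ι → F) → F} (hQ : IsNondegenerateQuadraticForm Q) (x : ι → F) :
    toQF hQ x = Q x := rfl

theorem rf_toQF {Q : (ι → F) → F} (hQ : IsNondegenerateQuadraticForm Q) :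
    RF (σ := RingHom.id F) (polarBilin (toQF hQ)) :=
  rf_polar fun x hx => by
    by_contra h0
    obtain ⟨y, hy⟩ := (hQ.nondegenerate x h0).2
    exact hy (hx y)

end Mat

end Cfsg.Agent.H77
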