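import Cfsg.Agent.H77.FormTools
import Cfsg.Agent.H27.FinField
import Cfsg.Agent.H99.ProperSL

/-! Overgroups in `SL(V)` of symplectic and unitary groups. -/

set_option autoImplicit false
set_option linter.unusedSectionVars false

namespace Cfsg.Agent.H77

open Module Cfsg.Agent.H27

variable {F V : Type*} [Field F] [AddCommGroup V] [Module F V] [FiniteDimensional F V]
  {σ : F →+* F} {B : V →ₛₗ[σ] V →ₗ[F] F} {H : Subgroup (V ≃ₗ[F] V)}

/-- The functionals all of whose multiples give transvections in `H` with centre `u`. -/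
def Dset (H : Subgroup (V ≃ₗ[F] V)) (u : V) : Submodule F (Dual F V) where
  carrier := {φ | φ u = 0 ∧ ∀ c : F, T1 H u (c • φ)}
  zero_mem' := ⟨rfl, fun c => by simpa using t1_zero_right u⟩
  add_mem' {φ ψ} h h' := ⟨by simp [h.1, h'.1], fun c => by
    rw [smul_add]; exact (h.2 c).add_right (h'.2 c) (by simp [h.1])⟩
  smul_mem' c φ h := ⟨by simp [h.1], fun d => by rw [smul_smul]; exact h.2 _⟩

theorem mem_Aset_of_Dset {u : V} (h : ∀ p, p ∉ sp F [u] → ∃ φ ∈ Dset H u, φ p ≠ 0) :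
    u ∈ Aset H := fun φ hφ => by simpa using (mem_of_separates h hφ).2 1

theorem skew_self_add (hs : ∀ x y, B y x = -σ (B x y)) (x y : V) (hx : B x x = 0) (hy : B y y = 0)
    (hxy : B x y = 0) : B (x + y) (x + y) = 0 := by
  simp [hx, hy, hxy, hs x y]

theorem skew_Aset_eq_top (h : RF B) (hS : Solv B (fun x => B x x = 0) 3)
    (hT : ∀ u, B u u = 0 → T1 H u (B u)) {u : V} (hu0 : u ≠ 0) (hu : u ∈ Aset H) : Aset H = ⊤ :=
  h.eq_top fun a ha => by
    obtain ⟨v, hv, h1, h2⟩ := hS.ne_two h hu0 ha (by norm_num)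
    obtain ⟨g, hg, hgf⟩ := (hT v hv).exists
    have h3 := (Aset H).sub_mem (Aset_apply hu hg) hu
    rw [hgf, add_sub_cancel_left] at h3
    exact ⟨v, ((Aset H).smul_mem_iff (h.refl_ne h1)).mp h3, h2⟩

theorem skew_mem_Aset (h : RF B) (hs : ∀ x y, B y x = -σ (B x y))
    (hS : Solv B (fun x => B x x = 0) 3) (hn : 4 < finrank F V)
    (hT : ∀ u, B u u = 0 → T1 H u (B u)) {u b : V} (hu0 : u ≠ 0) (hb : b ∉ sp F [u])
    (hbu : B b u = 0) (hub : T1 H u (B b)) : u ∈ Aset H := by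
  have step : ∀ z y, T1 H u (B z) → B z u = 0 → B y y = 0 → B u y = 0 → B z y = 1 →
      T1 H u (B y) := by
    intro z y hz hzu hy huy hzy
    have := (hT y hy).comm_right hz (h.refl _ _ huy) hzu
    rwa [hzy, one_smul] at this
  obtain ⟨z, hz, h1, h2⟩ := hS.one h hb 1 (by simp)
  have huz : B u z = 0 := h1 u (by simp)
  have hzT := step b z hub hbu hz huz h2
  have hzu : z ∉ sp F [u] := not_mem_sp_of (B b) (by simpa using hbu) (by rw [h2]; exact one_ne_zero)
  have key : ∀ y, B y y = 0 → B u y = 0 → y ∉ sp F [z, u] → T1 H u (B y) := by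
    intro y hy huy hyn
    obtain ⟨x, hx, h3, h4, h5⟩ := hS.two h hzu hyn 1 (-1) (by simp)
    have hux : B u x = 0 := h3 u (by simp)
    refine step x y (step z x hzT (h.refl _ _ huz) hx hux h4) (h.refl _ _ hux) hy huy ?_
    rw [hs y x, h5]; simp
  apply mem_Aset_of_Dset
  intro p hp
  obtain ⟨y, hy, h3, h4, h5⟩ := hS.one_not h hp 1 [z, u] (by simp) (by simpa using hn)
  have huy : B u y = 0 := h3 u (by simp)
  refine ⟨B y, ⟨h.refl _ _ huy, fun c => ?_⟩, h.refl_ne (by rw [h4]; exact one_ne_zero)⟩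
  rcases eq_or_ne c 0 with rfl | hc
  · simpa using t1_zero_right u
  rw [h.smul_eq]
  have hc' : σ c ≠ 0 := (map_ne_zero σ).mpr hc
  exact key _ (by simp [hy]) (by simp [huy]) (fun hm => h5 ((Submodule.smul_mem_iff _ hc').mp hm))

theorem skew_SLV_le (h : RF B) (hs : ∀ x y, B y x = -σ (B x y))
    (hS : Solv B (fun x => B x x = 0) 3) (hn : 4 < finrank F V)
    (hT : ∀ u, B u u = 0 → T1 H u (B u)) {g : V ≃ₗ[F] V} (hgH : g ∈ H)
    (hg : ∀ c : F, ¬ ∀ x y, B x y = c * B (g x) (g y)) : SLV F V ≤ H := by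
  obtain ⟨g', hg'⟩ := h.exists_adj g
  obtain ⟨v, hv, hv'⟩ := hS.exists_adj_not_mem h le_rfl hn (skew_self_add hs) g hg' hg
  have hT1 : T1 H (g v) (B (g' v)) := by
    refine T1.of_conj hgH ?_
    rw [show B (g' v) ∘ₗ (g : V →ₗ[F] V) = B v from LinearMap.ext fun x => hg' v x]
    exact hT v hv
  have haw : B (g' v) (g v) = 0 := by rw [hg', hv]
  have ha : g' v ∉ sp F [g v] := by
    intro hm
    obtain ⟨c, hc⟩ := mem_sp_one.mp hm
    exact hv' (mem_sp_one.mpr ⟨c, by rw [hc, LinearEquiv.map_smul, le_inv_apply]⟩)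
  have hw0 : g v ≠ 0 := by
    intro h0
    have : v = 0 := g.map_eq_zero_iff.mp h0
    apply ha
    rw [this, g'.map_zero]; exact Submodule.zero_mem _
  set w := g v
  set a := g' v
  obtain ⟨u, hu, h1, h2⟩ := hS.one h (not_mem_sp_one_symm ha hw0) 1 (by simp)
  have hau : B a u = 0 := h1 a (by simp)
  have huw : B u w ≠ 0 := h.refl_ne (by rw [h2]; exact one_ne_zero)
  have hu0 : u ≠ 0 := by rintro rfl; simp at h2
  have h3 := (hT u hu).comm_left hT1 hau haw
  rw [h.smul_eq] at h3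
  have hl : σ (B u w) ≠ 0 := (map_ne_zero σ).mpr huw
  refine SLV_le_of_Aset (skew_Aset_eq_top h hS hT hu0 (skew_mem_Aset h hs hS hn hT hu0 ?_ ?_ h3))
  · intro hm
    obtain ⟨c, hc⟩ := mem_sp_one.mp ((Submodule.smul_mem_iff _ hl).mp hm)
    rw [hc, map_smulₛₗ, LinearMap.smul_apply, smul_eq_mul, mul_eq_zero, map_eq_zero] at haw
    rcases haw with rfl | h0
    · apply ha; rw [hc, zero_smul]; exact Submodule.zero_mem _
    · exact huw h0
  · simp [hau]

theorem solv_alt (hA : ∀ x, B x x = 0) (k : ℕ) : Solv B (fun x => B x x = 0) k :=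
  fun _ _ x₀ => ⟨x₀, hA x₀, fun _ _ => rfl⟩

theorem solv_skew [Finite F] (h : RF B) (hs : ∀ x y, B y x = -σ (B x y)) (hσ : σ ≠ RingHom.id F)
    {k : ℕ} (hn : 2 * k + 2 < finrank F V) : Solv B (fun x => B x x = 0) k := by
  intro l hl x₀
  obtain ⟨y₀, hy₀, hy⟩ : ∃ y₀, (∀ w ∈ x₀ :: l, B w y₀ = 0) ∧ B y₀ y₀ ≠ 0 := by
    by_contra hc
    push Not at hc
    obtain ⟨e, he, he'⟩ := exists_perp_not_mem B (x₀ :: l) (x₀ :: l) (by simp; omega)
    apply hσ
    ext c
    obtain ⟨x, hx, h1⟩ := h.exists_perp he' c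
    have h2 := hc (e + x) (fun w hw => by rw [map_add, he w hw, hx w hw, add_zero])
    simp only [map_add, LinearMap.add_apply, hc e he, hc x hx, hs e x, h1, zero_add,
      add_zero] at h2
    rw [RingHom.id_apply]
    linear_combination -h2
  have h1 : ∀ x, σ (B x x) = -B x x := fun x => neg_eq_iff_eq_neg.mp (hs x x).symm
  obtain ⟨c, hc⟩ := exists_norm_eq hσ h.inv (t := -B x₀ x₀ / B y₀ y₀) (by
    rw [map_div₀, map_neg, h1, h1]; field_simp)
  refine ⟨x₀ + c • y₀, ?_, fun w hw => ?_⟩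
  · have h2 : B x₀ y₀ = 0 := hy₀ x₀ (by simp)
    simp only [map_add, LinearMap.add_apply, map_smulₛₗ, LinearMap.smul_apply, h2, h.refl _ _ h2,
      smul_eq_mul, mul_zero, add_zero, zero_add, RingHom.id_apply]
    rw [← mul_assoc, mul_comm c, hc]
    field_simp
    ring
  · rw [map_add, map_smul, hy₀ w (by simp [hw]), smul_zero, add_zero]

theorem skew_tv_isometry (hs : ∀ x y, B y x = -σ (B x y)) {u : V} (hu : B u u = 0) (x y : V) :
    B (tv u (B u) hu x) (tv u (B u) hu y) = B x y := by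
  simp only [tv_apply, map_add, LinearMap.add_apply, map_smulₛₗ, LinearMap.smul_apply, hu,
    smul_eq_mul, RingHom.id_apply, hs u x]
  ring

section Mat

open Cfsg.Geo Matrix

variable {ι : Type} [Fintype ι] [DecidableEq ι]

/-- Transfer of maximality arguments from matrices to linear automorphisms. -/
theorem isMaximalIn_sl_of {K : Subgroup (GL ι F)} (hK : ¬ specialLinear ι F ≤ K)
    (h : ∀ H : Subgroup ((ι → F) ≃ₗ[F] (ι → F)),
      (∀ g : GL ι F, g ∈ K → toLE ι F g ∈ SLV F (ι → F) → toLE ι F g ∈ H) →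
      ∀ g : GL ι F, g ∉ K → toLE ι F g ∈ H → SLV F (ι → F) ≤ H) :
    IsMaximalIn (specialLinear ι F) (K ⊓ specialLinear ι F) := by
  refine isMaximalIn_of inf_le_right ?_ fun M hM hM' g hg hg' => ?_
  · obtain ⟨g, hg, hg'⟩ := SetLike.not_le_iff_exists.mp hK
    exact ⟨g, hg, fun h => hg' h.1⟩
  · have := h (M.map (toLE ι F : GL ι F →* _)) (fun x hx hx' => ⟨x, hM ⟨hx, by
      rw [← comap_SLV]; exact hx'⟩, rfl⟩) g (fun h => hg' ⟨h, hM' hg⟩) ⟨g, hg, rfl⟩
    intro x hx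
    rw [← comap_SLV] at hx
    obtain ⟨y, hy, hxy⟩ := this hx
    rwa [← (toLE ι F).injective hxy]

theorem isMaximalIn_skew {f : (ι → F) → (ι → F) → F} (hK : ¬ specialLinear ι F ≤ similarityGroup f)
    {B : (ι → F) →ₛₗ[σ] (ι → F) →ₗ[F] F} {d : F} (hd : d ≠ 0) (hf : ∀ x y, B x y = d * f y x)
    (h : RF B) (hs : ∀ x y, B y x = -σ (B x y))
    (hS : Solv B (fun x => B x x = 0) 3) (hn : 4 < Fintype.card ι) :
    IsMaximalIn (specialLinear ι F) (similarityGroup f ⊓ specialLinear ι F) := by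
  have hn' : 4 < finrank F (ι → F) := by simpa using hn
  refine isMaximalIn_sl_of hK fun H hH g hg hgH => skew_SLV_le h hs hS hn' (fun u hu => ?_) hgH
    fun c hc => hg ?_
  · obtain ⟨x, hx⟩ := (toLE ι F).surjective (tv u (B u) hu)
    refine t1_of_tv hu (hx ▸ hH x ⟨1, fun v w => ?_⟩ (hx ▸ tv_mem_SLV _ _ _))
    have := skew_tv_isometry hs hu w v
    rw [← hx, hf, hf] at this
    simpa [toLE_apply] using mul_left_cancel₀ hd this
  · have hc0 : c ≠ 0 := by
      rintro rfl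
      haveI : Nontrivial (ι → F) := Module.nontrivial_of_finrank_pos (R := F) (by omega)
      obtain ⟨a, ha⟩ := exists_ne (0 : ι → F)
      exact h.ne_zero ha (LinearMap.ext fun y => by simpa using hc a y)
    refine ⟨(Units.mk0 c hc0)⁻¹, fun u v => ?_⟩
    have := hc v u
    rw [hf, hf, mul_left_comm] at this
    rw [mul_left_cancel₀ hd this]
    simp [toLE_apply, hc0]

end Mat

end Cfsg.Agent.H77
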