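import Cfsg.Agent.H27.TvSL

/-! Solving linear conditions by singular vectors of a reflexive form. -/

set_option autoImplicit false
set_option linter.unusedSectionVars false

namespace Cfsg.Agent.H77

open Module Cfsg.Agent.H27

variable {F V : Type*} [Field F] [AddCommGroup V] [Module F V]

/-- The span of a list of vectors. -/
def sp (F : Type*) {V : Type*} [Field F] [AddCommGroup V] [Module F V] (l : List V) :
    Submodule F V := Submodule.span F {x | x ∈ l}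

theorem mem_sp {l : List V} {x : V} (h : x ∈ l) : x ∈ sp F l := Submodule.subset_span h

theorem sp_nil : sp F ([] : List V) = ⊥ := by simp [sp]

theorem sp_cons (a : V) (l : List V) : sp F (a :: l) = Submodule.span F {a} ⊔ sp F l := by
  rw [sp, sp, ← Submodule.span_union]
  congr 1
  ext x; simp

theorem mem_sp_cons {a x : V} {l : List V} : x ∈ sp F (a :: l) ↔ ∃ c : F, ∃ y ∈ sp F l, x = c • a + y := by
  rw [sp_cons, Submodule.mem_sup]
  constructor
  · rintro ⟨_, h, y, hy, rfl⟩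
    obtain ⟨c, rfl⟩ := Submodule.mem_span_singleton.mp h
    exact ⟨c, y, hy, rfl⟩
  · rintro ⟨c, y, hy, rfl⟩
    exact ⟨_, Submodule.mem_span_singleton.mpr ⟨c, rfl⟩, y, hy, rfl⟩

theorem mem_sp_nil {x : V} : x ∈ sp F ([] : List V) ↔ x = 0 := by rw [sp_nil, Submodule.mem_bot]

theorem mem_sp_one {a x : V} : x ∈ sp F [a] ↔ ∃ c : F, x = c • a := by
  simp [mem_sp_cons, mem_sp_nil]

theorem mem_sp_two {a b x : V} : x ∈ sp F [a, b] ↔ ∃ c d : F, x = c • a + d • b := by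
  rw [mem_sp_cons]
  constructor
  · rintro ⟨c, y, hy, rfl⟩
    obtain ⟨d, rfl⟩ := mem_sp_one.mp hy
    exact ⟨c, d, rfl⟩
  · rintro ⟨c, d, rfl⟩
    exact ⟨c, _, mem_sp_one.mpr ⟨d, rfl⟩, rfl⟩

theorem mem_sp_three {a b e x : V} :
    x ∈ sp F [a, b, e] ↔ ∃ c d f : F, x = c • a + d • b + f • e := by
  rw [mem_sp_cons]
  constructor
  · rintro ⟨c, y, hy, rfl⟩
    obtain ⟨d, f, rfl⟩ := mem_sp_two.mp hy
    exact ⟨c, d, f, (add_assoc _ _ _).symm⟩
  · rintro ⟨c, d, f, rfl⟩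
    exact ⟨c, _, mem_sp_two.mpr ⟨d, f, rfl⟩, add_assoc _ _ _⟩

theorem sp_le {l : List V} {W : Submodule F V} (h : ∀ x ∈ l, x ∈ W) : sp F l ≤ W :=
  Submodule.span_le.mpr h

theorem sp_mono {l l' : List V} (h : ∀ x ∈ l, x ∈ l') : sp F l ≤ sp F l' :=
  Submodule.span_mono h

theorem map_eq_zero_of_mem_sp {W : Type*} [AddCommGroup W] [Module F W] {σ : F →+* F}
    (φ : V →ₛₗ[σ] W) {l : List V} (h : ∀ w ∈ l, φ w = 0) {x : V} (hx : x ∈ sp F l) : φ x = 0 :=
  (sp_le (W := LinearMap.ker φ) h) hx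

theorem not_mem_sp_of (φ : Dual F V) {l : List V} (h : ∀ w ∈ l, φ w = 0) {x : V} (hx : φ x ≠ 0) :
    x ∉ sp F l := fun hm => hx (map_eq_zero_of_mem_sp φ h hm)

theorem not_mem_sp_one_symm {a b : V} (h : a ∉ sp F [b]) (hb : b ≠ 0) : b ∉ sp F [a] := by
  rw [mem_sp_one] at h ⊢
  rintro ⟨c, rfl⟩
  have hc : c ≠ 0 := by rintro rfl; simp at hb
  exact h ⟨c⁻¹, by rw [smul_smul, inv_mul_cancel₀ hc, one_smul]⟩

/-- Exchange: if `a ∉ ⟨b, l⟩` and `b ∉ ⟨l⟩` then `b ∉ ⟨a, l⟩`. -/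
theorem not_mem_sp_exchange {a b : V} {l : List V} (h : a ∉ sp F (b :: l)) (hb : b ∉ sp F l) :
    b ∉ sp F (a :: l) := by
  rw [mem_sp_cons] at h ⊢
  rintro ⟨c, y, hy, rfl⟩
  have hc : c ≠ 0 := by rintro rfl; simp at hb; exact hb hy
  refine h ⟨c⁻¹, -(c⁻¹ • y), Submodule.neg_mem _ (Submodule.smul_mem _ _ hy), ?_⟩
  rw [smul_add, smul_smul, inv_mul_cancel₀ hc, one_smul, add_neg_cancel_right]

theorem finrank_sp_le (l : List V) : finrank F (sp F l) ≤ l.length := by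
  classical
  have : {x | x ∈ l} = (l.toFinset : Set V) := by ext; simp
  rw [sp, this]
  exact (finrank_span_finset_le_card _).trans (List.toFinset_card_le l)

variable {σ : F →+* F}

/-- The vectors orthogonal to a list of vectors. -/
def perp (B : V →ₛₗ[σ] V →ₗ[F] F) (l : List V) : Submodule F V where
  carrier := {x | ∀ w ∈ l, B w x = 0}
  zero_mem' := fun _ _ => map_zero _
  add_mem' hx hy w hw := by rw [map_add, hx w hw, hy w hw, add_zero]
  smul_mem' c x hx w hw := by rw [map_smul, hx w hw, smul_zero]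

theorem mem_perp {B : V →ₛₗ[σ] V →ₗ[F] F} {l : List V} {x : V} :
    x ∈ perp B l ↔ ∀ w ∈ l, B w x = 0 := Iff.rfl

variable [FiniteDimensional F V]

theorem finrank_perp (B : V →ₛₗ[σ] V →ₗ[F] F) (l : List V) :
    finrank F V ≤ l.length + finrank F (perp B l) := by
  let f : V →ₗ[F] (Fin l.length → F) := LinearMap.pi fun i => B (l.get i)
  have h1 := LinearMap.finrank_range_add_finrank_ker f
  have h2 : LinearMap.ker f = perp B l := by
    ext x
    rw [LinearMap.mem_ker, mem_perp, funext_iff]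
    constructor
    · intro h w hw
      obtain ⟨i, rfl⟩ := List.get_of_mem hw
      exact h i
    · intro h i
      exact h _ (List.get_mem l i)
  have h3 := Submodule.finrank_le (LinearMap.range f)
  rw [h2] at h1
  simp only [Module.finrank_fintype_fun_eq_card, Fintype.card_fin] at h3
  omega

theorem exists_mem_not_mem {U W : Submodule F V} (h : finrank F W < finrank F U) :
    ∃ x ∈ U, x ∉ W := by
  by_contra hc
  push Not at hc
  exact absurd (Submodule.finrank_mono hc) (not_le.mpr h)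

theorem exists_perp_not_mem (B : V →ₛₗ[σ] V →ₗ[F] F) (l l' : List V)
    (h : l.length + l'.length < finrank F V) : ∃ e, (∀ w ∈ l, B w e = 0) ∧ e ∉ sp F l' := by
  have h1 := finrank_perp B l
  have h2 := finrank_sp_le (F := F) l'
  exact exists_mem_not_mem (U := perp B l) (W := sp F l') (by omega)

theorem exists_ne_zero_two {φ ψ : Dual F V} (hφ : φ ≠ 0) (hψ : ψ ≠ 0) : ∃ x, φ x ≠ 0 ∧ ψ x ≠ 0 := by
  obtain ⟨x, hx⟩ := DFunLike.ne_iff.mp hφ
  obtain ⟨y, hy⟩ := DFunLike.ne_iff.mp hψ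
  by_cases h1 : ψ x = 0
  · by_cases h2 : φ y = 0
    · exact ⟨x + y, by simpa [h2] using hx, by simpa [h1] using hy⟩
    · exact ⟨y, h2, hy⟩
  · exact ⟨x, hx, h1⟩

/-- A nondegenerate reflexive form. -/
structure RF (B : V →ₛₗ[σ] V →ₗ[F] F) : Prop where
  inv : ∀ a, σ (σ a) = a
  nd : B.SeparatingLeft
  refl : ∀ x y, B x y = 0 → B y x = 0

variable {B : V →ₛₗ[σ] V →ₗ[F] F}

theorem RF.rep (h : RF B) (l : Dual F V) : ∃ a, B a = l := by
  obtain ⟨a, ha⟩ := exists_rep_dual h.inv B h.nd l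
  exact ⟨a, LinearMap.ext ha⟩

theorem RF.ne_zero (h : RF B) {a : V} (ha : a ≠ 0) : B a ≠ 0 := fun h0 =>
  ha (h.nd a fun y => by rw [h0]; rfl)

theorem RF.inj (h : RF B) {a b : V} (hab : B a = B b) : a = b := by
  by_contra hne
  exact h.ne_zero (sub_ne_zero.mpr hne) (by rw [map_sub, hab, sub_self])

theorem RF.smul_eq (h : RF B) (c : F) (a : V) : c • B a = B (σ c • a) := by
  rw [map_smulₛₗ, h.inv]

theorem RF.refl_ne (h : RF B) {x y : V} (hxy : B x y ≠ 0) : B y x ≠ 0 := fun h0 => hxy (h.refl _ _ h0)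

theorem RF.exists_perp (h : RF B) {l : List V} {a : V} (ha : a ∉ sp F l) (c : F) :
    ∃ x, (∀ w ∈ l, B w x = 0) ∧ B a x = c := by
  obtain ⟨φ, h1, h2⟩ := exists_dual_of_not_mem ha
  obtain ⟨x, rfl⟩ := h.rep φ
  have h3 : B a x ≠ 0 := h.refl_ne (by rw [h2]; exact one_ne_zero)
  refine ⟨(c / B a x) • x, fun w hw => ?_, ?_⟩
  · rw [map_smul, h.refl _ _ (h1 w (mem_sp hw)), smul_zero]
  · rw [map_smul, smul_eq_mul, div_mul_cancel₀ _ h3]

theorem RF.eq_top (h : RF B) {A : Submodule F V} (hA : ∀ a, a ≠ 0 → ∃ x ∈ A, B a x ≠ 0) :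
    A = ⊤ := by
  by_contra hne
  obtain ⟨z, -, hz⟩ := SetLike.exists_of_lt (lt_top_iff_ne_top.2 hne)
  obtain ⟨φ, h1, h2⟩ := exists_dual_of_not_mem hz
  obtain ⟨a, rfl⟩ := h.rep φ
  obtain ⟨x, hx, hx'⟩ := hA a (by rintro rfl; simp at h2)
  exact hx' (h1 x hx)

/-- A space of functionals vanishing at `u` which separates the points outside `⟨u⟩` contains all
functionals vanishing at `u`. -/
theorem mem_of_separates {D : Submodule F (Dual F V)} {u : V}
    (hD : ∀ p, p ∉ sp F [u] → ∃ φ ∈ D, φ p ≠ 0) {φ : Dual F V} (hφ : φ u = 0) : φ ∈ D := by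
  by_contra hne
  obtain ⟨l, h1, h2⟩ := exists_dual_of_not_mem hne
  obtain ⟨p, rfl⟩ := (Module.evalEquiv F V).surjective l
  have h2' : φ p = 1 := h2
  obtain ⟨ψ, hψ, h3⟩ := hD p (not_mem_sp_of φ (by simpa using hφ) (by rw [h2']; exact one_ne_zero))
  exact h3 (h1 ψ hψ)

/-- Every coset of the orthogonal complement of at most `k` vectors contains a vector of `S`. -/
def Solv (B : V →ₛₗ[σ] V →ₗ[F] F) (S : V → Prop) (k : ℕ) : Prop :=
  ∀ l : List V, l.length ≤ k → ∀ x₀, ∃ x, S x ∧ ∀ w ∈ l, B w x = B w x₀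

variable {S : V → Prop} {k : ℕ}

theorem Solv.one (hS : Solv B S k) (h : RF B) {l : List V} {a : V} (ha : a ∉ sp F l) (c : F)
    (hk : l.length + 1 ≤ k) : ∃ x, S x ∧ (∀ w ∈ l, B w x = 0) ∧ B a x = c := by
  obtain ⟨x₀, h1, h2⟩ := h.exists_perp ha c
  obtain ⟨x, hx, h3⟩ := hS (a :: l) hk x₀
  exact ⟨x, hx, fun w hw => (h3 w (by simp [hw])).trans (h1 w hw), (h3 a (by simp)).trans h2⟩

theorem Solv.two (hS : Solv B S k) (h : RF B) {l : List V} {a b : V} (ha : a ∉ sp F l)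
    (hb : b ∉ sp F (a :: l)) (c d : F) (hk : l.length + 2 ≤ k) :
    ∃ x, S x ∧ (∀ w ∈ l, B w x = 0) ∧ B a x = c ∧ B b x = d := by
  obtain ⟨x₀, h1, h2⟩ := h.exists_perp ha c
  obtain ⟨x₁, h3, h4⟩ := h.exists_perp hb (d - B b x₀)
  obtain ⟨x, hx, h5⟩ := hS (b :: a :: l) hk (x₀ + x₁)
  refine ⟨x, hx, fun w hw => ?_, ?_, ?_⟩
  · rw [h5 w (by simp [hw]), map_add, h1 w hw, h3 w (by simp [hw]), add_zero]
  · rw [h5 a (by simp), map_add, h2, h3 a (by simp), add_zero]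
  · rw [h5 b (by simp), map_add, h4, add_sub_cancel]

theorem Solv.one_not (hS : Solv B S k) (h : RF B) {l : List V} {a : V} (ha : a ∉ sp F l) (c : F)
    (l' : List V) (hk : l.length + 2 ≤ k) (hn : l'.length + (l.length + 1) < finrank F V) :
    ∃ x, S x ∧ (∀ w ∈ l, B w x = 0) ∧ B a x = c ∧ x ∉ sp F l' := by
  obtain ⟨e, he, he'⟩ := exists_perp_not_mem B l' (a :: l) hn
  obtain ⟨x, hx, h1, h2, h3⟩ := hS.two h ha he' c 1 hk
  exact ⟨x, hx, h1, h2, not_mem_sp_of (B e) (fun w hw => h.refl _ _ (he w hw))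
    (by rw [h3]; exact one_ne_zero)⟩

theorem Solv.zero_not (hS : Solv B S k) (h : RF B) (l l' : List V) (hk : l.length + 1 ≤ k)
    (hn : l'.length + l.length < finrank F V) :
    ∃ x, S x ∧ (∀ w ∈ l, B w x = 0) ∧ x ∉ sp F l' := by
  obtain ⟨e, he, he'⟩ := exists_perp_not_mem B l' l hn
  obtain ⟨x, hx, h1, h2⟩ := hS.one h he' 1 hk
  exact ⟨x, hx, h1, not_mem_sp_of (B e) (fun w hw => h.refl _ _ (he w hw))
    (by rw [h2]; exact one_ne_zero)⟩

theorem Solv.ne_two (hS : Solv B S k) (h : RF B) {a b : V} (ha : a ≠ 0) (hb : b ≠ 0) (hk : 2 ≤ k) :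
    ∃ x, S x ∧ B a x ≠ 0 ∧ B b x ≠ 0 := by
  obtain ⟨x₀, h1, h2⟩ := exists_ne_zero_two (h.ne_zero ha) (h.ne_zero hb)
  obtain ⟨x, hx, h3⟩ := hS [a, b] hk x₀
  exact ⟨x, hx, by rwa [h3 a (by simp)], by rwa [h3 b (by simp)]⟩

theorem eq_of_indep {u x : V} (hu : u ≠ 0) (hx : x ∉ sp F [u]) {a b c d : F}
    (h : a • u + b • x = c • u + d • x) : a = c ∧ b = d := by
  have hbd : b = d := by
    by_contra hne
    apply hx
    rw [mem_sp_one]
    refine ⟨(b - d)⁻¹ * (c - a), ?_⟩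
    have h2 : (b - d) • x = (c - a) • u := by
      rw [sub_smul, sub_smul, sub_eq_sub_iff_add_eq_add, add_comm, h, add_comm]
    rw [mul_smul, ← h2, smul_smul, inv_mul_cancel₀ (sub_ne_zero.mpr hne), one_smul]
  subst hbd
  exact ⟨smul_left_injective F hu (add_right_cancel h), rfl⟩

/-- A linear map fixing all singular points is a scalar. -/
theorem Solv.scalar (hS : Solv B S k) (h : RF B) (hk : 3 ≤ k) (hn : 4 < finrank F V)
    (hadd : ∀ x y, S x → S y → B x y = 0 → S (x + y)) (f : V →ₗ[F] V)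
    (hf : ∀ v, S v → f v ∈ sp F [v]) : ∃ c : F, ∀ v, f v = c • v := by
  have adj : ∀ u x, S u → S x → u ≠ 0 → x ∉ sp F [u] → B u x = 0 → ∀ c : F,
      (f u = c • u ↔ f x = c • x) := by
    intro u x hu hx hu0 hxu hB c
    obtain ⟨a, ha⟩ := mem_sp_one.mp (hf u hu)
    obtain ⟨b, hb⟩ := mem_sp_one.mp (hf x hx)
    obtain ⟨d, hd⟩ := mem_sp_one.mp (hf _ (hadd u x hu hx hB))
    rw [map_add, ha, hb, smul_add] at hd
    obtain ⟨rfl, rfl⟩ := eq_of_indep hu0 hxu hd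
    have hx0 : x ≠ 0 := by rintro rfl; exact hxu (Submodule.zero_mem _)
    rw [ha, hb, (smul_left_injective F hu0).eq_iff, (smul_left_injective F hx0).eq_iff]
  obtain ⟨u, hu, -, hu0⟩ := hS.zero_not h [] [] (by simp; omega) (by simp; omega)
  rw [mem_sp_nil] at hu0
  obtain ⟨c, hc⟩ := mem_sp_one.mp (hf u hu)
  have key : ∀ v, S v → f v = c • v := by
    intro v hv
    by_cases hv0 : v = 0
    · simp [hv0]
    obtain ⟨x, hx, h1, h2⟩ := hS.zero_not h [u, v] [u, v] (by simpa using hk) (by simpa using hn)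
    rw [adj v x hv hx hv0 (fun hm => h2 (sp_mono (by simp) hm)) (h1 v (by simp)),
      ← adj u x hu hx hu0 (fun hm => h2 (sp_mono (by simp) hm)) (h1 u (by simp))]
    exact hc
  have : LinearMap.ker (f - c • LinearMap.id) = ⊤ := h.eq_top fun a ha => by
    obtain ⟨x, hx, -, h1⟩ := hS.one h (l := []) (a := a) (by rwa [mem_sp_nil]) 1 (by simp; omega)
    exact ⟨x, by simp [key x hx], by rw [h1]; exact one_ne_zero⟩
  refine ⟨c, fun v => ?_⟩
  have hv : v ∈ LinearMap.ker (f - c • LinearMap.id) := by rw [this]; trivial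
  simpa [sub_eq_zero] using hv

/-- The inverse adjoint of a linear automorphism. -/
theorem RF.exists_adj (h : RF B) (g : V ≃ₗ[F] V) :
    ∃ g' : V →ₗ[F] V, ∀ v x, B (g' v) (g x) = B v x := by
  choose a ha using fun v => h.rep (B v ∘ₗ ((g⁻¹ : V ≃ₗ[F] V) : V →ₗ[F] V))
  refine ⟨⟨⟨a, fun x y => h.inj ?_⟩, fun c x => h.inj ?_⟩, fun v x => ?_⟩
  · rw [map_add, ha, ha, ha, map_add, LinearMap.add_comp]
  · rw [ha, RingHom.id_apply, map_smulₛₗ, map_smulₛₗ, ha, LinearMap.smul_comp]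
  · show B (a v) (g x) = _
    rw [ha]; simp [le_inv_apply]

/-- A non-similarity moves the pole-polar relation at some singular vector. -/
theorem Solv.exists_adj_not_mem (hS : Solv B S k) (h : RF B) (hk : 3 ≤ k) (hn : 4 < finrank F V)
    (hadd : ∀ x y, S x → S y → B x y = 0 → S (x + y)) (g : V ≃ₗ[F] V) {g' : V →ₗ[F] V}
    (hg' : ∀ v x, B (g' v) (g x) = B v x) (hg : ∀ c : F, ¬ ∀ x y, B x y = c * B (g x) (g y)) :
    ∃ v, S v ∧ g⁻¹ (g' v) ∉ sp F [v] := by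
  by_contra hc
  push Not at hc
  obtain ⟨c, hc⟩ := hS.scalar h hk hn hadd (((g⁻¹ : V ≃ₗ[F] V) : V →ₗ[F] V) ∘ₗ g') hc
  apply hg (σ c)
  intro x y
  have h1 : g' x = c • g x := by
    have := congrArg g (hc x)
    rwa [map_smul, LinearMap.comp_apply, LinearEquiv.coe_coe, le_apply_inv] at this
  rw [← hg' x y, h1, map_smulₛₗ, LinearMap.smul_apply, smul_eq_mul]

end Cfsg.Agent.H77
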