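import Cfsg.Agent.H77.LowInst

/-! Class `C5` (subfield subgroups): maximality in all dimensions needed for the tables. -/

set_option autoImplicit false
set_option linter.unusedSectionVars false

namespace Cfsg.Agent.H77

open Module Cfsg.Agent.H27 Cfsg.Agent.H10 Cfsg.Geo

variable {F : Type*} [Field F] [Fintype F]

theorem c5_sl {n : ℕ} (hn : 4 ≤ n) (F₀ : Subfield F) (r : ℕ) (P : GL (Fin n) F) (hr : r.Prime)
    (hcard : Fintype.card F = Nat.card F₀ ^ r) :
    IsMaximalIn (specialLinear (Fin n) F) (subfieldSubgroup F₀ P ⊓ specialLinear (Fin n) F) := by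
  refine isMaximalIn_sl_of (H99.not_sl_le_subfield (by simp; omega)
    (subfield_ne_top hr hcard) P) fun H hH g hg hgH =>
    sub_SLV_le (rs_jP F₀ P) (by simp; omega) (fun u φ h1 h2 => ?_) (subring_dichotomy hr hcard) hgH
      (fun h => hg (mem_subfield_iff_nr.mpr h))
  rw [one_smul]
  obtain ⟨A, hA⟩ := (toLE (Fin n) F).surjective (tv _ φ h2)
  refine t1_of_tv h2 (hA ▸ hH A (mem_subfield_iff_nr.mpr ⟨1, one_ne_zero, fun x => ?_⟩)
    (hA ▸ tv_mem_SLV _ _ _))
  exact ⟨x + (⟨_, h1 x⟩ : F₀) • u, by rw [hA, tv_apply, one_smul, map_add, j_smul]⟩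

theorem c5_sp {m : ℕ} (hm : 3 ≤ m ∨ (2 ≤ m ∧ ¬ Odd (Fintype.card F))) (F₀ : Subfield F) (r : ℕ)
    (P : GL (Fin m ⊕ Fin m) F) (ζ : F) (hr : r.Prime) (hcard : Fintype.card F = Nat.card F₀ ^ r)
    (hζ : ζ ≠ 0) (hP : IsFormRationalStructure (sympForm m F) F₀ ζ P) :
    IsMaximalIn (spGL m F) (subfieldSubgroup F₀ P ⊓ spGL m F) := by
  let B : (Fin m ⊕ Fin m → F) →ₗ[F] (Fin m ⊕ Fin m → F) →ₗ[F] F := ζ • sympBilin m F
  have hB : ∀ x y, B x y = ζ * sympBilin m F x y := fun _ _ => rfl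
  have hA : ∀ x, B x x = 0 := fun x => by rw [hB, sympBilin_isAlt x, mul_zero]
  have hnd : ∀ x, (∀ y, B x y = 0) → x = 0 := fun x h =>
    sympBilin_nondegenerate.1 x fun y => (mul_eq_zero.mp (h y)).resolve_left hζ
  have hK : ∀ x y, B (jP F₀ P x) (jP F₀ P y) ∈ F₀ := fun x y => by
    rw [hB, sympBilin_apply]
    exact hP _ _ (fun i => (x i).2) fun i => (y i).2
  have hS := skH_alt hA hnd
  let B₀ := formK (jP F₀ P) B (RingHom.id F₀) (fun _ => rfl) hK
  have hA₀ : ∀ x, B₀ x x = 0 := fun x => Subtype.ext (hA _)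
  have hP : PS B₀ fun x => B₀ x x = 0 :=
    ps_skew (rf_of_rs (rs_jP F₀ P) (rf_of_skH hS) (fun _ => rfl) fun _ _ => rfl)
      (fun x y => Subtype.ext (hS.skew _ _)) (fun z => ⟨0, by simp [hA₀]⟩) (solv_alt hA₀ 2)
      (by simp; omega)
  refine isMaximalIn_subfield (G := GG B) (by rw [GG, Iso_smul hζ hB]; exact comap_GG_symp)
    fun N hN => ?_
  rcases hm with hm | ⟨hm, he⟩
  · exact low_skew hS (rs_jP F₀ P) hP (fun _ _ => rfl) (by simp; omega) hN
      (subfield_ne_top hr hcard) (subring_dichotomy hr hcard)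
  · have h2 : (2 : F) = 0 := by
      by_contra h
      exact he (Nat.odd_iff.mpr (card_mod_two_of_two_ne_zero h))
    exact low_alt_two h2 hS (rs_jP F₀ P) hP (fun _ _ => rfl) (by simp; omega) hN
      (subfield_ne_top hr hcard) (subring_dichotomy hr hcard)

theorem c5_su_odd {n q : ℕ} (hF : Fintype.card F = q ^ 2) (hn : 5 ≤ n) (F₀ : Subfield F) (r : ℕ)
    (P : GL (Fin n) F) (hr : r.Prime) (hro : Odd r) (hcard : Fintype.card F = Nat.card F₀ ^ r)
    (hP : IsFormRationalStructure (hermForm n F q) F₀ 1 P) :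
    IsMaximalIn (GU n F q ⊓ specialLinear (Fin n) F)
      (subfieldSubgroup F₀ P ⊓ (GU n F q ⊓ specialLinear (Fin n) F)) := by
  haveI : Fact (Fintype.card F = q ^ 2) := ⟨hF⟩
  have hd := subring_dichotomy hr hcard
  obtain ⟨e, heK, he⟩ : ∃ e ∈ F₀, H10.cj F q e ≠ e := by
    by_contra hc
    push Not at hc
    obtain ⟨θ, hθ⟩ := exists_cj_ne (F := F) (q := q)
    have h1 := Nat.card_le_card_of_surjective (fun x : F₀ × F₀ => (x.1 : F) + x.2 * θ) fun x => by
      obtain ⟨a, b, h⟩ := fix_decomp H10.cj_cj hθ hc hd x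
      exact ⟨(a, b), h.symm⟩
    rw [Nat.card_prod, Nat.card_eq_fintype_card, hcard, ← pow_two,
      Nat.pow_le_pow_iff_right (Finite.one_lt_card (α := F₀))] at h1
    have := hr.two_le
    obtain rfl : r = 2 := by omega
    exact absurd hro (by decide)
  set ζ := e - H10.cj F q e with hζ
  have hζ0 : ζ ≠ 0 := sub_ne_zero.mpr he.symm
  have hζ1 : H10.cj F q ζ = -ζ := by rw [hζ, map_sub, H10.cj_cj]; ring
  have hK : ∀ x y, suB n q ζ (jP F₀ P x) (jP F₀ P y) ∈ F₀ := fun x y =>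
    F₀.mul_mem (F₀.sub_mem heK (F₀.pow_mem heK q))
      (by simpa [jP_apply] using hP _ _ (fun i => (y i).2) fun i => (x i).2)
  let σ₀ : F₀ →+* F₀ := (H10.cj F q).restrict F₀ F₀ fun x hx => F₀.pow_mem hx q
  have hS := skH_su (n := n) (by omega) hζ0 hζ1
  have hinv : ∀ a, σ₀ (σ₀ a) = a := fun a => Subtype.ext (H10.cj_cj (q := q) a.1)
  let B₀ := formK (jP F₀ P) (suB n q ζ) σ₀ (fun _ => rfl) hK
  have hR : RF B₀ := rf_of_rs (rs_jP F₀ P) (rf_of_skH hS) hinv fun _ _ => rfl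
  have hs : ∀ x y, B₀ y x = -σ₀ (B₀ x y) := fun x y => Subtype.ext (hS.skew _ _)
  have hσ : σ₀ ≠ RingHom.id F₀ := fun h =>
    he (congrArg Subtype.val (RingHom.congr_fun h ⟨e, heK⟩))
  exact isMaximalIn_subfield (comap_GG_su hζ0) fun N hN => low_skew hS (rs_jP F₀ P)
    (ps_skew hR hs (fun z => exists_sub_sig hinv hσ (neg_eq_iff_eq_neg.mp (hs z z).symm))
      (solv_skew2 hR hs hσ (by simp; omega)) (by simp; omega))
    (fun _ _ => rfl) (by simp; omega) hN (subfield_ne_top hr hcard) hd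

theorem c5_su_sp {n q : ℕ} (hF : Fintype.card F = q ^ 2) (hn : 5 ≤ n) (F₀ : Subfield F)
    (P : GL (Fin n) F) (ζ : F) (hcard : Fintype.card F = Nat.card F₀ ^ 2) (hζ0 : ζ ≠ 0)
    (hζ : ζ + ζ ^ q = 0) (hP : IsFormRationalStructure (hermForm n F q) F₀ ζ P)
    (halt : ∀ u : Fin n → F, (∀ i, u i ∈ F₀) → hermForm n F q
      (Matrix.mulVec (P : Matrix (Fin n) (Fin n) F) u)
      (Matrix.mulVec (P : Matrix (Fin n) (Fin n) F) u) = 0) :
    IsMaximalIn (GU n F q ⊓ specialLinear (Fin n) F)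
      (subfieldSubgroup F₀ P ⊓ (GU n F q ⊓ specialLinear (Fin n) F)) := by
  haveI : Fact (Fintype.card F = q ^ 2) := ⟨hF⟩
  have hK : ∀ x y, suB n q ζ (jP F₀ P x) (jP F₀ P y) ∈ F₀ := fun x y =>
    hP _ _ (fun i => (y i).2) fun i => (x i).2
  let σ₀ : F₀ →+* F₀ := (H10.cj F q).restrict F₀ F₀ fun x hx => F₀.pow_mem hx q
  have hS := skH_su (n := n) (by omega) hζ0 (eq_neg_of_add_eq_zero_right hζ)
  let B₀ := formK (jP F₀ P) (suB n q ζ) σ₀ (fun _ => rfl) hK
  have hA₀ : ∀ x, B₀ x x = 0 := fun x =>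
    Subtype.ext ((suB_eq_zero hζ0).mpr (halt _ fun i => (x i).2))
  exact isMaximalIn_subfield (comap_GG_su hζ0) fun N hN => low_skew hS (rs_jP F₀ P)
    (ps_skew (rf_of_rs (rs_jP F₀ P) (rf_of_skH hS) (fun a => Subtype.ext (H10.cj_cj (q := q) a.1))
      fun _ _ => rfl) (fun x y => Subtype.ext (hS.skew _ _)) (fun z => ⟨0, by simp [hA₀]⟩)
      (solv_alt hA₀ 2) (by simp; omega)) (fun _ _ => rfl) (by simp; omega) hN
    (subfield_ne_top Nat.prime_two hcard) (subring_dichotomy Nat.prime_two hcard)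

theorem c5_su_o {n q : ℕ} (hF : Fintype.card F = q ^ 2) (hn : 6 ≤ n) (hodd : Odd q)
    (F₀ : Subfield F) (P : GL (Fin n) F) (hcard : Fintype.card F = Nat.card F₀ ^ 2)
    (hP : IsFormRationalStructure (hermForm n F q) F₀ 1 P) :
    IsMaximalIn (GU n F q ⊓ specialLinear (Fin n) F)
      (subfieldSubgroup F₀ P ⊓ (GU n F q ⊓ specialLinear (Fin n) F)) := by
  haveI : Fact (Fintype.card F = q ^ 2) := ⟨hF⟩
  have hd := subring_dichotomy Nat.prime_two hcard
  have h2 : (2 : F) ≠ 0 := two_ne_zero_of_odd_card (hF ▸ hodd.pow)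
  have hfix : ∀ c ∈ F₀, H10.cj F q c = c := fun c hc => by
    haveI := Fintype.ofFinite F₀
    have hq : Fintype.card F₀ = q := by
      rw [← Nat.card_eq_fintype_card]
      exact Nat.pow_left_injective two_ne_zero (hcard.symm.trans hF)
    exact congrArg Subtype.val (hq ▸ FiniteField.pow_card (⟨c, hc⟩ : F₀))
  obtain ⟨θ, hθ⟩ := exists_cj_ne (F := F) (q := q)
  obtain ⟨ζ, hζ0, hζ⟩ := exists_skew (F := F) (q := q)
  have hS := skH_su (n := n) (by omega) hζ0 hζ
  have hK : ∀ x y, suB n q (1 : F) (jP F₀ P x) (jP F₀ P y) ∈ F₀ := fun x y =>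
    hP _ _ (fun i => (y i).2) fun i => (x i).2
  let B₁ := formK (jP F₀ P) (suB n q (1 : F)) (RingHom.id F₀) (fun d => hfix d d.2) hK
  have hB₁ : ∀ x y, (B₁ x y : F) = hermForm n F q (jP F₀ P y) (jP F₀ P x) := fun x y => one_mul _
  have hs : ∀ x y, suB n q (2 : F) y x = -(-1) * H10.cj F q (suB n q (2 : F) x y) := fun x y => by
    rw [suB_apply, suB_apply, map_mul, cj_herm, map_ofNat]; ring
  have hR : RF (suB n q (2 : F)) := ⟨H10.cj_cj,
    fun x h => eq_zero_of_herm_right (q := q) fun y => (suB_eq_zero h2).1 (h y),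
    fun x y h => by rw [hs, h, map_zero, mul_zero]⟩
  have hB : ∀ x y, suB n q (2 : F) (jP F₀ P x) (jP F₀ P y) =
      QuadraticMap.polarBilin (LinearMap.BilinMap.toQuadraticMap B₁) x y := fun x y => by
    rw [QuadraticMap.polarBilin_apply_apply, LinearMap.BilinMap.polar_toQuadraticMap,
      Subfield.coe_add, ← hfix _ (B₁ y x).2, hB₁, hB₁, cj_herm, suB_apply, two_mul]
  have hn' : 4 < finrank F₀ (Fin n → F₀) := by simp; omega
  have hP := ps_quad (rf_of_rs (σ₀ := RingHom.id F₀) (rs_jP F₀ P) hR (fun _ => rfl) hB) hn'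
  have hG : GG (suB n q (2 : F)) = GG (suB n q ζ) := by
    rw [GG, GG, Iso_smul (B := suB n q (2 : F)) (div_ne_zero hζ0 h2) (B' := suB n q ζ) fun x y => by
      rw [suB_apply, suB_apply]; field_simp]
  have E := lc_GG (rs_jP F₀ P) hR hP hB (Or.inr rfl) hs
  refine isMaximalIn_subfield (comap_GG_su h2) fun N hN => E.maximal (by omega) hN
    (subfield_ne_top Nat.prime_two hcard) (fun u hu x hx => ⟨hx, -suB n q (2 : F) x x / 2,
      has_Ef_GG' (Or.inr rfl) H10.cj_cj hs (E.sf hu) hx (by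
        have := hs x x
        rw [map_div₀, map_neg, map_ofNat]
        field_simp
        linear_combination -this)⟩)
    fun H _ E' _ => (E'.dich hn' hd).imp (fun h g hg => E'.nr_of_deg_two h (by simp; omega)
      (fun x hx => by
        rw [QuadraticMap.polarBilin_apply_apply, polar_self_eq] at hx
        exact (mul_eq_zero.mp hx).resolve_left fun h0 => h2 (congrArg Subtype.val h0))
      (fun a b => by
        simpa [mem_sp_nil, and_assoc, and_comm, and_left_comm] using exists_singular_perp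
          (LinearMap.BilinMap.toQuadraticMap B₁) [a, b] [] (by simp; omega))
      ((rs_jP F₀ P).deg_two (fix_decomp H10.cj_cj hθ hfix hd)) hg) fun h => ?_
  rw [hG]
  refine hS.gen H fun v hv t ht => ?_
  have := E'.all_tv h (fun u hu => E'.tv_of_full h θ hu)
    (norm_span H10.cj_cj (by rw [neg_one_mul, neg_add_eq_sub]; exact sub_ne_zero.mpr hθ)
      (by rw [map_add, map_mul, map_neg, map_one, H10.cj_cj]; ring))
    (v := v) ((suB_eq_zero h2).mpr ((suB_eq_zero hζ0).mp hv)) (t := t * ζ / 2)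
    (by rw [map_div₀, map_mul, ht, hζ, map_ofNat]; ring)
  convert this using 1
  ext x
  simp only [LinearMap.comp_apply, LinearMap.smul_apply, suB_apply, smul_eq_mul]
  field_simp

theorem c5_omega {ι : Type} [Fintype ι] [DecidableEq ι] (hn : 5 ≤ Fintype.card ι)
    {Q : (ι → F) → F} (hQ : IsNondegenerateQuadraticForm Q) (F₀ : Subfield F) (r : ℕ) (P : GL ι F)
    (ζ : F) (hr : r.Prime) (hcard : Fintype.card F = Nat.card F₀ ^ r) (hζ : ζ ≠ 0)
    (hP : IsQuadFormRationalStructure (fun v : ι → F => ζ * Q v) F₀ P) :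
    IsMaximalIn (omegaGL Q) (subfieldSubgroup F₀ P ⊓ omegaGL Q) := by
  obtain ⟨Q, rfl, h⟩ := H11.exists_qf hQ
  have h1 : isometryGroup F Q = isometryGroup F (ζ • Q) := by
    ext g
    simp [H11.mem_isometryGroup, hζ]
  have h2 : ∀ f : (ι → F) → F, omegaGL f = ⁅isometryGroup F f, isometryGroup F f⁆ :=
    fun f => Subgroup.map_subtype_commutator _
  rw [h2, h1, ← h2]
  exact low_orth (Q := ζ • Q) (fun x hx => h x fun y => by
      simpa [QuadraticMap.polar_smul, hζ] using hx y) hn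
    (fun x => hP _ fun i => (x i).2) (subfield_ne_top hr hcard) (subring_dichotomy hr hcard)

theorem c5_omega_odd (hodd : Odd (Fintype.card F)) {m : ℕ} (hm : 2 ≤ m) (F₀ : Subfield F) (r : ℕ)
    (P : GL (Unit ⊕ (Fin m ⊕ Fin m)) F) (hr : r.Prime) (hcard : Fintype.card F = Nat.card F₀ ^ r)
    (hP : IsQuadFormRationalStructure (quadFormOdd m F) F₀ P) :
    IsMaximalIn (omegaGL (quadFormOdd m F))
      (subfieldSubgroup F₀ P ⊓ omegaGL (quadFormOdd m F)) := by
  have h : quadFormOdd m F = H11.qOdd F m := funext (H11.qOdd_eq F m)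
  rw [h] at hP ⊢
  exact low_orth (H11.nd_qOdd (two_ne_zero_of_odd_card hodd) m) (by simp; omega)
    (fun x => hP _ fun i => (x i).2) (subfield_ne_top hr hcard) (subring_dichotomy hr hcard)

end Cfsg.Agent.H77
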