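import Cfsg.Agent.H77.LowInst
import Cfsg.Agent.H27.WittFam
import Cfsg.Agent.H27.SpPrim

/-! Class `C8` (classical subgroups): maximality in small dimensions. -/

set_option autoImplicit false
set_option linter.unusedSectionVars false

namespace Cfsg.Agent.H77

open Module Cfsg.Agent.H27 QuadraticMap

variable {F V : Type*} [Field F] [AddCommGroup V] [Module F V] [FiniteDimensional F V]
  {H : Subgroup (V ≃ₗ[F] V)}

theorem PS.scalar {σ : F →+* F} {B : V →ₛₗ[σ] V →ₗ[F] F} {S : V → Prop} (P : PS B S)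
    (f : V →ₗ[F] V) (hf : ∀ v, S v → f v ∈ sp F [v]) : ∃ c : F, ∀ v, f v = c • v := by
  obtain ⟨u, hu, hu0⟩ := P.exists_ne
  obtain ⟨c, hc⟩ := mem_sp_one.mp (hf u hu)
  have : LinearMap.ker (f - c • LinearMap.id) = ⊤ := by
    refine P.eq_top_of_conn (fun x => x ≠ 0) (fun a ha ha0 hSa b hb hab => ?_) (a := u)
      (by simp [hc]) hu0 hu fun x hx => Or.inl (by rintro rfl; exact hx (Submodule.zero_mem _))
    have ha' : f a = c • a := by simpa [sub_eq_zero] using ha
    by_cases hba : b ∈ sp F [a]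
    · exact sp_le (by simpa using ha) hba
    obtain ⟨β, hβ⟩ := mem_sp_one.mp (hf b hb)
    obtain ⟨d, hd⟩ := mem_sp_one.mp (hf _ (P.add a b hSa hb hab))
    rw [map_add, ha', hβ, smul_add] at hd
    obtain ⟨rfl, rfl⟩ := eq_of_indep ha0 hba hd
    simp [hβ]
  refine ⟨c, fun v => ?_⟩
  have hv : v ∈ LinearMap.ker (f - c • LinearMap.id) := by rw [this]; trivial
  simpa [sub_eq_zero] using hv

variable [Finite F] {Q : QuadraticForm F V}

theorem orth_irr (h : RF (σ := RingHom.id F) (polarBilin Q)) (hn : 4 < finrank F V) {u : V}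
    {Z : Submodule F V} (hZ : ∀ a x, Q a = 0 → polarBilin Q u a = 0 → polarBilin Q u x = 0 →
      polarBilin Q a x = 0 → ∀ y ∈ Z, Ef (polarBilin Q) (-1) a x (-Q x) y ∈ Z)
    {p r : V} (hp : p ∈ Z) (hpu : p ∉ sp F [u]) (hr : r ∉ sp F [u]) :
    ∃ z ∈ Z, polarBilin Q u z = 0 ∧ polarBilin Q r z ≠ 0 := by
  have P := ps_quad h hn
  have ext : ∀ a, Q a = 0 → polarBilin Q u a = 0 → ∀ y ∈ Z, polarBilin Q y a ≠ 0 → a ∈ Z := by
    intro a ha hua y hy hya
    obtain ⟨x, h1, h2⟩ := exists_perp_not_mem (polarBilin Q) [u, a] [u, a] (by simpa using hn)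
    obtain ⟨x', h3, h4⟩ := h.exists_perp h2 1
    have h5 := Z.sub_mem (hZ a x' ha hua (h3 u (by simp)) (h3 a (by simp)) y hy) hy
    have h6 := Z.sub_mem (hZ a x ha hua (h1 u (by simp)) (h1 a (by simp)) _ h5) h5
    rw [← Z.smul_mem_iff (neg_ne_zero.mpr (h.refl_ne hya))]
    convert h6 using 1
    simp only [Ef, map_add, map_sub, map_smul, h3 a (by simp), P.self a ha,
      h.refl _ _ (h1 a (by simp)), h4, smul_eq_mul]
    module
  obtain ⟨a, ha, h1, h2⟩ := exists_singular_perp Q [u] [u] (by simp; omega)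
  have hua := h1 u (by simp)
  obtain ⟨b, hb, h3, h4, hbu⟩ : ∃ b, Q b = 0 ∧ polarBilin Q u b = 0 ∧ polarBilin Q p b ≠ 0 ∧
      b ∉ sp F [u] := by
    by_cases hpa : polarBilin Q p a = 0
    · obtain ⟨x, hx, h3, h5, h4⟩ := P.key ha hua h2 hpu hpa
      exact ⟨x, hx, h3, h4, not_mem_sp_of _ (by simpa using h.refl _ _ hua) h5⟩
    · exact ⟨a, ha, hua, hpa, h2⟩
  have hbZ := ext b hb h3 p hp h4
  by_cases hrb : polarBilin Q r b = 0
  · obtain ⟨x, hx, h5, h6, h7⟩ := P.key hb h3 hbu hr hrb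
    exact ⟨x, ext x hx h5 b hbZ h6, h5, h7⟩
  · exact ⟨b, hbZ, h3, hrb⟩

theorem orth_SLV_le2 (h2 : (2 : F) ≠ 0) (h : RF (σ := RingHom.id F) (polarBilin Q))
    (hn : 4 < finrank F V) (hE : ∀ a x, Q a = 0 → polarBilin Q a x = 0 →
      Has H (Ef (polarBilin Q) (-1) a x (-Q x))) {g₀ : V ≃ₗ[F] V} (hg₀ : g₀ ∈ H)
    (hg : ∀ c : F, ¬ ∀ x y, polarBilin Q x y = c * polarBilin Q (g₀ x) (g₀ y)) : SLV F V ≤ H := by
  have P := ps_quad h hn
  have hsym : ∀ x y, polarBilin Q y x = polarBilin Q x y := fun x y => polar_comm Q y x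
  have hiso : ∀ a x (k : V ≃ₗ[F] V), Q a = 0 → polarBilin Q a x = 0 →
      (∀ t, k t = Ef (polarBilin Q) (-1) a x (-Q x) t) →
      ∀ s t, polarBilin Q (k s) (k t) = polarBilin Q s t := by
    intro a x k ha hax hk s t
    have hxx : polarBilin Q x x = 2 * Q x := polar_self_eq Q x
    simp only [hk, Ef, map_add, map_smul, LinearMap.add_apply, LinearMap.smul_apply, P.self a ha,
      hax, hsym a x, hxx, hsym a s, hsym x s, smul_eq_mul]
    ring
  obtain ⟨g, hgH, u, hu, hw⟩ : ∃ g ∈ H, ∃ u, Q u = 0 ∧ Q (g u) ≠ 0 := by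
    by_contra hc
    push Not at hc
    obtain ⟨g', hg'⟩ := h.exists_adj g₀⁻¹
    obtain ⟨c, hc'⟩ := P.scalar (g' ∘ₗ (g₀ : V →ₗ[F] V)) fun v hv => by
      by_contra hm
      obtain ⟨x, hx, h3, h4⟩ := P.sp1 hv hm
      have h5 := hc g₀ hg₀ _ (P.add v x hv hx h3)
      rw [map_add, quad_add, hc g₀ hg₀ v hv, hc g₀ hg₀ x hx, zero_add, zero_add] at h5
      have h6 := hg' (g₀ v) (g₀ x)
      rw [le_inv_apply] at h6
      exact h4 (h6.trans h5)
    have h3 : ∀ x y, polarBilin Q (g₀ x) (g₀ y) = c * polarBilin Q x y := fun x y => by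
      rw [← hg', le_inv_apply, show g' (g₀ x) = c • x from hc' x, map_smul]; rfl
    have hc0 : c ≠ 0 := by
      rintro rfl
      obtain ⟨a, -, ha⟩ := P.exists_ne
      exact h.ne_zero (g₀.map_ne_zero_iff.mpr ha) (LinearMap.ext fun y => by
        simpa [le_apply_inv] using h3 a (g₀⁻¹ y))
    exact hg c⁻¹ fun x y => by rw [h3, inv_mul_cancel_left₀ hc0]
  let Q' : QuadraticForm F V := Q.comp (g⁻¹ : V ≃ₗ[F] V).toLinearMap
  have hB' : ∀ x y, polarBilin Q' x y = polarBilin Q (g⁻¹ x) (g⁻¹ y) := fun x y => by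
    simp [Q', polar]
  have h' : RF (σ := RingHom.id F) (polarBilin Q') := rf_polar fun x hx =>
    (g⁻¹).map_eq_zero_iff.mp (h.nd _ fun y => by rw [← le_inv_apply g y, ← hB', hx])
  set w := g u with hwdef
  have hu0 : u ≠ 0 := by rintro rfl; simp [hwdef] at hw
  have hw0 : w ≠ 0 := g.map_ne_zero_iff.mpr hu0
  have hww : polarBilin Q' w w = 0 := by rw [hB', le_inv_apply, P.self u hu]
  have hs : ∀ x, polarBilin Q' w x = 0 → Has H (Ef (polarBilin Q') (-1) w x (-Q' x)) := by
    intro x hx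
    rw [hB', le_inv_apply] at hx
    refine ((hE u _ hu hx).conj hgH).congr fun t => ?_
    simp only [Ef, map_add, map_smul, le_apply_inv, hB', hwdef, le_inv_apply]
    rfl
  obtain ⟨p, hp⟩ := h.rep (polarBilin Q' w)
  have hBw : polarBilin Q w w ≠ 0 := by
    rw [polarBilin_apply_apply, polar_self_eq]; exact mul_ne_zero h2 hw
  have hpw : p ∉ sp F [w] := fun hm => by
    obtain ⟨d, rfl⟩ := mem_sp_one.mp hm
    have := hp ▸ hww
    rw [map_smul, LinearMap.smul_apply, smul_eq_zero] at this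
    rw [this.resolve_right hBw, zero_smul, map_zero] at hp
    exact h'.ne_zero hw0 hp.symm
  obtain ⟨k₀, hk₀, k₀w, k₀i, k₀p⟩ : ∃ k₀ ∈ H, k₀ w = w ∧
      (∀ s t, polarBilin Q (k₀ s) (k₀ t) = polarBilin Q s t) ∧ k₀ p ∉ sp F [p] := by
    by_contra hc
    push Not at hc
    obtain ⟨r, h3, h4⟩ := exists_perp_not_mem (polarBilin Q) [p] [w] (by simp; omega)
    obtain ⟨z, hz, -, h5⟩ := orth_irr h hn (Z := sp F [p]) (fun a x ha h5 h6 h7 y hy => by
      obtain ⟨k, hk, hkf⟩ := hE a x ha h7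
      obtain ⟨d, rfl⟩ := mem_sp_one.mp hy
      rw [← hkf, map_smul]
      exact Submodule.smul_mem _ _ (hc k hk (by
        rw [hkf, Ef_fix _ (h.refl _ _ h5) (h.refl _ _ h6)]) (hiso a x k ha h7 hkf)))
      (mem_sp (by simp)) hpw h4
    obtain ⟨d, rfl⟩ := mem_sp_one.mp hz
    simp [h.refl _ _ (h3 p (by simp))] at h5
  obtain ⟨y, hy, hyw⟩ := exists_perp_not_mem (polarBilin Q) [p, k₀ p] [w] (by simp; omega)
  have hφy : polarBilin Q' w y = 0 := by rw [← hp]; exact hy p (by simp)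
  have hψy : polarBilin Q (k₀ p) y = 0 := hy _ (by simp)
  have hψw : polarBilin Q (k₀ p) w = 0 := by rw [← k₀w, k₀i, hp, hww]
  have hψ : ∀ t, polarBilin Q' w (k₀⁻¹ t) = polarBilin Q (k₀ p) t := fun t => by
    rw [← hp, ← k₀i, le_apply_inv]
  obtain ⟨k, hk, hkw, hkf⟩ : ∃ k ∈ H, k w = w ∧
      ∀ t, ∃ χ : F, k t = t + polarBilin Q (k₀ p) t • y + χ • w := by
    have h3 : polarBilin Q' w (k₀⁻¹ y) = 0 := by rw [hψ, hψy]
    obtain ⟨k, hk, hkf⟩ := (hs (k₀⁻¹ y) h3).conj hk₀
    beta_reduce at hkf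
    refine ⟨k, hk, ?_, fun t => ⟨_, by
      rw [hkf, Ef, map_add, map_add, map_smul, map_smul, le_apply_inv, le_apply_inv, k₀w, hψ]⟩⟩
    rw [hkf, show k₀⁻¹ w = w by rw [← k₀w, le_inv_apply, k₀w], Ef_fix _ hww (h'.refl _ _ h3), k₀w]
  have hφk : ∀ t, polarBilin Q' w (k t) = polarBilin Q' w t := fun t => by
    obtain ⟨χ, h3⟩ := hkf t
    simp only [h3, map_add, map_smul, hφy, hww, smul_zero, add_zero]
  obtain ⟨x, t₀, hx, ht₀, hxt⟩ : ∃ x t, polarBilin Q' w x = 0 ∧ polarBilin Q' w t = 0 ∧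
      polarBilin Q' (k x) (k t) ≠ polarBilin Q' x t := by
    by_contra hc
    push Not at hc
    obtain ⟨x, h3, h4⟩ := h.exists_perp k₀p 1
    have hx : polarBilin Q' w x = 0 := by rw [← hp]; exact h3 p (by simp)
    have key : ∀ t, polarBilin Q' w t = 0 → polarBilin Q' y t + polarBilin Q (k₀ p) t *
        (polarBilin Q' x y + polarBilin Q' y y) = 0 := by
      intro t ht
      have := hc x t hx ht
      obtain ⟨χ, h5⟩ := hkf x
      obtain ⟨χ', h6⟩ := hkf t
      rw [h5, h6] at this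
      simp only [map_add, map_smul, LinearMap.add_apply, LinearMap.smul_apply, h4, ht, hφy, hww,
        h'.refl _ _ hx, h'.refl _ _ hφy, smul_eq_mul] at this
      linear_combination this
    have h5 := key y hφy
    have h6 := key x hx
    rw [hψy, zero_mul, add_zero] at h5
    rw [h4, h5, show polarBilin Q' y x = polarBilin Q' x y from polar_comm Q' y x] at h6
    have h7 : polarBilin Q' x y = 0 := mul_left_cancel₀ h2 (by linear_combination h6)
    obtain ⟨t, h8, h9⟩ := h'.exists_perp hyw 1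
    have := key t (h8 w (by simp))
    rw [h5, h7, h9] at this
    simp at this
  have hφk' : ∀ t, polarBilin Q' w (k⁻¹ t) = polarBilin Q' w t := fun t => by
    rw [← hφk, le_apply_inv]
  let ω : Dual F V := polarBilin Q' (k x) - polarBilin Q' x ∘ₗ (k⁻¹ : V ≃ₗ[F] V).toLinearMap -
    (Q' (k x) + Q' x - polarBilin Q' x x) • polarBilin Q' w
  have hω : ∀ t, ω t = polarBilin Q' (k x) t - polarBilin Q' x (k⁻¹ t) -
    (Q' (k x) + Q' x - polarBilin Q' x x) * polarBilin Q' w t := fun _ => rfl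
  have hkw' : k⁻¹ w = w := by rw [← hkw, le_inv_apply, hkw]
  have hωw : ω w = 0 := by
    rw [hω, hkw', hww, h'.refl _ _ hx, h'.refl _ _ ((hφk x).trans hx)]; simp
  have hT : T1 H w ω :=
    (((hs x hx).conj hk).comp (hs (-k x) (by rw [map_neg, hφk, hx, neg_zero]))).congr fun t => by
      simp only [Ef, map_add, map_smul, map_neg, le_apply_inv, le_inv_apply, hkw, hkw', hφk', hww,
        hx, h'.refl _ _ hx, hω, LinearMap.neg_apply, Q'.map_neg, smul_eq_mul]
      module
  have hD : polarBilin Q p ∈ Dset H w := by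
    rw [hp]
    refine ⟨hww, fun c => ?_⟩
    have h3 : ω (k t₀) ≠ 0 := by
      rw [hω, le_inv_apply, hφk, ht₀, mul_zero, sub_zero]; exact sub_ne_zero.mpr hxt
    obtain ⟨s, hsH, hsf⟩ := hs ((c / ω (k t₀)) • k t₀) (by simp [hφk, ht₀])
    have h4 : s⁻¹ w = w := by
      apply s.injective
      rw [le_apply_inv, hsf, Ef_fix _ hww (h'.refl _ _ (by simp [hφk, ht₀]))]
    have h5 := hT.conj' hsH
    rw [h4] at h5
    convert h5.sub_right hT (by rw [LinearMap.comp_apply, LinearEquiv.coe_coe, ← h4,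
      le_apply_inv, hωw]) hωw using 1
    ext t
    simp only [LinearMap.sub_apply, LinearMap.comp_apply, LinearEquiv.coe_coe, hsf, Ef, map_add,
      map_smul, hωw, LinearMap.smul_apply, smul_eq_mul]
    field_simp
    ring
  have hA : w ∈ Aset H := mem_Aset_of_Dset fun r hr => by
    obtain ⟨z, hz, -, h3⟩ := orth_irr h hn (Z := (Dset H w).comap (polarBilin Q))
      (fun a x ha h5 h6 h7 y hy => by
        obtain ⟨k, hk, hkf⟩ := hE a x ha h7
        have h8 : k⁻¹ w = w := by
          apply k.injective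
          rw [le_apply_inv, hkf, Ef_fix _ (h.refl _ _ h5) (h.refl _ _ h6)]
        have := Dset_comp hy (H.inv_mem hk) h8
        rwa [show polarBilin Q y ∘ₗ (k⁻¹ : V ≃ₗ[F] V).toLinearMap = polarBilin Q (k y) from
          LinearMap.ext fun t => by
            rw [← le_apply_inv k t, hiso a x k ha h7 hkf]; simp [le_inv_apply], hkf] at this)
      hD hpw hr
    exact ⟨_, hz, h.refl_ne h3⟩
  refine SLV_le_of_Aset (h.eq_top fun r hr => ?_)
  obtain ⟨z, hz, -, h3⟩ := orth_irr h hn (u := 0) (Z := Aset H) (fun a x ha _ _ h7 y hy => by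
    obtain ⟨k, hk, hkf⟩ := hE a x ha h7
    rw [← hkf]; exact Aset_apply hy hk) hA (by simpa [mem_sp_one] using hw0)
    (r := r) (by simpa [mem_sp_one] using hr)
  exact ⟨z, hz, h3⟩

theorem solv_quad_two (h2 : (2 : F) = 0) (h : RF (σ := RingHom.id F) (polarBilin Q))
    (hn : 4 ≤ finrank F V) : Solv (polarBilin Q) (fun x => Q x = 1) 1 := by
  have main : ∀ w x₀, ∃ x, Q x = 1 ∧ polarBilin Q w x = polarBilin Q w x₀ := by
    intro w x₀
    have step : ∀ e x, Q e = 0 → polarBilin Q w e = 0 → polarBilin Q e x ≠ 0 →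
        ∃ y, Q y = 1 ∧ polarBilin Q w y = polarBilin Q w x := by
      intro e x he h1 h3
      have h4 : polar Q e x ≠ 0 := h3
      refine ⟨x + ((1 - Q x) / polar Q e x) • e, ?_, by rw [map_add, map_smul, h1]; simp⟩
      rw [quad_add_smul, he, polar_comm Q x e]; field_simp; ring
    by_cases hw : Q w = 0 ∧ w ≠ 0
    · by_cases h1 : polarBilin Q w x₀ = 0
      · obtain ⟨z, h3, h4⟩ := exists_perp_not_mem (polarBilin Q) [w] [w] (by simp; omega)
        obtain ⟨z', h5, h6⟩ := h.exists_perp h4 1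
        obtain ⟨y, h7, h8⟩ : ∃ y, polarBilin Q w y = 0 ∧ Q y ≠ 0 := by
          by_contra hc
          push Not at hc
          have := hc (z + z') (by rw [map_add, h3 w (by simp), h5 w (by simp), add_zero])
          rw [quad_add, hc z (h3 w (by simp)), hc z' (h5 w (by simp)), ← polarBilin_apply_apply,
            h6] at this
          simp at this
        obtain ⟨t, ht⟩ := exists_sq_eq_of_two_eq_zero h2 (Q y)⁻¹
        exact ⟨t • y, by rw [quad_smul, ← ht, inv_mul_cancel₀ h8], by rw [map_smul, h7, h1]; simp⟩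
      · exact step w x₀ hw.1 (by rw [polarBilin_apply_apply, polar_self_eq, hw.1, mul_zero]) h1
    · obtain ⟨e, he, h3, h4⟩ : ∃ e, Q e = 0 ∧ polarBilin Q w e = 0 ∧ e ∉ sp F [w] := by
        obtain ⟨e, he, h3, h4⟩ := exists_singular_perp Q [w] [] (by simp; omega)
        refine ⟨e, he, h3 w (by simp), fun hm => h4 ?_⟩
        obtain ⟨d, rfl⟩ := mem_sp_one.mp hm
        rw [quad_smul, mul_eq_zero, pow_eq_zero_iff two_ne_zero] at he
        rcases he with rfl | he
        · simp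
        · simp [not_not.mp (not_and.mp hw he)]
      obtain ⟨z, h5, h6⟩ := h.exists_perp h4 (1 - polarBilin Q e x₀)
      obtain ⟨y, h7, h8⟩ := step e (x₀ + z) he h3 (by rw [map_add, h6]; simp)
      exact ⟨y, h7, by rw [h8, map_add, h5 w (by simp), add_zero]⟩
  intro l hl x₀
  match l, hl with
  | [], _ => exact (main 0 x₀).imp fun x hx => ⟨hx.1, by simp⟩
  | [w], _ => exact (main w x₀).imp fun x hx => ⟨hx.1, by simpa using hx.2⟩

theorem all_tv_two (h2 : (2 : F) = 0)
    (h : RF (σ := RingHom.id F) (polarBilin Q)) (hn : 4 ≤ finrank F V) (hO : ∀ g : V ≃ₗ[F] V, (∀ x, Q (g x) = Q x) → g ∈ H)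
    (hH : ∀ g ∈ H, ∀ x y, polarBilin Q (g x) (g y) = polarBilin Q x y)
    {g : V ≃ₗ[F] V} (hg : g ∈ H) (hg' : ¬ ∀ x, Q (g x) = Q x) (v : V) :
    T1 H v (polarBilin Q v) := by
  have hself : ∀ x, polarBilin Q x x = 0 := fun x => by
    rw [polarBilin_apply_apply, polar_self_eq, h2, zero_mul]
  have hq : ∀ w x, Q (x + polarBilin Q w x • w) = Q x + polarBilin Q w x ^ 2 * (1 + Q w) := by
    intro w x
    rw [quad_add_smul, polarBilin_apply_apply, polar_comm Q x w]; ring
  have h1 : ∀ u, Q u = 1 → T1 H u (polarBilin Q u) := fun u hu =>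
    t1_of_tv (hself u) (hO _ fun x => by rw [tv_apply, hq, hu, one_add_one_eq_two, h2]; simp)
  have hc : ∀ k ∈ H, ∀ u, T1 H u (polarBilin Q u) → T1 H (k u) (polarBilin Q (k u)) := by
    intro k hk u hu
    refine T1.of_conj hk ?_
    rwa [show polarBilin Q (k u) ∘ₗ (k : V →ₗ[F] V) = polarBilin Q u from
      LinearMap.ext fun x => hH k hk u x]
  obtain ⟨u, hu, hgu⟩ : ∃ u, Q u = 1 ∧ Q (g u) ≠ 1 := by
    by_contra hc
    push Not at hc
    have h3 : ∀ x, Q x ≠ 0 → Q (g x) = Q x := by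
      intro x hx
      obtain ⟨t, ht⟩ := exists_sq_eq_of_two_eq_zero h2 (Q x)⁻¹
      have h4 := hc (t • x) (by rw [quad_smul, ← ht, inv_mul_cancel₀ hx])
      rw [map_smul, quad_smul, ← ht] at h4
      rw [← mul_inv_cancel_left₀ hx (Q (g x)), h4, mul_one]
    apply hg'
    intro x
    by_cases hx : Q x = 0
    · obtain ⟨y, hy, h4⟩ := solv_quad_two h2 h hn [x] le_rfl 0
      have h5 : polar Q x y = 0 := by simpa using h4 x (by simp)
      have h6 := h3 (x + y) (by rw [quad_add, hx, hy, h5]; simp)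
      have h7 := hH g hg x y
      rw [polarBilin_apply_apply, polarBilin_apply_apply] at h7
      rw [map_add, quad_add, quad_add, h7, hc y hy, hy] at h6
      simpa using h6
    · exact h3 x hx
  have hw := hc g hg u (h1 u hu)
  have hw0 : g u ≠ 0 := by
    intro h0
    rw [g.map_eq_zero_iff.mp h0] at hu
    simp at hu
  set w := g u
  by_cases hv : v = 0
  · rw [hv]; exact t1_zero_left _
  have hd : 1 + Q w ≠ 0 := fun h0 => hgu (by linear_combination h0 - h2)
  obtain ⟨β, hβ⟩ := exists_sq_eq_of_two_eq_zero h2 ((Q v - 1) / (1 + Q w))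
  obtain ⟨y, hy, -, h4⟩ := (solv_quad_two h2 h hn).one h (l := []) (a := w)
    (by rwa [mem_sp_nil]) β (by simp)
  obtain ⟨k, hk, hkf⟩ := hw.exists
  have h5 : Q (k y) = Q v := by
    rw [hkf, hq, hy, h4, ← hβ]; field_simp; ring
  have h6 : k y ≠ 0 := by
    intro h0
    rw [k.map_eq_zero_iff.mp h0] at hy
    simp at hy
  obtain ⟨e, he, he'⟩ := witt_quad_family Q h.nd (u := ![k y]) (v := ![v])
    (linearIndependent_unique_iff.mpr (by simpa using h6))
    (linearIndependent_unique_iff.mpr (by simpa using hv))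
    (fun i => by fin_cases i; exact h5) (fun i j hij => absurd (Subsingleton.elim i j) hij)
  have h7 : e (k y) = v := he' 0
  rw [← h7]
  exact hc e (hO e he) _ (hc k hk y (h1 y hy))


section Mat

open Cfsg.Geo

variable {F : Type*} [Field F] [Fintype F]

theorem c8_o_sp {m : ℕ} (hm : 2 ≤ m) (heven : ¬ Odd (Fintype.card F))
    (Q : (Fin m ⊕ Fin m → F) → F) (hQ : IsNondegenerateQuadraticForm Q)
    (hpol : ∀ u v, polar Q u v = sympForm m F u v) :
    IsMaximalIn (spGL m F) (quadSimilarityGroup Q ⊓ spGL m F) := by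
  have h2 : (2 : F) = 0 := by
    by_contra h
    exact heven (Nat.odd_iff.mpr (card_mod_two_of_two_ne_zero h))
  have hR := rf_toQF hQ
  have hB : ∀ x y, polarBilin (toQF hQ) x y = sympForm m F x y := hpol
  have hn : 4 ≤ finrank F (Fin m ⊕ Fin m → F) := by simp; omega
  have hspT : ∀ (w : Fin m ⊕ Fin m → F) (t : F) (x : Fin m ⊕ Fin m → F),
      toLE _ F (spToSpGL (spT w (t ^ 2))).1 x = x + polarBilin (toQF hQ) (t • w) x • t • w := by
    intro w t x
    refine (spT_mulVec w (t ^ 2) x).trans ?_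
    rw [hB, sympForm_smul_left, smul_smul, sympForm_neg_comm w x]
    congr 2
    linear_combination (t ^ 2 * sympForm m F x w) * h2
  refine isMaximalIn_of inf_le_right ?_ fun M hM hM' g hg hg' => ?_
  · obtain ⟨w, hw, -, hw0⟩ := exists_singular_perp (toQF hQ) [] [] (by simp; omega)
    rw [mem_sp_nil] at hw0
    refine ⟨_, (spToSpGL (spT w (1 ^ 2))).2, fun h => ?_⟩
    obtain ⟨c, hc⟩ := h.1
    have hc' : ∀ x, toQF hQ (x + polarBilin (toQF hQ) w x • w) = c * toQF hQ x := fun x => by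
      have := hspT w 1 x
      rw [one_smul] at this
      rw [← this]; exact hc x
    obtain ⟨z, -, h3⟩ := hR.exists_perp (l := []) (a := w) (by rwa [mem_sp_nil]) 1
    have h4 : polarBilin (toQF hQ) w (z + (-toQF hQ z) • w) = 1 := by
      rw [map_add, map_smul, h3, polarBilin_apply_apply, polar_self_eq, hw]; simp
    have hy : toQF hQ (z + (-toQF hQ z) • w) = 0 := by
      rw [quad_add_smul, hw, polar_comm, ← polarBilin_apply_apply, h3]; ring
    generalize z + (-toQF hQ z) • w = y at h4 hy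
    have := hc' y
    rw [quad_add_smul, h4, hy, hw, polar_comm, ← polarBilin_apply_apply, h4] at this
    simp at this
  · have key := all_tv_two h2 hR hn (H := M.map (toLE (Fin m ⊕ Fin m) F : GL (Fin m ⊕ Fin m) F →* _)) (fun e he => by
      obtain ⟨A, rfl⟩ := (toLE _ F).surjective e
      refine ⟨A, hM ⟨⟨1, fun v => by rw [Units.val_one, one_mul]; exact he v⟩, fun u v => ?_⟩, rfl⟩
      rw [← hB, ← hB]
      exact polar_eq_of_quad_eq (toQF hQ) (toQF hQ) (toLE _ F A : _ →ₗ[F] _) he u v)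
      (by
        rintro _ ⟨A, hA, rfl⟩ x y
        rw [hB, hB]
        exact hM' hA x y) ⟨g, hg, rfl⟩
      (fun h => hg' ⟨⟨1, fun v => by rw [Units.val_one, one_mul]; exact h v⟩, hM' hg⟩)
    have h3 := sp_eq_top_of_spT_mem (M.comap (Matrix.symplecticGroup (Fin m) F).subtype.toHomUnits)
      (fun w c => by
        obtain ⟨t, rfl⟩ := exists_sq_eq_of_two_eq_zero h2 c
        obtain ⟨A, hA, hA'⟩ := Has.mem (key (t • w)) (hspT w t)
        rw [Subgroup.mem_comap]
        have := (toLE _ F).injective hA'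
        rw [this] at hA
        exact hA)
    intro A hA
    have h4 : (⟨A.1, mem_sp_iff.mpr hA⟩ : Matrix.symplecticGroup (Fin m) F) ∈
        M.comap (Matrix.symplecticGroup (Fin m) F).subtype.toHomUnits := by rw [h3]; trivial
    rw [Subgroup.mem_comap] at h4
    convert h4 using 1
    exact Units.ext rfl


theorem c8_o {n : ℕ} (hn : 5 ≤ n) (hodd : Odd (Fintype.card F)) (Q : (Fin n → F) → F)
    (hQ : IsNondegenerateQuadraticForm Q) :
    IsMaximalIn (specialLinear (Fin n) F) (quadSimilarityGroup Q ⊓ specialLinear (Fin n) F) := by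
  have h2 : (2 : F) ≠ 0 := two_ne_zero_of_odd_card hodd
  have hR := rf_toQF hQ
  refine isMaximalIn_sl_of (H99.not_sl_le_quadSim (by simp; omega) hQ)
    fun H hH g hg hgH => orth_SLV_le2 h2 hR (by simp; omega) (fun x y hx hxy => ?_) hgH
    fun c hc => hg ?_
  · obtain ⟨e, he, h1⟩ := has_Ef_GG' (σ := RingHom.id F) (B := polarBilin (toQF hQ)) (c := -1)
      (Or.inr rfl) (fun _ => rfl) (fun x y => by simp [polar_comm]) (u := x) (x := y)
      (by rw [polarBilin_apply_apply, polar_self_eq, hx, mul_zero]) hxy (δ := -toQF hQ y)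
      (by rw [polarBilin_apply_apply, polar_self_eq, RingHom.id_apply]; ring)
    obtain ⟨A, rfl⟩ := (toLE (Fin n) F).surjective e
    refine ⟨_, hH A ⟨1, fun v => ?_⟩ he.2, h1⟩
    have := he.1 v v
    rw [polarBilin_apply_apply, polarBilin_apply_apply, polar_self_eq, polar_self_eq] at this
    rw [Units.val_one, one_mul]
    exact mul_left_cancel₀ h2 this
  · have hc0 : c ≠ 0 := by
      rintro rfl
      haveI : Nontrivial (Fin n → F) :=
        Module.nontrivial_of_finrank_pos (R := F) (by simp; omega)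
      obtain ⟨a, ha⟩ := exists_ne (0 : Fin n → F)
      exact hR.ne_zero ha (LinearMap.ext fun y => by simpa using hc a y)
    refine ⟨(Units.mk0 c hc0)⁻¹, fun v => ?_⟩
    have := hc v v
    rw [polarBilin_apply_apply, polarBilin_apply_apply, polar_self_eq, polar_self_eq,
      mul_left_comm] at this
    have h3 : Q v = c * Q (toLE (Fin n) F g v) := mul_left_cancel₀ h2 this
    rw [h3]
    simp [toLE_apply, hc0]

theorem c8_u {n : ℕ} (hn : 6 ≤ n) (σ : F ≃+* F) (f : (Fin n → F) → (Fin n → F) → F)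
    (hf : IsUnitaryForm σ f) :
    IsMaximalIn (specialLinear (Fin n) F) (similarityGroup f ⊓ specialLinear (Fin n) F) := by
  obtain ⟨e, he⟩ : ∃ e, σ e ≠ e := by
    by_contra h
    push Not at h
    exact hf.ne_refl (RingEquiv.ext h)
  set d := e - σ e with hd
  have hd0 : d ≠ 0 := sub_ne_zero.mpr he.symm
  have hd1 : σ d = -d := by rw [hd, map_sub, hf.involutive]; ring
  let B : (Fin n → F) →ₛₗ[(σ : F →+* F)] (Fin n → F) →ₗ[F] F :=
    LinearMap.mk₂'ₛₗ (σ : F →+* F) (RingHom.id F) (fun x y => d * f y x)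
      (fun x y v => by
        rw [hf.herm v, hf.add_left, map_add, ← hf.herm, ← hf.herm, mul_add])
      (fun c x v => by
        rw [hf.herm v, hf.smul_left, map_mul, ← hf.herm, smul_eq_mul]
        exact mul_left_comm _ _ _)
      (fun x y v => by rw [hf.add_left, mul_add])
      (fun c x v => by rw [hf.smul_left, smul_eq_mul, RingHom.id_apply, mul_left_comm])
  have hB : ∀ x y, B x y = d * f y x := fun _ _ => rfl
  have hs : ∀ x y, B y x = -(σ : F →+* F) (B x y) := fun x y => by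
    rw [hB, hB, hf.herm x y]
    show _ = -σ _
    rw [map_mul, hd1]; ring
  have hR : RF B := ⟨hf.involutive, fun x hx => by
    by_contra h0
    obtain ⟨y, hy⟩ := (hf.nondegenerate x h0).1
    exact mul_ne_zero hd0 hy (hx y), fun x y h => by rw [hs, h, map_zero, neg_zero]⟩
  exact isMaximalIn_skew
    (Cfsg.Agent.H99.not_sl_le_similarity (by simp; omega) hf.add_left
      hf.smul_left hf.nondegenerate) hd0 hB hR hs
    (solv_skew2 hR hs (fun h => he (RingHom.congr_fun h e)) (by simp; omega)) (by simp; omega)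

theorem c8_sp {n : ℕ} (hn : 5 ≤ n) (f : (Fin n → F) → (Fin n → F) → F)
    (hf : IsSymplecticForm f) :
    IsMaximalIn (specialLinear (Fin n) F) (similarityGroup f ⊓ specialLinear (Fin n) F) := by
  let B : (Fin n → F) →ₗ[F] (Fin n → F) →ₗ[F] F :=
    LinearMap.mk₂ F (fun x y => f y x) (fun x y v => hf.bilinear.add_right _ _ _)
      (fun c x v => hf.bilinear.smul_right _ _ _) (fun x y v => hf.bilinear.add_left _ _ _)
      (fun c x v => hf.bilinear.smul_left _ _ _)
  have hB : ∀ x y, B x y = f y x := fun _ _ => rfl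
  refine isMaximalIn_skew (σ := RingHom.id F) (B := B) (d := 1)
    (Cfsg.Agent.H99.not_sl_le_similarity (by simp; omega) hf.bilinear.add_left
      hf.bilinear.smul_left hf.nondegenerate) one_ne_zero (fun x y => by rw [hB, one_mul])
    ⟨fun _ => rfl, fun x hx => ?_, fun x y h => ?_⟩ (fun x y => hf.skew _ _)
    (solv_alt (fun x => hf.alternating x) 3) (by simp; omega)
  · by_contra h0
    obtain ⟨y, hy⟩ := (hf.nondegenerate x h0).1
    exact hy (hx y)
  · rw [hB] at h ⊢
    rw [hf.skew, h, neg_zero]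

end Mat

end Cfsg.Agent.H77
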