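import Cfsg.Agent.H77.SubArg

/-! Overgroups of subfield subgroups in small dimensions: polar structures, the dichotomy. -/

set_option autoImplicit false
set_option linter.unusedSectionVars false

namespace Cfsg.Agent.H77

open Module Cfsg.Agent.H27

section Polar

variable {K W : Type*} [Field K] [AddCommGroup W] [Module K W] [FiniteDimensional K W]
  {σ₀ : K →+* K} {B₀ : W →ₛₗ[σ₀] W →ₗ[K] K} {S : W → Prop}

theorem RF.one' (h : RF B₀) {l : List W} {b : W} (hb : b ∉ sp K l) :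
    ∃ a, (∀ w ∈ l, B₀ w a = 0) ∧ B₀ a b = 1 := by
  obtain ⟨φ, h1, h2⟩ := exists_dual_of_not_mem hb
  obtain ⟨a, rfl⟩ := h.rep φ
  exact ⟨a, fun w hw => h.refl _ _ (h1 w (mem_sp hw)), h2⟩

/-- A polar space of rank at least two. -/
structure PS (B₀ : W →ₛₗ[σ₀] W →ₗ[K] K) (S : W → Prop) : Prop where
  rf : RF B₀
  zero : S 0
  self : ∀ x, S x → B₀ x x = 0
  smul : ∀ (a : K) x, S x → S (a • x)
  add : ∀ x y, S x → S y → B₀ x y = 0 → S (x + y)
  partner : ∀ a z, S a → B₀ a z ≠ 0 → ∃ l : K, S (z + l • a)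
  line : ∀ u, S u → ∃ a, S a ∧ B₀ u a = 0 ∧ a ∉ sp K [u]

namespace PS

variable (P : PS B₀ S)
include P

theorem exists_ne : ∃ u, S u ∧ u ≠ 0 := by
  obtain ⟨a, ha, -, h⟩ := P.line 0 P.zero
  exact ⟨a, ha, by rintro rfl; exact h (Submodule.zero_mem _)⟩

theorem hyp {l : List W} {a : W} (ha : S a) (hl : ∀ w ∈ l, B₀ w a = 0) (hn : a ∉ sp K l) :
    ∃ b, S b ∧ (∀ w ∈ l, B₀ w b = 0) ∧ B₀ a b = 1 := by
  obtain ⟨z, h1, h2⟩ := P.rf.exists_perp hn 1
  obtain ⟨c, hc⟩ := P.partner a z ha (by rw [h2]; exact one_ne_zero)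
  exact ⟨_, hc, fun w hw => by simp [h1 w hw, hl w hw], by simp [h2, P.self a ha]⟩

theorem key {u a p : W} (ha : S a) (hua : B₀ u a = 0) (hn : a ∉ sp K [u]) (hp : p ∉ sp K [u])
    (hpa : B₀ p a = 0) : ∃ x, S x ∧ B₀ u x = 0 ∧ B₀ a x ≠ 0 ∧ B₀ p x ≠ 0 := by
  obtain ⟨b, hb, h1, h2⟩ := P.hyp (l := [u]) ha (by simpa using hua) hn
  have hub : B₀ u b = 0 := h1 u (by simp)
  by_cases hpb : B₀ p b = 0
  · obtain ⟨x, h3, h4⟩ := P.rf.exists_perp (l := [u, a, b]) (a := p) (fun hm => by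
      obtain ⟨α, β, γ, rfl⟩ := mem_sp_three.mp hm
      have h5 : B₀ b a ≠ 0 := P.rf.refl_ne (by rw [h2]; exact one_ne_zero)
      simp only [map_add, map_smulₛₗ, LinearMap.add_apply, LinearMap.smul_apply, hua, hub, h2,
        P.self a ha, P.self b hb, smul_eq_mul, mul_zero, zero_add, add_zero, mul_one,
        mul_eq_zero, map_eq_zero, h5, or_false] at hpa hpb
      exact hp (mem_sp_one.mpr ⟨α, by simp [hpa, hpb]⟩)) 1
    obtain ⟨c, hc⟩ := P.partner a (b + x) ha (by simp [h2, h3 a (by simp)])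
    exact ⟨_, hc, by simp [hub, hua, h3 u (by simp)], by simp [h2, h3 a (by simp), P.self a ha],
      by simp [hpb, h4, hpa]⟩
  · exact ⟨b, hb, hub, by rw [h2]; exact one_ne_zero, hpb⟩

theorem sp1 {u p : W} (hu : S u) (hp : p ∉ sp K [u]) : ∃ x, S x ∧ B₀ u x = 0 ∧ B₀ p x ≠ 0 := by
  obtain ⟨a, ha, h1, h2⟩ := P.line u hu
  by_cases hpa : B₀ p a = 0
  · obtain ⟨x, hx, h3, -, h4⟩ := P.key ha h1 h2 hp hpa
    exact ⟨x, hx, h3, h4⟩
  · exact ⟨a, ha, h1, hpa⟩

theorem span_perp {u : W} (hu : S u) {Z : Submodule K W} (h : ∀ a, S a → B₀ u a = 0 → a ∈ Z)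
    {a : W} (ha : B₀ u a = 0) : a ∈ Z := by
  by_contra hne
  obtain ⟨φ, h1, h2⟩ := exists_dual_of_not_mem hne
  obtain ⟨p, rfl⟩ := P.rf.rep φ
  obtain ⟨x, hx, h3, h4⟩ := P.sp1 hu (p := p) fun hm => by
    obtain ⟨d, rfl⟩ := mem_sp_one.mp hm
    simp [ha] at h2
  exact h4 (h1 x (h x hx h3))

theorem eq_top_of_conn {Z : Submodule K W} (Gd : W → Prop)
    (h1 : ∀ a ∈ Z, Gd a → S a → ∀ b, S b → B₀ a b = 0 → b ∈ Z)
    {a : W} (ha : a ∈ Z) (hGa : Gd a) (hSa : S a)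
    (h3 : ∀ x, x ∉ sp K [a] → Gd x ∨ Gd (a + x)) : Z = ⊤ := by
  have main : ∀ a ∈ Z, Gd a → S a → ∀ p, p ∉ sp K [a] → ∃ x ∈ Z, B₀ p x ≠ 0 := by
    intro a ha hGa hSa p hp
    obtain ⟨x, hx, h4, h5⟩ := P.sp1 hSa hp
    exact ⟨x, h1 a ha hGa hSa x hx h4, h5⟩
  refine P.rf.eq_top fun p hp => ?_
  by_cases hpa : p ∈ sp K [a]
  · obtain ⟨x, hx, hax, h5⟩ := P.line a hSa
    have key : ∀ y, S y → B₀ a y = 0 → y ∉ sp K [a] → Gd y → ∃ x ∈ Z, B₀ p x ≠ 0 := by
      intro y hy hay hyn hG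
      refine main y (h1 a ha hGa hSa y hy hay) hG hy p
        (not_mem_sp_one_symm (fun hm => hyn ?_) hp)
      exact sp_le (by simpa using hpa) hm
    rcases h3 x h5 with hG | hG
    · exact key x hx hax h5 hG
    · refine key _ (P.add a x hSa hx hax) (by rw [map_add, P.self a hSa, hax, add_zero])
        (fun hm => h5 ?_) hG
      simpa using Submodule.sub_mem _ hm (mem_sp (F := K) (l := [a]) (x := a) (by simp))
  · exact main a ha hGa hSa p hpa

/-- Connectedness of the non-collinearity graph. -/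
theorem conn (G : W → Prop)
    (h : ∀ e u u', S e → S u → S u' → B₀ e u ≠ 0 → B₀ e u' ≠ 0 → G u → G u')
    {u u' : W} (hu : S u) (hu' : S u') (hu0 : u ≠ 0) (hu0' : u' ≠ 0) (hG : G u) : G u' := by
  have step : ∀ u u', S u → S u' → u ≠ 0 → u' ≠ 0 → B₀ u' u = 0 → G u → G u' := by
    intro u u' hu hu' hu0 hu0' huu hG
    obtain ⟨e, he, -, h1, h2⟩ := P.key (u := 0) hu (by simp) (by simpa [mem_sp_one] using hu0)
      (by simpa [mem_sp_one] using hu0') huu
    exact h e u u' he hu hu' (P.rf.refl_ne h1) (P.rf.refl_ne h2) hG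
  by_cases huu : B₀ u' u = 0
  · exact step u u' hu hu' hu0 hu0' huu hG
  obtain ⟨a, ha, h1, h2⟩ := P.line u hu
  have h3 : S (a + (-(B₀ u' a / B₀ u' u)) • u) :=
    P.add _ _ ha (P.smul _ _ hu) (by simp [P.rf.refl _ _ h1])
  have h4 : a + (-(B₀ u' a / B₀ u' u)) • u ≠ 0 := fun h0 =>
    h2 (mem_sp_one.mpr ⟨B₀ u' a / B₀ u' u, by rwa [neg_smul, add_neg_eq_zero] at h0⟩)
  exact step _ u' h3 hu' h4 hu0' (by simp [huu])
    (step u _ hu h3 hu0 h4 (P.rf.refl _ _ (by simp [h1, P.self u hu])) hG)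

end PS

end Polar

variable {F V : Type*} [Field F] [AddCommGroup V] [Module F V] [FiniteDimensional F V]
  {σ : F →+* F} {B : V →ₛₗ[σ] V →ₗ[F] F} {c : F} {H : Subgroup (V ≃ₗ[F] V)}
  {K : Subfield F} {W : Type*} [AddCommGroup W] [Module K W] [FiniteDimensional K W]
  {j : W →ₗ[K] V} {σ₀ : K →+* K} {B₀ : W →ₛₗ[σ₀] W →ₗ[K] K} {S : W → Prop}

theorem PS.nr_of_rat (P : PS B₀ S) (hj : RS j) {g : V ≃ₗ[F] V}
    (hg' : ∀ x, S x → x ≠ 0 → Rat j (g (j x))) : NR j g := by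
  have hg : ∀ x, S x → Rat j (g (j x)) := fun v hv => by
    by_cases h0 : v = 0
    · exact ⟨0, 0, by simp [h0]⟩
    · exact hg' v hv h0
  obtain ⟨a, hSa, ha0⟩ := P.exists_ne
  obtain ⟨c, a', hc⟩ := hg a hSa
  have hc0 : c ≠ 0 := by
    rintro rfl
    exact hj.ne_zero ha0 (g.map_eq_zero_iff.mp (by simpa using hc))
  let Z : Submodule K W :=
    { carrier := {x | ∃ y, g (j x) = c • j y}
      zero_mem' := ⟨0, by simp⟩
      add_mem' := by
        rintro x y ⟨x', hx⟩ ⟨y', hy⟩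
        exact ⟨x' + y', by rw [map_add, map_add, hx, hy, map_add, smul_add]⟩
      smul_mem' := by
        rintro d x ⟨x', hx⟩
        exact ⟨d • x', by rw [j_smul, j_smul, map_smul, hx, smul_comm]⟩ }
  have hZ : Z = ⊤ := by
    refine P.eq_top_of_conn (fun x => x ≠ 0) ?_ (a := a) ⟨a', hc⟩ ha0 hSa
      (fun x hx => Or.inl (by rintro rfl; exact hx (Submodule.zero_mem _)))
    rintro x ⟨x', hx⟩ hx0 hSx y hSy hxy
    exact hj.rat_step hx hx0 hc0 (hg y hSy) (hg _ (P.add x y hSx hSy hxy))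
  exact ⟨c, hc0, fun x => (show x ∈ Z by rw [hZ]; trivial)⟩

theorem PS.rat_dual (P : PS B₀ S) {φ : Dual F V}
    (hφ : ∀ x y, S x → S y → B₀ x y = 0 → φ (j x) ≠ 0 → φ (j y) / φ (j x) ∈ K) :
    ∃ c : F, c ≠ 0 ∧ ∀ x, φ (j x) / c ∈ K := by
  by_cases h0 : ∃ a, S a ∧ φ (j a) ≠ 0
  · obtain ⟨a, hSa, ha⟩ := h0
    let Z : Submodule K W :=
      { carrier := {x | φ (j x) / φ (j a) ∈ K}
        zero_mem' := by simp
        add_mem' := by
          intro x y hx hy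
          simp only [Set.mem_setOf_eq, map_add, add_div] at hx hy ⊢
          exact K.add_mem hx hy
        smul_mem' := by
          intro d x hx
          simp only [Set.mem_setOf_eq, dual_j_smul, mul_div_assoc] at hx ⊢
          exact K.mul_mem d.2 hx }
    have hZ : Z = ⊤ := by
      refine P.eq_top_of_conn (fun x => φ (j x) ≠ 0) ?_ (a := a)
        (show φ (j a) / φ (j a) ∈ K by rw [div_self ha]; exact K.one_mem) ha hSa (fun x _ => ?_)
      · intro x hx hx0 hSx y hSy hxy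
        have := K.mul_mem (hφ x y hSx hSy hxy hx0) hx
        rwa [div_mul_div_cancel₀ hx0] at this
      · by_cases hx : φ (j x) = 0
        · right; rwa [map_add, map_add, hx, add_zero]
        · exact Or.inl hx
    exact ⟨_, ha, fun x => (show x ∈ Z by rw [hZ]; trivial)⟩
  · push Not at h0
    refine ⟨1, one_ne_zero, fun x => ?_⟩
    have hx : φ (j x) = 0 := P.span_perp P.zero
      (Z := LinearMap.ker ((φ.restrictScalars K) ∘ₗ j)) (fun a ha _ => h0 a ha) (by simp)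
    rw [hx, zero_div]; exact K.zero_mem

/-- A group of isometries containing the rational Eichler transformations. -/
structure LC (H : Subgroup (V ≃ₗ[F] V)) (B : V →ₛₗ[σ] V →ₗ[F] F) (c : F) (j : W →ₗ[K] V)
    (B₀ : W →ₛₗ[σ₀] W →ₗ[K] K) (S : W → Prop) : Prop where
  rs : RS j
  rf : RF B
  ps : PS B₀ S
  hB : ∀ x y, B (j x) (j y) = B₀ x y
  cc : c = 1 ∨ c = -1
  sym : ∀ x y, B y x = -c * σ (B x y)
  iso : ∀ g ∈ H, ∀ x y, B (g x) (g y) = B x y
  move : ∀ e u u', S e → S u → S u' → B₀ e u = 1 → B₀ e u' = 1 →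
    Has H (Ef B c (j e) (j (u' - u)) (-c * B₀ u' u))

/-- Extraction of rank one maps. -/
def Ext (H : Subgroup (V ≃ₗ[F] V)) (B : V →ₛₗ[σ] V →ₗ[F] F) (c : F) (j : W →ₗ[K] V)
    (B₀ : W →ₛₗ[σ₀] W →ₗ[K] K) (S : W → Prop) : Prop :=
  ∀ u a y (t : K), S u → S a → B₀ u a = 0 → Su H B c (j u) y →
    Su H B c (j u) ((t * B (j a) y) • j a)

namespace LC

variable (E : LC H B c j B₀ S)
include E

theorem c_ne : c ≠ 0 := by rcases E.cc with rfl | rfl <;> simp

theorem c_mem : c ∈ K := by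
  rcases E.cc with rfl | rfl
  · exact K.one_mem
  · exact K.neg_mem K.one_mem

theorem z {x y : W} (h : B₀ x y = 0) : B (j x) (j y) = 0 := by rw [E.hB, h]; rfl

theorem z' {x y : W} (h : B₀ x y = 0) : B (j y) (j x) = 0 := E.z (E.ps.rf.refl _ _ h)

theorem o {x y : W} (h : B₀ x y = 1) : B (j x) (j y) = 1 := by rw [E.hB, h]; rfl

theorem mem (x y : W) : B (j x) (j y) ∈ K := by rw [E.hB]; exact (B₀ x y).2

theorem z_of {x y : W} (h : B (j x) (j y) = 0) : B₀ x y = 0 := by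
  rw [E.hB] at h; exact Subtype.ext h

theorem sf {x : W} (h : S x) : B (j x) (j x) = 0 := E.z (E.ps.self x h)

theorem sig_mem {d : F} (hd : d ∈ K) : σ d ∈ K := by
  obtain ⟨u, -, hu⟩ := E.ps.exists_ne
  obtain ⟨a, -, h⟩ := E.ps.rf.one' (l := []) (b := u) (by rwa [mem_sp_nil])
  have := E.mem ((⟨d, hd⟩ : K) • a) u
  rwa [j_smul, map_smulₛₗ, LinearMap.smul_apply, E.o h, smul_eq_mul, mul_one] at this

theorem su_rat {a x : W} (ha : S a) (hax : B₀ a x = 0) : Su H B c (j a) (j x) := by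
  by_cases ha0 : a = 0
  · rw [ha0, map_zero]; exact su_zero _
  obtain ⟨u, hu, -, h1⟩ := E.ps.hyp (l := []) ha (by simp) (by rwa [mem_sp_nil])
  obtain ⟨l, hl⟩ := E.ps.partner a (u + x) ha (by simp [h1, hax])
  have h2 : Su H B c (j a) (j (u + x + l • a - u)) :=
    ⟨E.z (by simp [hax, E.ps.self a ha]), _,
      E.move a u _ ha hu hl h1 (by simp [h1, hax, E.ps.self a ha])⟩
  have := h2.sub E.rf (E.sf ha) (su_self (E.sf ha) l)
  rwa [show j (u + x + l • a - u) - (l : F) • j a = j x by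
    rw [← j_smul, ← map_sub]; congr 1; abel] at this

theorem ext (hn : 4 < finrank K W) : Ext H B c j B₀ S := by
  intro u a y t hu ha hua hy
  obtain ⟨x, h1, h2⟩ := exists_perp_not_mem B₀ [u, a] [u, a] (by simpa using hn)
  obtain ⟨x', h3, h4⟩ := E.ps.rf.exists_perp h2 (t / ⟨c, E.c_mem⟩)
  obtain ⟨-, δ, e1⟩ := E.su_rat ha (h1 a (by simp))
  obtain ⟨-, δ', e2⟩ := E.su_rat ha (h3 a (by simp))
  have := (hy.act E.rf E.iso (E.sf hu) e2 (E.z' hua) (E.z' (h3 u (by simp)))).act E.rf E.iso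
    (E.sf hu) e1 (E.z' hua) (E.z' (h1 u (by simp)))
  convert this using 1
  simp only [map_add, map_smul, E.z (h3 a (by simp)), E.sf ha, E.z' (h1 a (by simp)), E.hB x x', h4,
    smul_eq_mul]
  have := E.c_ne
  push_cast
  match_scalars <;> field_simp <;> ring

theorem move1 (hX : Ext H B c j B₀ S) {β : F} {u b : W} (hu : S u) (hb : b ∉ sp K [u])
    (h : Su H B c (j u) (β • j b)) {b' : W} (hb' : S b') (hub' : B₀ u b' = 0) :
    Su H B c (j u) (β • j b') := by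
  have step : ∀ b b', Su H B c (j u) (β • j b) → S b' → B₀ u b' = 0 → B₀ b b' ≠ 0 →
      Su H B c (j u) (β • j b') := by
    intro b b' h hb' h1 h2
    have h3 : ((B₀ b' b : K) : F) ≠ 0 := fun h0 => E.ps.rf.refl_ne h2 (Subtype.ext h0)
    have := hX u b' _ (B₀ b' b)⁻¹ hu hb' h1 h
    rwa [map_smul, E.hB, show ((B₀ b' b)⁻¹ : K) * (β • (B₀ b' b : F)) = β by
      push_cast; rw [smul_eq_mul]; field_simp] at this
  by_cases h1 : b' ∈ sp K [u]
  · obtain ⟨d, rfl⟩ := mem_sp_one.mp h1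
    rw [j_smul, smul_smul]
    exact su_self (E.sf hu) _
  by_cases h2 : B₀ b b' = 0
  · obtain ⟨x, hx, h3, h4, h5⟩ := E.ps.key hb' hub' h1 hb h2
    exact step x b' (step b x h hx h3 h5) hb' hub' (E.ps.rf.refl_ne h4)
  · exact step b b' h hb' hub' h2

theorem rr_of_one (hX : Ext H B c j B₀ S) {β : F} {u b : W} (hu : S u) (hu0 : u ≠ 0)
    (hb : b ∉ sp K [u]) (h : Su H B c (j u) (β • j b)) : Rr H B c j B₀ S β := by
  have sc : ∀ (d : K) u, d ≠ 0 → (∃ b, b ∉ sp K [d • u] ∧ Su H B c (j (d • u)) (β • j b)) →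
      ∃ b, b ∉ sp K [u] ∧ Su H B c (j u) (β • j b) := by
    rintro d u hd ⟨b, h1, h2⟩
    have hd' : (d : F) ≠ 0 := fun h0 => hd (Subtype.ext h0)
    rw [j_smul] at h2
    have h3 := h2.of_smul E.rf hd'
    rw [smul_comm, j_smul' (E.sig_mem d.2)] at h3
    refine ⟨_, fun hm => h1 ?_, h3⟩
    obtain ⟨t, ht⟩ := mem_sp_one.mp ((Submodule.smul_mem_iff _ (fun h0 =>
      (map_ne_zero σ).mpr hd' (congrArg Subtype.val h0))).mp hm)
    exact mem_sp_one.mpr ⟨t / d, by rw [ht, smul_smul, div_mul_cancel₀ _ hd]⟩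
  intro u' b' hu' hb' h1
  by_cases hu0' : u' = 0
  · rw [hu0', map_zero]; exact su_zero _
  obtain ⟨b₁, h2, h3⟩ := E.ps.conn (fun u => ∃ b, b ∉ sp K [u] ∧ Su H B c (j u) (β • j b))
    (fun e u u' he hu hu' h1 h2 hG => by
      obtain ⟨b, h3, h4⟩ := sc (B₀ e u) ((B₀ e u)⁻¹ • u) h1
        (by rwa [smul_smul, mul_inv_cancel₀ h1, one_smul])
      refine sc (B₀ e u')⁻¹ u' (inv_ne_zero h2) ?_
      have a1 : B₀ e ((B₀ e u)⁻¹ • u) = 1 := by simp [h1]
      have a2 : B₀ e ((B₀ e u')⁻¹ • u') = 1 := by simp [h2]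
      have s1 := E.ps.smul (B₀ e u)⁻¹ u hu
      have s2 := E.ps.smul (B₀ e u')⁻¹ u' hu'
      generalize (B₀ e u)⁻¹ • u = v at *
      generalize (B₀ e u')⁻¹ • u' = v' at *
      obtain ⟨k, hk, hkf⟩ := E.move e v v' he s1 s2 a1 a2
      have e1 : k (j v) = j v' := by
        simp [hkf, Ef, E.o a1, E.hB v' v, E.sf s1]
      have e2 : k (j b) = j (b + B₀ e b • (v' - v) +
          ((⟨c, E.c_mem⟩ : K) * (B₀ (v' - v) b - B₀ v' v * B₀ e b)) • e) := by
        rw [hkf, Ef, E.hB, E.hB, map_add, map_add, j_smul, j_smul]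
        push_cast
        module
      have h5 := h4.map hk (E.iso k hk)
      rw [map_smul, e1, e2] at h5
      refine ⟨_, fun hm => E.rs.not_mem h3 ?_, h5⟩
      obtain ⟨t, ht⟩ := mem_sp_one.mp hm
      exact mem_sp_one.mpr ⟨t, k.injective (by rw [e2, ht, map_smul k, e1, j_smul])⟩)
    hu hu' hu0 hu0' ⟨b, hb, h⟩
  exact E.move1 hX hu' h2 h3 hb' h1

/-- The group of coefficients. -/
def grp : AddSubgroup F where
  carrier := {β | Rr H B c j B₀ S β}
  zero_mem' u b hu hb h := by simpa using su_self (H := H) (c := c) (E.sf hu) 0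
  add_mem' {β γ} hβ hγ u b hu hb h := by
    rw [add_smul]; exact (hβ u b hu hb h).add E.rf (E.sf hu) (hγ u b hu hb h)
  neg_mem' {β} hβ u b hu hb h := by
    simpa using (su_self (H := H) (c := c) (E.sf hu) 0).sub E.rf (E.sf hu) (hβ u b hu hb h)

theorem one_mem_grp : 1 ∈ E.grp := fun u b hu _ h => by rw [one_smul]; exact E.su_rat hu h

theorem mul_mem_grp {d β : F} (hd : d ∈ K) (h : β ∈ E.grp) : d * β ∈ E.grp := fun u b hu hb h1 => by
  rw [mul_comm, mul_smul, j_smul' hd]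
  exact h u _ hu (E.ps.smul _ _ hb) (by rw [map_smul, h1, smul_zero])

theorem su_of_grp {β : F} (h : β ∈ E.grp) {u b : W} (hu : S u) (hub : B₀ u b = 0) :
    Su H B c (j u) (β • j b) := by
  let Z : Submodule K W :=
    { carrier := {b | ∀ β ∈ E.grp, Su H B c (j u) (β • j b)}
      zero_mem' := fun β _ => by simpa using su_self (H := H) (c := c) (E.sf hu) 0
      add_mem' := fun {a b} ha hb β h => by
        rw [map_add, smul_add]; exact (ha β h).add E.rf (E.sf hu) (hb β h)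
      smul_mem' := fun d a ha β h => by
        rw [j_smul, smul_smul, mul_comm]; exact ha _ (E.mul_mem_grp d.2 h) }
  exact E.ps.span_perp hu (Z := Z) (fun a ha h1 β h => h u a hu ha h1) hub β h

theorem grp_of_su (hX : Ext H B c j B₀ S) {u a : W} {y : V} (hu : S u) (hu0 : u ≠ 0)
    (hy : Su H B c (j u) y) (ha : B₀ u a = 0) : B (j a) y ∈ E.grp := by
  let Z : Submodule K W :=
    { carrier := {a | B (j a) y ∈ E.grp}
      zero_mem' := by simp
      add_mem' := fun {a b} ha hb => by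
        simpa only [Set.mem_setOf_eq, map_add, LinearMap.add_apply] using E.grp.add_mem ha hb
      smul_mem' := fun d a ha => by
        show B (j (d • a)) y ∈ E.grp
        rw [j_smul, map_smulₛₗ]
        exact E.mul_mem_grp (E.sig_mem d.2) ha }
  refine E.ps.span_perp hu (Z := Z) (fun a ha h => ?_) ha
  by_cases h1 : a ∈ sp K [u]
  · obtain ⟨d, rfl⟩ := mem_sp_one.mp h1
    exact Z.smul_mem d (show B (j u) y ∈ E.grp by rw [hy.1]; exact E.grp.zero_mem)
  · exact E.rr_of_one hX hu hu0 h1 (by simpa using hX u a y 1 hu ha h hy)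

theorem grp_mul (hn : 4 < finrank K W) {β γ : F} (hβ : β ∈ E.grp) (hγ : γ ∈ E.grp) :
    β * γ ∈ E.grp := by
  obtain ⟨u, hu, hu0⟩ := E.ps.exists_ne
  obtain ⟨a, ha, h1, h2⟩ := E.ps.line u hu
  obtain ⟨x, h3, h4⟩ := E.ps.rf.exists_perp h2 1
  obtain ⟨b, h5, h6⟩ := exists_perp_not_mem B₀ [u, a] [u, a] (by simpa using hn)
  obtain ⟨e, h7, h8⟩ := E.ps.rf.one' h6
  obtain ⟨-, δ, hE⟩ := E.su_of_grp hγ ha (h5 a (by simp))
  have := E.grp_of_su (E.ext hn) hu hu0 ((E.su_of_grp hβ hu (h3 u (by simp))).act E.rf E.iso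
    (E.sf hu) hE (E.z' h1) (by simp [E.z' (h5 u (by simp))])) (h7 u (by simp))
  simpa [E.o h4, E.o h8, E.z' (h7 a (by simp))] using this

theorem exists_perp_ne' {l : List W} {p : V} (hp : p ∉ sp F (l.map j)) :
    ∃ b, (∀ w ∈ l, B₀ w b = 0) ∧ B p (j b) ≠ 0 := by
  by_contra hc
  push Not at hc
  refine hp (E.rs.mem_sp_of_rat l fun φ h1 h2 => ?_)
  let φ₀ : Dual K W :=
    { toFun := fun x => ⟨φ (j x), h1 x⟩
      map_add' := fun x y => Subtype.ext (by simp)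
      map_smul' := fun a x => Subtype.ext (dual_j_smul _ a x) }
  obtain ⟨y, hy⟩ := E.ps.rf.rep φ₀
  have h3 : φ = B (j y) := by
    rw [← sub_eq_zero]
    exact E.rs.span _ fun x => by rw [LinearMap.sub_apply, E.hB, hy]; exact sub_self _
  rw [h3] at h2 ⊢
  exact E.rf.refl _ _ (hc y fun w hw => E.ps.rf.refl _ _ (E.z_of (h2 w hw)))

theorem exists_perp_ne {u : W} (hu : S u) {p : V} (hp : p ∉ sp F [j u]) :
    ∃ b, S b ∧ B₀ u b = 0 ∧ B p (j b) ≠ 0 := by
  by_contra hc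
  push Not at hc
  obtain ⟨b, h1, h2⟩ := E.exists_perp_ne' (l := [u]) hp
  exact h2 (E.ps.span_perp hu (Z := LinearMap.ker (((B p).restrictScalars K) ∘ₗ j)) hc
    (h1 u (by simp)))

theorem fullS_of (hR : ∀ β, β ∈ E.grp) : FullS H B c j S := by
  intro u hu x hx
  let Z : Submodule F V :=
    { carrier := {x | ∀ β : F, Su H B c (j u) (β • x)}
      zero_mem' := fun β => by simpa using su_self (H := H) (c := c) (E.sf hu) 0
      add_mem' := fun {a b} ha hb β => by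
        rw [smul_add]; exact (ha β).add E.rf (E.sf hu) (hb β)
      smul_mem' := fun d a ha β => by rw [smul_smul]; exact ha _ }
  suffices x ∈ Z by simpa using this 1
  by_contra hne
  obtain ⟨φ, h1, h2⟩ := exists_dual_of_not_mem hne
  obtain ⟨p, rfl⟩ := E.rf.rep φ
  obtain ⟨b, hb, h3, h4⟩ := E.exists_perp_ne hu (p := p) (fun hm => by
    obtain ⟨d, rfl⟩ := mem_sp_one.mp hm
    simp [hx] at h2)
  exact h4 (h1 _ fun β => hR β u b hu hb h3)

/-- The dichotomy. -/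
theorem dich (hn : 4 < finrank K W)
    (hd : ∀ M : Subring F, (∀ c ∈ K, c ∈ M) → (∀ c ∈ M, c ∈ K) ∨ ∀ c, c ∈ M) :
    RatS H B c j B₀ S ∨ FullS H B c j S :=
  (hd { E.grp with one_mem' := E.one_mem_grp, mul_mem' := E.grp_mul hn } fun d hd => by
    have := E.mul_mem_grp hd E.one_mem_grp
    rwa [mul_one] at this).imp
    (fun hR u hu hu0 x hx a ha => hR _ (E.grp_of_su (E.ext hn) hu hu0 hx ha)) E.fullS_of

end LC

end Cfsg.Agent.H77
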