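import Cfsg.Agent.H77.SubArg
import Cfsg.Agent.H27.SkHInst
import Cfsg.Agent.H11.OGeo

/-! Maximality of subfield subgroups of symplectic, unitary and orthogonal groups. -/

set_option autoImplicit false
set_option linter.unusedSectionVars false

namespace Cfsg.Agent.H77

open Module Cfsg.Agent.H27 QuadraticMap

variable {F V : Type*} [Field F] [AddCommGroup V] [Module F V] [FiniteDimensional F V]
  {σ : F →+* F} {B : V →ₛₗ[σ] V →ₗ[F] F} {c : F} {G N : Subgroup (V ≃ₗ[F] V)}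
  {K : Subfield F} {W : Type*} [AddCommGroup W] [Module K W] [FiniteDimensional K W]
  {j : W →ₗ[K] V} {σ₀ : K →+* K} {B₀ : W →ₛₗ[σ₀] W →ₗ[K] K} {S : W → Prop}

theorem rf_of_rs (hj : RS j) (h : RF B) (hinv : ∀ a, σ₀ (σ₀ a) = a)
    (hB : ∀ x y, B (j x) (j y) = B₀ x y) : RF B₀ :=
  ⟨hinv, fun x hx => by
    by_contra h0
    exact h.ne_zero (hj.ne_zero h0) (hj.span _ fun y => by rw [hB, hx y]; rfl),
    fun x y hxy => Subtype.ext (by rw [← hB]; exact h.refl _ _ (by rw [hB, hxy]; rfl))⟩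

/-- The restriction of a form to the rational vectors. -/
def formK (j : W →ₗ[K] V) (B : V →ₛₗ[σ] V →ₗ[F] F) (σ₀ : K →+* K) (hσ : ∀ d : K, σ d = σ₀ d)
    (hB : ∀ x y, B (j x) (j y) ∈ K) : W →ₛₗ[σ₀] W →ₗ[K] K :=
  LinearMap.mk₂'ₛₗ σ₀ (RingHom.id K) (fun x y => ⟨_, hB x y⟩)
    (fun x x' y => Subtype.ext (by simp))
    (fun d x y => Subtype.ext (by
      show B (j (d • x)) (j y) = σ₀ d * B (j x) (j y)
      rw [j_smul, map_smulₛₗ, hσ]; rfl))
    (fun x y y' => Subtype.ext (by simp))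
    (fun d x y => Subtype.ext (dual_j_smul _ d y))

/-- The restriction of a quadratic form to the rational vectors. -/
def quadK (j : W →ₗ[K] V) (Q : QuadraticForm F V) (hQ : ∀ x, Q (j x) ∈ K) : QuadraticForm K W where
  toFun x := ⟨_, hQ x⟩
  toFun_smul d x := Subtype.ext (by
    show Q (j (d • x)) = (d * d) * Q (j x)
    rw [j_smul, QuadraticMap.map_smul, smul_eq_mul])
  exists_companion' := ⟨formK j (polarBilin Q) (RingHom.id K) (fun _ => rfl) fun x y => by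
      rw [polarBilin_apply_apply, polar, ← map_add]
      exact K.sub_mem (K.sub_mem (hQ _) (hQ _)) (hQ _),
    fun x y => Subtype.ext (by
      show Q (j (x + y)) = Q (j x) + Q (j y) + polar Q (j x) (j y)
      rw [map_add j, quad_add])⟩

theorem rf_of_skH (h : SkH B) : RF B := ⟨h.inv, h.nd, fun _ _ => h.zero_symm⟩

theorem Iso_smul {ζ : F} (hζ : ζ ≠ 0) {B' : V →ₛₗ[σ] V →ₗ[F] F} (h : ∀ x y, B' x y = ζ * B x y) :
    Iso B' = Iso B := by
  ext g
  simp only [mem_Iso, h, mul_right_inj' hζ]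

theorem has_Ef_GG (hinv : ∀ a, σ (σ a) = a) (cc : c = 1 ∨ c = -1)
    (hs : ∀ x y, B y x = -c * σ (B x y)) {x y : V} (hx : B x x = 0) (hy : B y y = 0)
    (hxy : B x y = 0) : Has (GG B) (Ef B c x y 0) := by
  have hyx : B y x = 0 := by rw [hs, hxy, map_zero, mul_zero]
  have key : ∀ t, (tv y (B x) hxy * tv x (c • B y) (by simp [hyx])) t = Ef B c x y 0 t := by
    intro t
    simp only [le_mul_apply, tv_apply, map_add, map_smul, LinearMap.smul_apply, hx, Ef,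
      smul_eq_mul]
    module
  refine ⟨_, ⟨fun s t => ?_, (SLV F V).mul_mem (tv_mem_SLV _ _ _) (tv_mem_SLV _ _ _)⟩, key⟩
  rw [key, key]
  simp only [Ef, map_add, map_smulₛₗ, LinearMap.add_apply, LinearMap.smul_apply, hx, hy, hxy, hyx,
    smul_eq_mul, RingHom.id_apply, hs x s, hs y s, map_mul, map_zero]
  rcases cc with rfl | rfl <;> simp <;> ring

theorem Solv.mono {k k' : ℕ} (h : Solv B₀ S k) (hk : k' ≤ k) : Solv B₀ S k' :=
  fun l hl => h l (hl.trans hk)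

theorem ec_iso (hj : RS j) (h : RF B) (hinv : ∀ a, σ₀ (σ₀ a) = a)
    (hB : ∀ x y, B (j x) (j y) = B₀ x y) (cc : c = 1 ∨ c = -1)
    (hs : ∀ x y, B y x = -c * σ (B x y)) (hS : Solv B₀ (fun x => B₀ x x = 0) 5)
    (hn : 8 < finrank K W) : EC (GG B) B c j B₀ fun x => B₀ x x = 0 := by
  have h₀ := rf_of_rs hj h hinv hB
  exact
    { rs := hj, rf := h, rf₀ := h₀, hB := hB, cc := cc, sym := hs
      iso := fun g hg => hg.1
      solv := hS.mono (by norm_num)
      zero := fun l l' h1 h2 => hS.zero_not h₀ l l' (by omega) (by omega)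
      dim := by omega
      add := fun x y hx hy hxy => by simp [hx, hy, hxy, h₀.refl _ _ hxy]
      self := fun _ hx => hx
      smul := fun a x hx => by simp [hx]
      sieg := fun a b ha hb hab => has_Ef_GG h.inv cc hs (by rw [hB, ha]; rfl)
        (by rw [hB, hb]; rfl) (by rw [hB, hab]; rfl) }

theorem ec_quad [Finite F] {Q₀ : QuadraticForm K W} (hj : RS j) (h : RF B)
    (hB : ∀ x y, B (j x) (j y) = polarBilin Q₀ x y) (cc : c = 1 ∨ c = -1)
    (hs : ∀ x y, B y x = -c * σ (B x y)) (hn : 13 ≤ finrank K W)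
    (iso : ∀ g ∈ G, ∀ x y, B (g x) (g y) = B x y)
    (sieg : ∀ a b, Q₀ a = 0 → Q₀ b = 0 → polarBilin Q₀ a b = 0 → Has G (Ef B c (j a) (j b) 0)) :
    EC (σ₀ := RingHom.id K) G B c j (polarBilin Q₀) fun x => Q₀ x = 0 := by
  have h₀ := rf_of_rs (σ₀ := RingHom.id K) hj h (fun _ => rfl) hB
  exact
    { rs := hj, rf := h, rf₀ := h₀, hB := hB, cc := cc, sym := hs, iso := iso
      solv := solv_quad_val h₀ (by omega) 0
      zero := fun l l' h1 h2 => exists_singular_perp Q₀ l l' (by omega)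
      dim := by omega
      add := quad_add_of_perp Q₀
      self := fun x hx => by rw [polarBilin_apply_apply, polar_self_eq, hx, mul_zero]
      smul := fun a x hx => by rw [quad_smul, hx, mul_zero]
      sieg := sieg }

theorem EC.maximal (E : EC G B c j B₀ S) (hN : ∀ g, g ∈ N ↔ NR j g) (hK : K ≠ ⊤)
    (hθ : ∀ (θ : F) a b, S a → S b → B₀ a b = 0 → Has G (Ef B c (j a) (θ • j b) 0))
    (hd : ∀ M : Subring F, (∀ c ∈ K, c ∈ M) → (∀ c ∈ M, c ∈ K) ∨ ∀ c, c ∈ M)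
    (h1 : ∀ H ≤ G, EC H B c j B₀ S → (∀ g ∈ G, NR j g → g ∈ H) → RatS H B c j B₀ S →
      ∀ g ∈ H, NR j g)
    (h2 : ∀ H ≤ G, EC H B c j B₀ S → (∀ g ∈ G, NR j g → g ∈ H) → FullS H B c j S → G ≤ H) :
    Geo.IsMaximalIn G (N ⊓ G) := by
  refine isMaximalIn_of inf_le_right ?_ fun H hH hHG g hg hg' => ?_
  · obtain ⟨θ, -, hθK⟩ := SetLike.exists_of_lt (lt_top_iff_ne_top.mpr hK)
    obtain ⟨a, ha, ha0⟩ := E.exists_ne
    obtain ⟨e, -, -, h3⟩ := E.solv.one E.rf₀ (l := []) (a := a) (by rwa [mem_sp_nil]) 1 (by simp)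
    obtain ⟨b, hb, h4, h5⟩ := E.zero [a, e] [e] (by simp) (by simp)
    obtain ⟨g, hg, hgf⟩ := hθ θ a b ha hb (h4 a (by simp))
    refine ⟨g, hg, fun h => hθK ?_⟩
    obtain ⟨d, hd, h6⟩ := (hN g).mp h.1
    obtain ⟨y, hy⟩ := h6 e
    have he0 : e ≠ 0 := by rintro rfl; simp at h3
    rw [hgf, Ef, E.o h3] at hy
    simp only [map_smulₛₗ, LinearMap.smul_apply, E.z' (h4 e (by simp)), smul_zero, mul_zero,
      zero_mul, add_zero, zero_smul, one_smul] at hy
    have h7 : d⁻¹ • j e + (d⁻¹ * θ) • j b = j y := by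
      rw [mul_smul, ← smul_add, hy, smul_smul, inv_mul_cancel₀ hd, one_smul]
    have h8 := E.rs.coeff_mem (not_mem_sp_one_symm h5 he0)
      (Submodule.smul_mem _ _ (mem_sp (by simp))) h7
    have h9 := E.rs.coeff_mem h5 (Submodule.smul_mem _ _ (mem_sp (by simp)))
      ((add_comm _ _).trans h7)
    have := K.div_mem h9 h8
    rwa [mul_div_cancel_left₀ _ (inv_ne_zero hd)] at this
  · have h3 : ∀ g ∈ G, NR j g → g ∈ H := fun g hg h => hH ⟨(hN g).mpr h, hg⟩
    have E' : EC H B c j B₀ S :=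
      { E with
        iso := fun g hg => E.iso g (hHG hg)
        sieg := fun a b ha hb hab => by
          obtain ⟨k, hk, hkf⟩ := E.sieg a b ha hb hab
          refine ⟨k, h3 k hk ⟨1, one_ne_zero, fun x => ⟨x + B₀ a x • b +
            ((⟨c, E.c_mem⟩ : K) * B₀ b x) • a, ?_⟩⟩, hkf⟩
          simp [hkf, Ef, E.hB]
          rfl }
    rcases E'.dich hd with h | h
    · exact absurd ⟨(hN g).mpr (h1 H hHG E' h3 h g hg), hHG hg⟩ hg'
    · exact h2 H hHG E' h3 h

theorem norm_span [Finite F] (hinv : ∀ a, σ (σ a) = a) {t₀ : F} (h0 : t₀ ≠ 0)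
    (ht : σ t₀ = c * t₀) (A : AddSubgroup F) (hA : ∀ γ, σ γ * γ * t₀ ∈ A) (t : F)
    (h : σ t = c * t) : t ∈ A := by
  have hc : c ≠ 0 := by rintro rfl; simp [h0] at ht
  by_cases hσ : σ = RingHom.id F
  · obtain ⟨x, y, hxy⟩ := exists_mul_sq_add_mul_sq h0 h0 t
    have := A.add_mem (hA x) (hA y)
    rw [hσ] at this
    convert this using 1
    rw [← hxy]; simp only [RingHom.id_apply]; ring
  · obtain ⟨γ, hγ⟩ := exists_norm_eq hσ hinv (t := t / t₀) (by
      rw [map_div₀, h, ht, mul_div_mul_left _ _ hc])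
    have := hA γ
    rwa [hγ, div_mul_cancel₀ _ h0] at this

theorem maximal_skew [Finite F] (h : SkH B) (hj : RS j) (hinv : ∀ a, σ₀ (σ₀ a) = a)
    (hB : ∀ x y, B (j x) (j y) = B₀ x y) (hS : Solv B₀ (fun x => B₀ x x = 0) 5)
    (hn : 8 < finrank K W) (hN : ∀ g, g ∈ N ↔ NR j g) (hK : K ≠ ⊤)
    (hd : ∀ M : Subring F, (∀ c ∈ K, c ∈ M) → (∀ c ∈ M, c ∈ K) ∨ ∀ c, c ∈ M) :
    Geo.IsMaximalIn (GG B) (N ⊓ GG B) := by
  have hs : ∀ x y, B y x = -1 * σ (B x y) := fun x y => by rw [h.skew]; ring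
  have E := ec_iso hj (rf_of_skH h) hinv hB (Or.inl rfl) hs hS hn
  have hT : ∀ H, (∀ g ∈ GG B, NR j g → g ∈ H) → ∀ u, B₀ u u = 0 →
      T1 H (j u) ((1 : F) • B (j u)) := by
    intro H hH u hu
    rw [one_smul]
    refine t1_of_tv (E.sf hu) (hH _ ⟨skew_tv_isometry h.skew _, tv_mem_SLV _ _ _⟩
      ⟨1, one_ne_zero, fun x => ⟨x + B₀ u x • u, ?_⟩⟩)
    simp [tv_apply, hB]
    rfl
  exact E.maximal hN hK (fun θ a b ha hb hab => has_Ef_GG h.inv (Or.inl rfl) hs (E.sf ha)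
      (by simp [E.sf hb]) (by simp [E.z hab])) hd
    (fun H _ E' h1 h2 g hg => E'.nr_of_tv h2 one_ne_zero (hT H h1) hg)
    fun H _ E' h1 h2 => h.gen H fun v hv t ht => E'.all_tv h2 (hT H h1)
      (norm_span h.inv one_ne_zero (by simp)) hv (by rw [ht, one_mul])

theorem fix_decomp (hinv : ∀ a, σ (σ a) = a) {θ : F} (hθ : σ θ ≠ θ) (hK : ∀ c ∈ K, σ c = c)
    (hd : ∀ M : Subring F, (∀ c ∈ K, c ∈ M) → (∀ c ∈ M, c ∈ K) ∨ ∀ c, c ∈ M) (x : F) :
    ∃ a b : K, x = a + b * θ := by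
  have h1 : ∀ c, σ c = c → c ∈ K :=
    (hd (σ.eqLocus (RingHom.id F)) hK).resolve_right fun h => hθ (h θ)
  have h2 : θ - σ θ ≠ 0 := sub_ne_zero.mpr hθ.symm
  have h3 : σ θ - θ ≠ 0 := sub_ne_zero.mpr hθ
  have h4 : σ ((x - σ x) / (θ - σ θ)) = (x - σ x) / (θ - σ θ) := by
    rw [map_div₀, map_sub, map_sub, hinv, hinv]; field_simp; ring
  refine ⟨⟨x - (x - σ x) / (θ - σ θ) * θ, h1 _ ?_⟩, ⟨_, h1 _ h4⟩, by simp⟩
  rw [map_sub, map_mul, h4]; field_simp; ring

theorem RS.deg_two (hj : RS j) {θ : F} (h : ∀ x : F, ∃ a b : K, x = a + b * θ) (w : V) :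
    ∃ x y, w ∈ sp F [j x, j y] := by
  let A : Submodule F V :=
    { carrier := {w | ∃ x y, w = j x + θ • j y}
      zero_mem' := ⟨0, 0, by simp⟩
      add_mem' := by
        rintro _ _ ⟨x, y, rfl⟩ ⟨x', y', rfl⟩
        exact ⟨x + x', y + y', by simp only [map_add]; module⟩
      smul_mem' := by
        rintro d _ ⟨x, y, rfl⟩
        obtain ⟨a, b, h1⟩ := h d
        obtain ⟨a', b', h2⟩ := h (d * θ)
        refine ⟨a • x + a' • y, b • x + b' • y, ?_⟩
        rw [smul_add, smul_smul, h2, h1]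
        simp only [map_add, j_smul]
        module }
  obtain ⟨x, y, hw⟩ : w ∈ A := by
    rw [hj.eq_top (A := A) fun x => ⟨x, 0, by simp⟩]; trivial
  exact ⟨x, y, mem_sp_two.mpr ⟨1, θ, by rw [one_smul, hw]⟩⟩

section Mat

open Cfsg.Geo Matrix

variable {ι : Type} [Fintype ι] [DecidableEq ι]

theorem isMaximalIn_subfield {P : GL ι F} {G : Subgroup ((ι → F) ≃ₗ[F] (ι → F))}
    {G' : Subgroup (GL ι F)} (hG : G.comap (toLE ι F : GL ι F →* _) = G')
    (h : ∀ N : Subgroup ((ι → F) ≃ₗ[F] (ι → F)), (∀ g, g ∈ N ↔ NR (jP K P) g) →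
      IsMaximalIn G (N ⊓ G)) : IsMaximalIn G' (subfieldSubgroup K P ⊓ G') := by
  have := isMaximalIn_comap (toLE ι F) (h ((subfieldSubgroup K P).map (toLE ι F : GL ι F →* _))
    fun g => by
      obtain ⟨A, rfl⟩ := (toLE ι F).surjective g
      rw [← mem_subfield_iff_nr]
      exact Subgroup.mem_map_iff_mem (toLE ι F).injective)
  rwa [Subgroup.comap_inf, hG,
    Subgroup.comap_map_eq_self_of_injective (toLE ι F).injective] at this

theorem maximal_orth [Finite F] {Q : QuadraticForm F (ι → F)} (h : H11.ND Q)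
    (hn : 13 ≤ Fintype.card ι) {P : GL ι F} (hP : ∀ x, Q (jP K P x) ∈ K) (hK : K ≠ ⊤)
    (hd : ∀ M : Subring F, (∀ c ∈ K, c ∈ M) → (∀ c ∈ M, c ∈ K) ∨ ∀ c, c ∈ M) :
    IsMaximalIn (omegaGL Q) (subfieldSubgroup K P ⊓ omegaGL Q) := by
  let G : Subgroup ((ι → F) ≃ₗ[F] (ι → F)) := (omegaGL Q).map (toLE ι F : GL ι F →* _)
  refine isMaximalIn_subfield (G := G)
    (Subgroup.comap_map_eq_self_of_injective (toLE ι F).injective _) fun N hN => ?_
  have key : ∀ u v (hu : Q u = 0) (huv : polar Q u v = 0) x,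
      toLE ι F (H11.toGL Q (H11.eich hu huv)) x = Ef (polarBilin Q) (-1) u v (-Q v) x := by
    intro u v hu huv x
    rw [toLE_apply, H11.toGL_mulVec, H11.ap_eich, Ef, polarBilin_apply_apply,
      polarBilin_apply_apply, polar_comm Q x, polar_comm Q x]
    module
  have sieg : ∀ u v, Q u = 0 → Q v = 0 → polarBilin Q u v = 0 →
      Has G (Ef (polarBilin Q) (-1) u v 0) :=
    fun u v hu hv huv => ⟨_, ⟨_, h.eich_mem_omega (by omega) hu huv, rfl⟩, fun x => by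
      simpa [hv] using key u v hu huv x⟩
  have hQ : ∀ g ∈ G, ∀ x, Q (g x) = Q x := by
    rintro _ ⟨A, hA, rfl⟩ x
    exact H11.mem_isometryGroup.mp (H11.omegaGL_le _ hA) x
  have hS : ∀ x, quadK (jP K P) Q hP x = 0 → Q (jP K P x) = 0 := fun x hx =>
    congrArg Subtype.val hx
  have hB : ∀ x y, polarBilin Q (jP K P x) (jP K P y) = polarBilin (quadK (jP K P) Q hP) x y :=
    fun x y => by
      rw [polarBilin_apply_apply, polarBilin_apply_apply, polar, polar, ← map_add]; rfl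
  have E := ec_quad (σ := RingHom.id F) (c := -1) (rs_jP K P) (rf_polar h) hB (Or.inr rfl)
    (fun x y => by simp [polar_comm]) (by simpa using hn)
    (fun g hg x y => polar_eq_of_quad_eq Q Q g.toLinearMap (hQ g hg) x y)
    fun a b ha hb hab => sieg _ _ (hS a ha) (hS b hb) (by rw [hB, hab]; rfl)
  refine E.maximal hN hK (fun θ a b ha hb hab => sieg _ _ (hS a ha)
    (by rw [quad_smul, hS b hb, mul_zero]) (by rw [map_smul, E.z hab, smul_zero])) hd
    (fun H _ E' _ h2 g hg => E'.nr_of_sieg h2 hg) fun H hH E' _ h2 => ?_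
  refine Subgroup.map_le_iff_le_comap.mpr (h.omega_le_of_eich (by omega) fun u v hu huv => ?_)
  rcases eq_or_ne u 0 with rfl | hu0
  · exact (has_id H).mem fun x => by simpa [Ef] using key 0 v hu huv x
  · exact (E'.all_su h2 (fun g hg => hQ g (hH hg)) hS hu hu0 huv).mem (key u v hu huv)

end Mat

end Cfsg.Agent.H77
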