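import Cfsg.Agent.H77.LowArg
import Cfsg.Agent.H77.SubInst

/-! Maximality of subfield subgroups of classical groups in small dimensions. -/

set_option autoImplicit false
set_option linter.unusedSectionVars false

namespace Cfsg.Agent.H77

open Module Cfsg.Agent.H27 QuadraticMap

section Polar

variable {K W : Type*} [Field K] [AddCommGroup W] [Module K W] [FiniteDimensional K W]
  {σ₀ : K →+* K} {B₀ : W →ₛₗ[σ₀] W →ₗ[K] K}

theorem exists_sub_sig (hinv : ∀ a, σ₀ (σ₀ a) = a) (hσ : σ₀ ≠ RingHom.id K) {s : K}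
    (hs : σ₀ s = -s) : ∃ d, s = d - σ₀ d := by
  obtain ⟨θ, hθ⟩ : ∃ θ, σ₀ θ ≠ θ := by
    by_contra hc
    push Not at hc
    exact hσ (RingHom.ext hc)
  have h2 : θ - σ₀ θ ≠ 0 := sub_ne_zero.mpr hθ.symm
  have h3 : σ₀ θ - θ ≠ 0 := sub_ne_zero.mpr hθ
  refine ⟨s * θ / (θ - σ₀ θ), ?_⟩
  rw [map_div₀, map_mul, map_sub, hinv, hs]
  field_simp
  ring

theorem skew_partner (h : RF B₀) (hs : ∀ x y, B₀ y x = -σ₀ (B₀ x y))
    (tr : ∀ z, ∃ d, B₀ z z = d - σ₀ d) {a z : W} (ha : B₀ a a = 0) (haz : B₀ a z ≠ 0) :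
    ∃ l : K, B₀ (z + l • a) (z + l • a) = 0 := by
  obtain ⟨d, hd⟩ := tr z
  refine ⟨σ₀ (-d / B₀ a z), ?_⟩
  have := (map_ne_zero σ₀).mpr haz
  simp only [map_add, map_smulₛₗ, LinearMap.add_apply, LinearMap.smul_apply, ha, hd, hs a z,
    h.inv, smul_eq_mul, RingHom.id_apply, map_div₀, map_neg]
  field_simp
  ring

theorem solv_skew2 [Finite K] (h : RF B₀) (hs : ∀ x y, B₀ y x = -σ₀ (B₀ x y))
    (hσ : σ₀ ≠ RingHom.id K) {k : ℕ} (hn : 2 * k ≤ finrank K W) :
    Solv B₀ (fun x => B₀ x x = 0) k := by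
  intro l hl x₀
  have h1 : ∀ x, σ₀ (B₀ x x) = -B₀ x x := fun x => neg_eq_iff_eq_neg.mp (hs x x).symm
  by_cases hy : ∃ y, (∀ w ∈ l, B₀ w y = 0) ∧ B₀ y y ≠ 0
  · obtain ⟨y, hy₀, hy⟩ := hy
    set x₁ := x₀ - (B₀ y x₀ / B₀ y y) • y with hx₁
    have h2 : B₀ y x₁ = 0 := by simp [hx₁, hy]
    obtain ⟨c, hc⟩ := exists_norm_eq hσ h.inv (t := -B₀ x₁ x₁ / B₀ y y) (by
      rw [map_div₀, map_neg, h1, h1]; field_simp)
    refine ⟨x₁ + c • y, ?_, fun w hw => by simp [hx₁, hy₀ w hw]⟩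
    simp only [map_add, LinearMap.add_apply, map_smulₛₗ, LinearMap.smul_apply, h2, h.refl _ _ h2,
      smul_eq_mul, mul_zero, add_zero, zero_add, RingHom.id_apply]
    rw [← mul_assoc, mul_comm c, hc]
    field_simp
    ring
  push Not at hy
  by_cases hz : ∃ y, (∀ w ∈ l, B₀ w y = 0) ∧ B₀ y x₀ ≠ 0
  · obtain ⟨y, h2, h3⟩ := hz
    obtain ⟨c, hc⟩ := skew_partner h hs (fun z => exists_sub_sig h.inv hσ (h1 z)) (hy y h2) h3
    exact ⟨_, hc, fun w hw => by simp [h2 w hw]⟩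
  push Not at hz
  refine ⟨0, by simp, fun w hw => ?_⟩
  have h2 : perp B₀ l ≤ sp K l := fun e he => by
    by_contra he'
    apply hσ
    ext c
    obtain ⟨x, hx, h3⟩ := h.exists_perp he' c
    have h2 := hy (e + x) (fun w hw => by rw [map_add, he w hw, hx w hw, add_zero])
    simp only [map_add, LinearMap.add_apply, hy e he, hy x hx, hs e x, h3, zero_add,
      add_zero] at h2
    rw [RingHom.id_apply]
    linear_combination -h2
  have h3 := finrank_perp B₀ l
  have h4 := finrank_sp_le (F := K) l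
  rw [map_zero, hz w (by
    rw [← mem_perp, Submodule.eq_of_le_of_finrank_le h2 (by omega)]; exact mem_sp hw)]

theorem ps_skew (h : RF B₀) (hs : ∀ x y, B₀ y x = -σ₀ (B₀ x y)) (tr : ∀ z, ∃ d, B₀ z z = d - σ₀ d)
    (hS : Solv B₀ (fun x => B₀ x x = 0) 2) (hn : 2 < finrank K W) :
    PS B₀ fun x => B₀ x x = 0 where
  rf := h
  zero := by simp
  self _ hx := hx
  smul a x hx := by simp [hx]
  add x y hx hy hxy := by simp [hx, hy, hxy, h.refl _ _ hxy]
  partner _ _ := skew_partner h hs tr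
  line u _ := by simpa using hS.zero_not h [u] [u] (by simp) (by simpa using hn)

theorem ps_quad [Finite K] {Q : QuadraticForm K W} (h : RF (σ := RingHom.id K) (polarBilin Q))
    (hn : 4 < finrank K W) : PS (σ₀ := RingHom.id K) (polarBilin Q) fun x => Q x = 0 where
  rf := h
  zero := map_zero Q
  self x hx := by rw [polarBilin_apply_apply, polar_self_eq, hx, mul_zero]
  smul a x hx := by rw [quad_smul, hx, mul_zero]
  add := quad_add_of_perp Q
  partner a z ha haz := ⟨-Q z / polar Q a z, by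
    have : polar Q a z ≠ 0 := haz
    rw [quad_add_smul, ha, polar_comm Q z a]; field_simp; ring⟩
  line u _ := by simpa using exists_singular_perp Q [u] [u] (by simp; omega)

end Polar

variable {F V : Type*} [Field F] [AddCommGroup V] [Module F V] [FiniteDimensional F V]
  {σ : F →+* F} {B : V →ₛₗ[σ] V →ₗ[F] F} {c : F} {G N H : Subgroup (V ≃ₗ[F] V)}
  {K : Subfield F} {W : Type*} [AddCommGroup W] [Module K W] [FiniteDimensional K W]
  {j : W →ₗ[K] V} {σ₀ : K →+* K} {B₀ : W →ₛₗ[σ₀] W →ₗ[K] K} {S : W → Prop}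

theorem has_Ef_GG' (cc : c = 1 ∨ c = -1) (hinv : ∀ a, σ (σ a) = a)
    (hs : ∀ x y, B y x = -c * σ (B x y)) {u x : V} (hu : B u u = 0)
    (hux : B u x = 0) {δ : F} (hδ : c * δ = σ δ + B x x) : Has (GG B) (Ef B c u x δ) := by
  have hxu : B x u = 0 := by rw [hs, hux, map_zero, mul_zero]
  have key : ∀ t, (tv x (B u) hux * tv u (c • B x + δ • B u) (by simp [hxu, hu])) t =
      Ef B c u x δ t := by
    intro t
    simp only [le_mul_apply, tv_apply, map_add, map_smul, LinearMap.smul_apply, hu, Ef,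
      smul_eq_mul, LinearMap.add_apply]
    module
  refine ⟨_, ⟨fun s t => ?_, (SLV F V).mul_mem (tv_mem_SLV _ _ _) (tv_mem_SLV _ _ _)⟩, key⟩
  rw [key, key]
  simp only [Ef, map_add, map_smulₛₗ, LinearMap.add_apply, LinearMap.smul_apply, hu, hux, hxu,
    smul_eq_mul, RingHom.id_apply, hs u s, hs x s, map_mul]
  rcases cc with rfl | rfl <;> simp only [map_one, map_neg] <;>
    linear_combination (-σ (B u s) * B u t) * hδ

theorem lc_GG (hj : RS j) (h : RF B) (P : PS B₀ S) (hB : ∀ x y, B (j x) (j y) = B₀ x y)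
    (cc : c = 1 ∨ c = -1) (hs : ∀ x y, B y x = -c * σ (B x y)) : LC (GG B) B c j B₀ S where
  rs := hj
  rf := h
  ps := P
  hB := hB
  cc := cc
  sym := hs
  iso _ hg := hg.1
  move e u u' he hu hu' h1 h2 := has_Ef_GG' cc h.inv hs (by rw [hB, P.self e he]; rfl)
    (by rw [hB, map_sub, h1, h2, sub_self]; rfl) (by
      have a1 : B (j u) (j u) = 0 := by rw [hB, P.self u hu]; rfl
      have a2 : B (j u') (j u') = 0 := by rw [hB, P.self u' hu']; rfl
      simp only [map_sub, LinearMap.sub_apply, a1, a2, ← hB, hs (j u') (j u), map_mul]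
      rcases cc with rfl | rfl <;> simp only [map_neg, map_one] <;> ring)

theorem LC.maximal (E : LC G B c j B₀ S) (hn : 2 < finrank K W) (hN : ∀ g, g ∈ N ↔ NR j g)
    (hK : K ≠ ⊤) (hF : FullS G B c j S)
    (h : ∀ H ≤ G, LC H B c j B₀ S → (∀ g ∈ G, NR j g → g ∈ H) → (∀ g ∈ H, NR j g) ∨ G ≤ H) :
    Geo.IsMaximalIn G (N ⊓ G) := by
  refine isMaximalIn_of inf_le_right ?_ fun H hH hHG g hg hg' => ?_
  · obtain ⟨θ, -, hθK⟩ := SetLike.exists_of_lt (lt_top_iff_ne_top.mpr hK)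
    obtain ⟨a, ha, ha0⟩ := E.ps.exists_ne
    obtain ⟨e, he, -, h3⟩ := E.ps.hyp (l := []) ha (by simp) (by rwa [mem_sp_nil])
    obtain ⟨b, h4, h5⟩ := exists_perp_not_mem B₀ [a, e] [] (by simpa using hn)
    obtain ⟨-, δ, g, hg, hgf⟩ := hF a ha (θ • j b) (by simp [E.z (h4 a (by simp))])
    refine ⟨g, hg, fun h => hθK ?_⟩
    obtain ⟨d, hd, h6⟩ := (hN g).mp h.1
    obtain ⟨y, hy⟩ := h6 e
    rw [hgf, Ef, E.o h3] at hy
    simp only [map_smulₛₗ, LinearMap.smul_apply, E.z' (h4 e (by simp)), smul_zero, mul_zero,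
      mul_one, zero_add, one_smul] at hy
    have h7 : d⁻¹ • j e + ((d⁻¹ * θ) • j b + (d⁻¹ * δ) • j a) = j y := by
      rw [mul_smul, mul_smul, ← smul_add, ← smul_add, ← add_assoc, hy, smul_smul,
        inv_mul_cancel₀ hd, one_smul]
    have h8 := E.rs.coeff_mem (l := [b, a]) (not_mem_sp_of (B₀ a)
      (by simp [h4 a (by simp), E.ps.self a ha]) (by rw [h3]; exact one_ne_zero))
      (mem_sp_two.mpr ⟨_, _, rfl⟩) h7
    have h9 := E.rs.coeff_mem (l := [e, a]) (a := b) (fun hm => h5 (by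
      obtain ⟨α, β, rfl⟩ := mem_sp_two.mp hm
      have a1 := h4 a (by simp)
      have a2 := h4 e (by simp)
      have a3 : B₀ e a ≠ 0 := E.ps.rf.refl_ne (by rw [h3]; exact one_ne_zero)
      simp only [map_add, map_smul, h3, E.ps.self a ha, E.ps.self e he, smul_eq_mul, mul_zero,
        mul_one, add_zero, zero_add, mul_eq_zero, a3, or_false] at a1 a2
      simp [a1, a2])) (mem_sp_two.mpr ⟨_, _, rfl⟩) ((add_left_comm _ _ _).trans h7)
    have := K.div_mem h9 h8
    rwa [mul_div_cancel_left₀ _ (inv_ne_zero hd)] at this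
  · have h3 : ∀ g ∈ G, NR j g → g ∈ H := fun g hg h => hH ⟨(hN g).mpr h, hg⟩
    have E' : LC H B c j B₀ S :=
      { E with
        iso := fun g hg => E.iso g (hHG hg)
        move := fun e u u' he hu hu' h1 h2 => by
          obtain ⟨k, hk, hkf⟩ := E.move e u u' he hu hu' h1 h2
          refine ⟨k, h3 k hk ⟨1, one_ne_zero, fun x => ⟨x + B₀ e x • (u' - u) +
            ((⟨c, E.c_mem⟩ : K) * (B₀ (u' - u) x - B₀ u' u * B₀ e x)) • e, ?_⟩⟩, hkf⟩
          rw [hkf, Ef, E.hB, E.hB, map_add, map_add, j_smul, j_smul]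
          push_cast
          module }
    exact (h H hHG E' h3).resolve_left fun h4 => hg' ⟨(hN g).mpr (h4 g hg), hHG hg⟩

theorem t1_rat (h : SkH B) (hB : ∀ x y, B (j x) (j y) = B₀ x y)
    (hH : ∀ g ∈ GG B, NR j g → g ∈ H) {u : W} (hu : B₀ u u = 0) {t : F} (ht : t ∈ K)
    (ht' : σ t = t) : T1 H (j u) (t • B (j u)) := by
  obtain ⟨k, hk, hkf⟩ := has_Ef_GG' (Or.inl rfl) h.inv (fun x y => by rw [h.skew]; ring)
    (u := j u) (x := 0) (by rw [hB, hu]; rfl) (by simp) (δ := t) (by simp [ht'])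
  refine (has_Ef_zero (c := 1)).mp ⟨k, hH k hk ⟨1, one_ne_zero, fun x =>
    ⟨x + ((⟨t, ht⟩ : K) * B₀ u x) • u, ?_⟩⟩, hkf⟩
  rw [hkf, Ef, hB, map_add, j_smul]
  simp

theorem fullS_skH (h : SkH B) (P : PS B₀ S) (hB : ∀ x y, B (j x) (j y) = B₀ x y) :
    FullS (GG B) B 1 j S := fun u hu x hx => by
  obtain ⟨d, hd⟩ := h.tr x
  exact ⟨hx, d, has_Ef_GG' (Or.inl rfl) h.inv (fun x y => by rw [h.skew]; ring)
    (by rw [hB, P.self u hu]; rfl) hx (by rw [hd]; ring)⟩

theorem low_skew [Finite F] (h : SkH B) (hj : RS j) (P : PS B₀ fun x => B₀ x x = 0)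
    (hB : ∀ x y, B (j x) (j y) = B₀ x y)
    (hn : 4 < finrank K W) (hN : ∀ g, g ∈ N ↔ NR j g) (hK : K ≠ ⊤)
    (hd : ∀ M : Subring F, (∀ c ∈ K, c ∈ M) → (∀ c ∈ M, c ∈ K) ∨ ∀ c, c ∈ M) :
    Geo.IsMaximalIn (GG B) (N ⊓ GG B) :=
  (lc_GG hj (rf_of_skH h) P hB (Or.inl rfl) fun x y => by rw [h.skew]; ring).maximal (by omega)
    hN hK (fullS_skH h P hB) fun H _ E h1 =>
      have hT := fun u hu => t1_rat h hB h1 (u := u) hu K.one_mem (map_one σ)
      (E.dich hn hd).imp (fun h2 _ hg => E.nr_of_tv h2 one_ne_zero hT (Or.inl hn) hg)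
      fun h2 => h.gen H fun v hv t ht => E.all_tv h2 hT
        (norm_span h.inv one_ne_zero (by simp)) hv (by rw [ht, one_mul])

section Alt

variable {B : V →ₗ[F] V →ₗ[F] F}

theorem low_alt_two [Finite F] (h2 : (2 : F) = 0) (h : SkH B) (hj : RS j)
    (P : PS B₀ fun x => B₀ x x = 0) (hB : ∀ x y, B (j x) (j y) = B₀ x y)
    (hn : 2 < finrank K W) (hN : ∀ g, g ∈ N ↔ NR j g) (hK : K ≠ ⊤)
    (hd : ∀ M : Subring F, (∀ c ∈ K, c ∈ M) → (∀ c ∈ M, c ∈ K) ∨ ∀ c, c ∈ M) :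
    Geo.IsMaximalIn (GG B) (N ⊓ GG B) := by
  have hsq : ∀ γ : F, γ * γ ∈ K → γ ∈ K := fun γ hγ => by
    obtain ⟨t, ht⟩ := exists_sq_eq_of_two_eq_zero (F := K) (Subtype.ext h2) ⟨_, hγ⟩
    have h3 : γ * γ = t ^ 2 := congrArg Subtype.val ht
    have h4 : (γ - t) ^ 2 = 0 := by linear_combination h3 + (t ^ 2 - γ * t) * h2
    rw [sub_eq_zero.mp (pow_eq_zero_iff two_ne_zero |>.mp h4)]
    exact t.2
  refine (lc_GG hj (rf_of_skH h) P hB (Or.inl rfl) fun x y => by rw [h.skew]; ring).maximal hn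
    hN hK (fullS_skH h P hB) fun H _ E h1 => ?_
  have hT := fun u hu => t1_rat h hB h1 (u := u) hu K.one_mem rfl
  have hX : Ext H B 1 j B₀ fun x => B₀ x x = 0 := fun u a y t hu ha hua hy => by
    simpa using hy.act E.rf E.iso (E.sf hu) (has_Ef_zero.mpr (t1_rat h hB h1 ha t.2 rfl))
      (E.z' hua) (by simp)
  obtain ⟨u, hu, hu0⟩ := P.exists_ne
  rcases hd
    { carrier := {m | ∀ β ∈ E.grp, m * β ∈ E.grp}
      one_mem' := fun β hβ => by rwa [one_mul]
      zero_mem' := fun β _ => by rw [zero_mul]; exact E.grp.zero_mem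
      mul_mem' := fun ha hb β hβ => by rw [mul_assoc]; exact ha _ (hb β hβ)
      add_mem' := fun ha hb β hβ => by rw [add_mul]; exact E.grp.add_mem (ha β hβ) (hb β hβ)
      neg_mem' := fun ha β hβ => by rw [neg_mul]; exact E.grp.neg_mem (ha β hβ) }
    (fun d hd β => E.mul_mem_grp hd) with hM | hM
  · have hA : RatS H B 1 j B₀ fun x => B₀ x x = 0 := fun e he he0 y hy b hb => by
      have hγ := E.grp_of_su hX he he0 hy hb
      generalize B (j b) y = γ at hγ
      refine hsq γ (hM _ fun β hβ => ?_)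
      obtain ⟨a, ha, a1, a2⟩ := P.line u hu
      obtain ⟨x, a3, a4⟩ := P.rf.exists_perp a2 1
      obtain ⟨x', a5, a6⟩ := P.rf.one' (not_mem_sp_one_symm a2 hu0)
      obtain ⟨e', a7, a8⟩ := P.rf.one' a2
      obtain ⟨-, δ, k, hk, hkf⟩ := E.su_of_grp hγ ha (a5 a (by simp))
      have b1 := t1_map hk (E.iso k hk) (hT u hu)
      rw [hkf, Ef] at b1
      have b2 : Has H (Ef B 1 (j a) (γ • j u) (γ * γ)) :=
        (Has.comp b1 ((hT u hu).neg_right (by simp [E.sf hu]))).congr fun t => by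
          simp only [Ef, map_add, map_smul, LinearMap.add_apply, LinearMap.smul_apply,
            LinearMap.neg_apply, E.z' a1, E.z a1, E.sf hu, E.o a6, smul_eq_mul]
          module
      simpa [E.o a4, E.o a8, E.z' (a7 u (by simp)), E.z (a3 u (by simp))] using
        E.grp_of_su hX hu hu0 ((E.su_of_grp hβ hu (a3 u (by simp))).act E.rf E.iso (E.sf hu) b2
          (E.z' a1) (by simp [E.sf hu])) (a7 u (by simp))
    refine Or.inl fun g hg => E.nr_of_tv hA one_ne_zero hT (Or.inr fun μ v hv hv0 hμ => ?_) hg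
    obtain ⟨a, ha, a1, a2⟩ := P.line v hv
    have a0 : a ≠ 0 := by rintro rfl; exact a2 (Submodule.zero_mem _)
    obtain ⟨x, a3, a4⟩ := P.rf.exists_perp (not_mem_sp_one_symm a2 hv0) 1
    obtain ⟨e, a5, a6⟩ := P.rf.one' (not_mem_sp_one_symm a2 hv0)
    refine hsq μ ?_
    simpa [E.o a4, E.o a6] using hA a ha a0 _ ((E.su_rat ha (a3 a (by simp))).act E.rf E.iso
      (E.sf ha) (has_Ef_zero.mpr hμ) (by simp [E.z a1]) (by simp)) e (a5 a (by simp))
  · exact Or.inr (h.gen H fun v hv t ht => E.all_tv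
      (E.fullS_of fun β => by simpa using hM β 1 E.one_mem_grp) hT
      (norm_span h.inv one_ne_zero (by simp)) hv (by rw [ht, one_mul]))

end Alt

section Mat

open Cfsg.Geo Matrix

variable {ι : Type} [Fintype ι] [DecidableEq ι]

theorem low_orth [Finite F] {Q : QuadraticForm F (ι → F)} (h : H11.ND Q)
    (hn : 5 ≤ Fintype.card ι) {P : GL ι F} (hP : ∀ x, Q (jP K P x) ∈ K) (hK : K ≠ ⊤)
    (hd : ∀ M : Subring F, (∀ c ∈ K, c ∈ M) → (∀ c ∈ M, c ∈ K) ∨ ∀ c, c ∈ M) :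
    IsMaximalIn (omegaGL Q) (subfieldSubgroup K P ⊓ omegaGL Q) := by
  let G : Subgroup ((ι → F) ≃ₗ[F] (ι → F)) := (omegaGL Q).map (toLE ι F : GL ι F →* _)
  refine isMaximalIn_subfield (G := G)
    (Subgroup.comap_map_eq_self_of_injective (toLE ι F).injective _) fun N hN => ?_
  have key : ∀ u v (hu : Q u = 0) (huv : polar Q u v = 0) x,
      toLE ι F (H11.toGL Q (H11.eich hu huv)) x = Ef (polarBilin Q) (-1) u v (-Q v) x := by
    intro u v hu huv x
    rw [toLE_apply, H11.toGL_mulVec, H11.ap_eich, Ef, polarBilin_apply_apply,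
      polarBilin_apply_apply, polar_comm Q x, polar_comm Q x]
    module
  have eich : ∀ u v, Q u = 0 → polarBilin Q u v = 0 →
      Has G (Ef (polarBilin Q) (-1) u v (-Q v)) :=
    fun u v hu huv => ⟨_, ⟨_, h.eich_mem_omega hn hu huv, rfl⟩, key u v hu huv⟩
  have hQ : ∀ g ∈ G, ∀ x, Q (g x) = Q x := by
    rintro _ ⟨A, hA, rfl⟩ x
    exact H11.mem_isometryGroup.mp (H11.omegaGL_le _ hA) x
  have hS : ∀ x, quadK (jP K P) Q hP x = 0 → Q (jP K P x) = 0 := fun x hx =>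
    congrArg Subtype.val hx
  have hB : ∀ x y, polarBilin Q (jP K P x) (jP K P y) = polarBilin (quadK (jP K P) Q hP) x y :=
    fun x y => by
      rw [polarBilin_apply_apply, polarBilin_apply_apply, polar, polar, ← map_add]; rfl
  have hn' : 4 < finrank K (ι → K) := by simp; omega
  have E : LC (σ := RingHom.id F) (σ₀ := RingHom.id K) G (polarBilin Q) (-1) (jP K P)
      (polarBilin (quadK (jP K P) Q hP)) fun x => quadK (jP K P) Q hP x = 0 :=
    { rs := rs_jP K P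
      rf := rf_polar h
      ps := ps_quad (rf_of_rs (rs_jP K P) (rf_polar h) (fun _ => rfl) hB) hn'
      hB := hB
      cc := Or.inr rfl
      sym := fun x y => by simp [polar_comm]
      iso := fun g hg x y => polar_eq_of_quad_eq Q Q g.toLinearMap (hQ g hg) x y
      move := fun e u u' he hu hu' h1 h2 => by
        convert eich _ (jP K P (u' - u)) (hS e he) (by rw [hB, map_sub, h1, h2, sub_self]; rfl)
          using 2
        rw [← hB, map_sub, sub_eq_add_neg, ← neg_one_smul F (jP K P u), quad_add_smul, hS u hu,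
          hS u' hu']
        simp }
  refine E.maximal (by omega) hN hK (fun u hu x hx => ⟨hx, _, eich _ _ (hS u hu) hx⟩)
    fun H hH E' h1 => (E'.dich hn' hd).imp (fun h2 g hg => E'.nr_of_sieg h2 hn'
      (fun a b ha hb hab => ?_) hg) fun h2 => ?_
  · obtain ⟨k, hk, hkf⟩ := eich _ _ (hS a ha) (E.z hab)
    rw [hS b hb, neg_zero] at hkf
    refine ⟨k, h1 k hk ⟨1, one_ne_zero, fun x => ⟨x + polarBilin (quadK (jP K P) Q hP) a x • b -
      polarBilin (quadK (jP K P) Q hP) b x • a, ?_⟩⟩, hkf⟩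
    rw [hkf, Ef, hB, hB, map_sub, map_add, j_smul, j_smul]
    module
  refine Subgroup.map_le_iff_le_comap.mpr (h.omega_le_of_eich hn fun u v hu huv => ?_)
  rcases eq_or_ne u 0 with rfl | hu0
  · exact (has_id H).mem fun x => by simpa [Ef] using key 0 v hu huv x
  · exact (E'.all_su h2 (fun g hg => hQ g (hH hg)) hS hu hu0 huv).mem (key u v hu huv)

end Mat

end Cfsg.Agent.H77
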