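import Cfsg.Agent.H27.MonoSL3

/-!
The monomial group of `SL(V)` is maximal for `dim V = 6`, `|F| ≥ 5`; matrix forms of the reducible
and imprimitive rows for `SL`.
-/

set_option autoImplicit false
set_option linter.unusedSectionVars false

namespace Cfsg.Agent.H77

open Module Cfsg.Geo H27

section

variable {F V : Type*} [Field F] [AddCommGroup V] [Module F V] [FiniteDimensional F V]
variable {ι : Type*} [Fintype ι] [DecidableEq ι]
variable {H : Subgroup (V ≃ₗ[F] V)} {b : Basis ι F V}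

theorem exists_good_scalar [Fintype F] (hq : 5 ≤ Fintype.card F) :
    ∃ a : F, a ≠ 0 ∧ a * a ≠ 1 ∧ a * a + a + 1 ≠ 0 := by
  classical
  by_contra hc
  push Not at hc
  obtain ⟨x, hx⟩ := exists_not_mem_list (ι := F) [0, 1, -1] (by simp; omega)
  simp only [List.mem_cons, List.not_mem_nil, or_false, not_or] at hx
  have h1 : ∀ x : F, x ≠ 1 → x ≠ -1 → x * x ≠ 1 := fun x h1 h2 h =>
    (mul_self_eq_one_iff.1 h).elim h1 h2
  have e1 := hc x hx.1 (h1 x hx.2.1 hx.2.2)
  have e3 := hc (-x) (neg_ne_zero.2 hx.1) (by simpa using h1 x hx.2.1 hx.2.2)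
  have h2 : (2 : F) = 0 := mul_left_cancel₀ hx.1 (by linear_combination e1 - e3)
  refine quad_three hq 1 fun c hc0 hc1 => ?_
  have := hc c hc0 (h1 c (by rintro rfl; exact hc1 (by linear_combination h2)) hc1)
  linear_combination this

theorem fin4_rest : ∀ m m' : Fin 4, m ≠ m' → ∃ a c : Fin 4, ∀ r, r = m ∨ r = m' ∨ r = a ∨ r = c := by
  decide

theorem part_le_dstab6 (P : PartHyp H b) [Fintype F] (hq : 5 ≤ Fintype.card F)
    (h6 : Fintype.card ι = 6) {g : V ≃ₗ[F] V} (hg : g ∈ H) : g ∈ dstab (frame b) := by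
  classical
  by_contra hgM
  obtain ⟨a, ha0, ha2, ha3⟩ := exists_good_scalar hq
  have h5 : 5 ≤ Fintype.card ι := by omega
  obtain ⟨i0, -⟩ := exists_not_mem_list (ι := ι) [] (by simp; omega)
  obtain ⟨i1, hi1⟩ := exists_not_mem_list [i0] (by simp; omega)
  obtain ⟨i2, hi2⟩ := exists_not_mem_list [i0, i1] (by simp; omega)
  simp only [List.mem_cons, List.not_mem_nil, or_false, not_or] at hi1 hi2
  have hg' : g⁻¹ ∉ dstab (frame b) := fun h => hgM ((Subgroup.inv_mem_iff _).1 h)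
  obtain ⟨k0, hk0⟩ : ∃ k0, b.coord k0 (g⁻¹ (b i0)) = 0 := by
    by_contra hc
    push Not at hc
    exact hg' (P.claimB h5 ha0 ha2 ha3 (H.inv_mem hg) hc)
  have hu : ∀ k, k ≠ k0 → b.coord k (g⁻¹ (b i0)) ≠ 0 := fun k hk h =>
    hg' (P.claimA h5 ha0 ha2 ha3 (H.inv_mem hg) hk h hk0)
  set u := g⁻¹ (b i0) with hudef
  have hgu : g u = b i0 := le_apply_inv g _
  have key : ∀ z, (∀ k, k ≠ k0 → b.coord k (u + z) ≠ 0) → b.coord k0 z = 0 →
      b.coord i1 (g z) = 0 → b.coord i2 (g z) = 0 →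
      ∃ j, j ≠ i1 ∧ j ≠ i2 ∧ ∃ c : F, c ≠ 0 ∧ g (u + z) = c • b j := by
    intro z h1 h2 h3 h4
    obtain ⟨d, hd, hdu⟩ := PartHyp.exists_diag b k0 hu h1 hk0
      (by rw [map_add, hk0, h2, add_zero])
    have hx : g * d * g⁻¹ ∈ H := H.mul_mem (H.mul_mem hg (P.le hd)) (H.inv_mem hg)
    have hx' : (g * d * g⁻¹) (b i0) = g (u + z) := by rw [← hdu]; rfl
    have f1 : b.coord i1 (g (u + z)) = 0 := by
      rw [map_add, map_add, hgu, h3, coord_ne b hi1, add_zero]
    have f2 : b.coord i2 (g (u + z)) = 0 := by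
      rw [map_add, map_add, hgu, h4, coord_ne b hi2.1, add_zero]
    obtain ⟨σ, hσ⟩ := exists_of_mem_dstab_frame (P.claimA h5 ha0 ha2 ha3 hx (k := i0)
      (Ne.symm hi2.2) (by rw [hx', f1]) (by rw [hx', f2]))
    obtain ⟨c, hc0, hc⟩ := hσ i0
    rw [hx'] at hc
    refine ⟨_, fun h => ?_, fun h => ?_, c, hc0, hc⟩
    · rw [hc, h] at f1; simp [hc0] at f1
    · rw [hc, h] at f2; simp [hc0] at f2
  obtain ⟨E⟩ := Function.Embedding.nonempty_of_card_le (α := Fin 4 ⊕ Unit)
    (β := {k // k ≠ k0}) (by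
      rw [Fintype.card_subtype_compl, Fintype.card_subtype_eq]; simp; omega)
  have hE : ∀ {s t}, s ≠ t → (E s : ι) ≠ E t := fun h h' => h (E.injective (Subtype.ext h'))
  have same : ∀ z z' j (c c' : F), b.coord (E (.inr ())) z = 0 → b.coord (E (.inr ())) z' = 0 →
      g (u + z) = c • b j → g (u + z') = c' • b j → c ≠ 0 → z = z' := by
    intro z z' j c c' h1 h2 h3 h4 hc
    have h5 : c' • (u + z) = c • (u + z') := g.injective (by
      rw [map_smul, map_smul, h3, h4, smul_comm])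
    have h6 := congrArg (b.coord (E (.inr ()))) h5
    simp only [map_smul, map_add, h1, h2, add_zero, smul_eq_mul] at h6
    rw [mul_right_cancel₀ (hu _ (E _).2) h6] at h5
    exact add_left_cancel (smul_right_injective V hc h5)
  -- no vector with support of size two
  have stepA : ∀ (z : V) (p r : Fin 4), z ≠ 0 → b.coord i1 (g z) = 0 → b.coord i2 (g z) = 0 →
      (∀ k : ι, k ≠ E (.inl p) → k ≠ E (.inl r) → b.coord k z = 0) → False := by
    intro z p r hz0 z1 z2 hs
    have hk : ∀ t : F, t ≠ -b.coord (E (.inl p)) u / b.coord (E (.inl p)) z →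
        t ≠ -b.coord (E (.inl r)) u / b.coord (E (.inl r)) z →
        ∃ j, ∃ c : F, c ≠ 0 ∧ g (u + t • z) = c • b j := fun t h1 h2 => by
      have aux : ∀ k, k ≠ k0 → t ≠ -b.coord k u / b.coord k z → b.coord k (u + t • z) ≠ 0 :=
        fun k hk h h' => by
          rw [map_add, map_smul, smul_eq_mul] at h'
          by_cases h3 : b.coord k z = 0
          · exact hu k hk (by simpa [h3] using h')
          · exact h (by field_simp; linear_combination h')
      obtain ⟨j, -, -, h⟩ := key (t • z) (fun k hk => by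
          by_cases e1 : k = E (.inl p)
          · exact aux k hk (e1 ▸ h1)
          by_cases e2 : k = E (.inl r)
          · exact aux k hk (e2 ▸ h2)
          · rw [map_add, map_smul, hs k e1 e2, smul_zero, add_zero]; exact hu k hk)
        (by rw [map_smul, hs k0 (E _).2.symm (E _).2.symm, smul_zero])
        (by rw [map_smul, map_smul, z1, smul_zero]) (by rw [map_smul, map_smul, z2, smul_zero])
      exact ⟨j, h⟩
    obtain ⟨t1, ht1⟩ := exists_not_mem_list (ι := F)
      [0, -b.coord (E (.inl p)) u / b.coord (E (.inl p)) z,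
        -b.coord (E (.inl r)) u / b.coord (E (.inl r)) z] (by simp; omega)
    obtain ⟨t2, ht2⟩ := exists_not_mem_list (ι := F)
      [0, -b.coord (E (.inl p)) u / b.coord (E (.inl p)) z,
        -b.coord (E (.inl r)) u / b.coord (E (.inl r)) z, t1] (by simp; omega)
    simp only [List.mem_cons, List.not_mem_nil, or_false, not_or] at ht1 ht2
    obtain ⟨j1, c1, hc1, e1⟩ := hk t1 ht1.2.1 ht1.2.2
    obtain ⟨j2, c2, hc2, e2⟩ := hk t2 ht2.2.1 ht2.2.2.1
    have r0 : ∀ t : F, b.coord (E (.inr ())) (t • z) = 0 := fun t => by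
      rw [map_smul, hs _ (hE (by simp)) (hE (by simp)), smul_zero]
    have n0 : j1 ≠ i0 := by
      rintro rfl
      exact smul_ne_zero ht1.1 hz0
        (same _ 0 j1 c1 1 (r0 t1) (map_zero _) e1 (by rw [add_zero, hgu, one_smul]) hc1)
    have n2 : j1 ≠ j2 := by
      rintro rfl
      exact ht2.2.2.2 (smul_left_injective F hz0 (same _ _ j1 c1 c2 (r0 t1) (r0 t2) e1 e2 hc1)).symm
    have : t2 • g (u + t1 • z) = t1 • g (u + t2 • z) + (t2 - t1) • g u := by
      simp only [map_add, map_smul]; module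
    rw [e1, e2, hgu] at this
    have := congrArg (b.coord j1) this
    simp [n0, n2, hc1, ht2.1] at this
  have stepB : ∀ m : Fin 4, ∃ z, z ≠ 0 ∧ b.coord i1 (g z) = 0 ∧ b.coord i2 (g z) = 0 ∧
      (∀ k : ι, (∀ s, k ≠ E (.inl (m.succAbove s))) → b.coord k z = 0) ∧
      ∃ j : {j // j ∉ ({i0, i1, i2} : Finset ι)}, ∃ c : F, c ≠ 0 ∧ g (u + z) = c • b j := by
    intro m
    obtain ⟨z, z0, z1, z2, z3, z4⟩ := PartHyp.exists_small hq b (fun s => E (.inl (m.succAbove s)))
      (fun s s' h => by simpa using E.injective (Subtype.ext h))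
      (b.coord i1 ∘ₗ (g : V →ₗ[F] V)) (b.coord i2 ∘ₗ (g : V →ₗ[F] V)) fun s => hu _ (E _).2
    obtain ⟨j, j1, j2, c, hc, e⟩ := key z (fun k hk => by
      by_cases h : ∀ s, k ≠ E (.inl (m.succAbove s))
      · rw [map_add, z3 k h, add_zero]; exact hu k hk
      · push Not at h
        obtain ⟨s, rfl⟩ := h
        exact z4 s) (z3 _ fun s => (E _).2.symm) z1 z2
    have j0 : j ≠ i0 := by
      rintro rfl
      exact z0 (same z 0 j c 1 (z3 _ fun s => hE (by simp)) (map_zero _) e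
        (by rw [add_zero, hgu, one_smul]) hc)
    exact ⟨z, z0, z1, z2, z3, ⟨j, by simp [j0, j1, j2]⟩, c, hc, e⟩
  choose z z0 z1 z2 z3 j c hc e using stepB
  obtain ⟨m, m', hm, hj⟩ := Fintype.exists_ne_map_eq_of_card_lt j (by
    rw [Fintype.card_subtype_compl, Fintype.card_coe, Finset.card_eq_three.2
      ⟨i0, i1, i2, Ne.symm hi1, Ne.symm hi2.1, Ne.symm hi2.2, rfl⟩, h6]
    simp)
  have hz := same (z m) (z m') (j m) (c m) (c m') (z3 m _ fun s => hE (by simp))
    (z3 m' _ fun s => hE (by simp)) (e m) (hj ▸ e m') (hc m)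
  obtain ⟨p, r, hpr⟩ := fin4_rest m m' hm
  refine stepA (z m) p r (z0 m) (z1 m) (z2 m) fun k h1 h2 => ?_
  by_cases h : ∀ s, k ≠ E (.inl (m.succAbove s))
  · exact z3 m k h
  push Not at h
  obtain ⟨s, rfl⟩ := h
  rcases hpr (m.succAbove s) with h | h | h | h
  · exact absurd h (Fin.succAbove_ne m s)
  · rw [hz, h]
    exact z3 m' _ fun s' => hE fun h =>
      Fin.succAbove_ne m' s' (Sum.inl_injective h).symm
  · exact absurd (by rw [h]) h1
  · exact absurd (by rw [h]) h2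

theorem SLV_le_of_mono6 [Fintype F] (hq : 5 ≤ Fintype.card F) (h6 : Fintype.card ι = 6)
    (hH : dstab (frame b) ⊓ SLV F V ≤ H) (hS : H ≤ SLV F V) {g : V ≃ₗ[F] V} (hg : g ∈ H)
    (hg' : g ∉ dstab (frame b)) : SLV F V ≤ H := by
  by_contra hc
  refine hg' (part_le_dstab6 ⟨hH, fun h hh i j hij => ?_⟩ hq h6 hg)
  by_contra hh'
  have : Nonempty ι := ⟨i⟩
  obtain ⟨s, hs, hs'⟩ := (basisDec b).exists_perm_SLV
    (fun i j => by rw [finrank_frame, finrank_frame]) (frame_ne_bot b) (Equiv.swap i j)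
  refine hc (SLV_le_of_fix hq (by omega) hH hS (H.mul_mem (hH hs) hh) (fun h1 => hh' ?_) (i₀ := i)
    ?_)
  · rwa [(dstab _).mul_mem_cancel_left hs.1] at h1
  · have := hs' j _ hij
    rwa [Equiv.swap_apply_right] at this

theorem isMaximalIn_mono6 [Fintype F] {D : ι → Submodule F V} (hi : iSupIndep D)
    (ht : iSup D = ⊤) (hm : ∀ i, finrank F (D i) = 1) (hq : 5 ≤ Fintype.card F)
    (h6 : Fintype.card ι = 6) : IsMaximalIn (SLV F V) (dstab D ⊓ SLV F V) := by
  obtain ⟨d⟩ := exists_dec hi ht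
  have : Nontrivial ι := Fintype.one_lt_card_iff_nontrivial.1 (by omega)
  refine isMaximalIn_of inf_le_right ?_ fun M hM hM' g hg hg' => ?_
  · obtain ⟨i, j, hij⟩ := exists_pair_ne ι
    obtain ⟨g, hg, hg'⟩ := d.exists_SLV_not_mem_dstab hij fun i =>
      ne_bot_of_finrank_pos (by rw [hm]; exact one_pos)
    exact ⟨g, hg, fun h => hg' h.1⟩
  · obtain ⟨b, rfl⟩ := exists_basis_frame d hm
    exact SLV_le_of_mono6 hq h6 hM hM' hg fun h => hg' ⟨h, hM' hg⟩

end

variable {F : Type*} [Field F] [Fintype F]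

theorem c1_sl {n : ℕ} (W : Submodule F (Fin n → F)) (hW0 : W ≠ ⊥) (hW1 : W ≠ ⊤) :
    IsMaximalIn (specialLinear (Fin n) F) (subspaceStabilizer W ⊓ specialLinear (Fin n) F) := by
  have := isMaximalIn_comap (toLE (Fin n) F) (isMaximalIn_stab_SLV hW0 hW1)
  rwa [Subgroup.comap_inf, comap_SLV, comap_stab] at this

theorem c2_sl {n t : ℕ} (m : ℕ) (h1 : m = 1 → 5 ≤ Fintype.card F ∧ (t = 6 ∨ 8 ≤ t))
    (h2 : m = 2 → 3 ≤ Fintype.card F ∧ 3 ≤ t) (D : Fin t → Submodule F (Fin n → F))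
    (hD : IsMDecomposition m D) :
    IsMaximalIn (specialLinear (Fin n) F) (decompositionStabilizer D ⊓ specialLinear (Fin n) F) := by
  classical
  have h : IsMaximalIn (SLV F (Fin n → F)) (dstab D ⊓ SLV F (Fin n → F)) := by
    by_cases h6 : m = 1 ∧ t = 6
    · exact isMaximalIn_mono6 hD.indep hD.iSup_eq_top (h6.1 ▸ hD.finrank_eq) (h1 h6.1).1
        (by simp [h6.2])
    refine isMaximalIn_dstab_SLV hD.indep hD.iSup_eq_top hD.finrank_eq hD.pos
      (by simpa using hD.two_le) (fun hm => ⟨(h1 hm).1, by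
        rw [Fintype.card_fin]; exact (h1 hm).2.resolve_left fun h => h6 ⟨hm, h⟩⟩)
      (fun hm => Or.inl ⟨?_, by simpa using (h2 hm).2⟩)
    obtain ⟨a, ha⟩ := exists_not_mem_list (ι := F) [0, 1] (by
      have := (h2 hm).1; simp; omega)
    exact ⟨a, by simpa using ha⟩
  have := isMaximalIn_comap (toLE (Fin n) F) h
  rwa [Subgroup.comap_inf, comap_SLV, comap_dstab] at this

end Cfsg.Agent.H77
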