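import Cfsg.Agent.H27.OInv

/-!
Orthogonal frames: signed permutation matrices.
-/

set_option autoImplicit false
set_option linter.unusedSectionVars false
set_option linter.unusedSimpArgs false

namespace Cfsg.Agent.H77

open Module Cfsg.Geo QuadraticMap H11 H27
open scoped symmDiff

theorem exists_even_perm {τ : Type*} [Fintype τ] [DecidableEq τ] (S : Finset τ) (f : τ → τ)
    (hf : Set.InjOn f S) (h : S.card + 2 ≤ Fintype.card τ) :
    ∃ σ : Equiv.Perm τ, Equiv.Perm.sign σ = 1 ∧ ∀ x ∈ S, σ x = f x := by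
  obtain ⟨σ, hσ⟩ := Equiv.Perm.exists_extending_pair (α := S) Subtype.val (fun x => f x)
    Subtype.val_injective fun x y e => Subtype.ext (hf x.2 y.2 e)
  rcases Int.units_eq_one_or (Equiv.Perm.sign σ) with e | e
  · exact ⟨σ, e, fun x hx => hσ ⟨x, hx⟩⟩
  obtain ⟨a, ha, b, hb, hab⟩ := Finset.one_lt_card.1 (show 1 < Sᶜ.card by
    rw [Finset.card_compl]; omega)
  rw [Finset.mem_compl] at ha hb
  refine ⟨σ * Equiv.swap a b, by simp [e, hab], fun x hx => ?_⟩
  rw [Equiv.Perm.mul_apply, Equiv.swap_apply_of_ne_of_ne (by rintro rfl; exact ha hx)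
    (by rintro rfl; exact hb hx)]
  exact hσ ⟨x, hx⟩

variable {F V : Type*} [Field F] [AddCommGroup V] [Module F V] [FiniteDimensional F V] [Finite F]
variable {Q : QuadraticForm F V} {H : Subgroup (V ≃ₗ[F] V)}
variable {τ : Type*} [Fintype τ] [DecidableEq τ] (b : Basis τ F V)

/-- The lines of the frame. -/
def Ln (i : τ) : Submodule F V := Submodule.span F {b i}

/-- A sign change. -/
noncomputable def dg (T : Finset τ) : V ≃ₗ[F] V :=
  b.equiv (b.unitsSMul fun i => if i ∈ T then -1 else 1) (Equiv.refl _)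

/-- A permutation matrix. -/
noncomputable def pm (σ : Equiv.Perm τ) : V ≃ₗ[F] V := b.equiv b σ

/-- `g` is a signed permutation matrix. -/
def SgP (g : V ≃ₗ[F] V) (ρ : Equiv.Perm τ) : Prop := ∀ i, g (b i) = b (ρ i) ∨ g (b i) = -b (ρ i)

theorem dg_b (T : Finset τ) (i : τ) : dg b T (b i) = if i ∈ T then -b i else b i := by
  rw [dg, Basis.equiv_apply, Basis.unitsSMul_apply, Equiv.refl_apply]
  split_ifs with h <;> simp [h]

theorem pm_b (σ : Equiv.Perm τ) (i : τ) : pm b σ (b i) = b (σ i) := Basis.equiv_apply _ _ _ _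

theorem dg_mul (T T' : Finset τ) : dg b T * dg b T' = dg b (T ∆ T') := b.ext' fun i => by
  by_cases h : i ∈ T <;> by_cases h' : i ∈ T' <;>
    simp [le_mul_apply, dg_b, h, h', Finset.mem_symmDiff]

theorem dg_empty : dg b ∅ = 1 := b.ext' fun i => by simp [dg_b]

theorem dg_sq (T : Finset τ) : dg b T * dg b T = 1 := by rw [dg_mul, symmDiff_self, ← dg_empty b]; rfl

theorem dg_univ (x : V) : dg b Finset.univ x = -x := by
  have : dg b Finset.univ = LinearEquiv.neg F := b.ext' fun i => by simp [dg_b]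
  simp [this]

theorem dg_repr (T : Finset τ) (x : V) (i : τ) :
    b.repr (dg b T x) i = if i ∈ T then -b.repr x i else b.repr x i := by
  have : b.coord i ∘ₗ (dg b T : V →ₗ[F] V) = if i ∈ T then -b.coord i else b.coord i :=
    b.ext fun j => by
      by_cases h : i = j
      · subst h; by_cases h' : i ∈ T <;> simp [dg_b, h']
      · by_cases h' : i ∈ T <;> by_cases h'' : j ∈ T <;> simp [dg_b, h, h', h'', Ne.symm h]
  have := LinearMap.congr_fun this x
  split_ifs at this ⊢ <;> simpa using this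

theorem pm_repr (σ : Equiv.Perm τ) (x : V) (i : τ) : b.repr (pm b σ x) (σ i) = b.repr x i := by
  have : b.coord (σ i) ∘ₗ (pm b σ : V →ₗ[F] V) = b.coord i :=
    b.ext fun j => by simp [pm_b, Finsupp.single_apply]
  exact LinearMap.congr_fun this x

theorem pm_mul (σ σ' : Equiv.Perm τ) : pm b σ * pm b σ' = pm b (σ * σ') :=
  b.ext' fun i => by simp [le_mul_apply, pm_b]

theorem sg_dg (T : Finset τ) : SgP b (dg b T) 1 := fun i => by
  rw [dg_b]; split_ifs <;> simp

theorem sg_pm (σ : Equiv.Perm τ) : SgP b (pm b σ) σ := fun i => Or.inl (pm_b b σ i)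

variable {b}

theorem SgP.conj {g : V ≃ₗ[F] V} {ρ : Equiv.Perm τ} (h : SgP b g ρ) (T : Finset τ) :
    g * dg b T * g⁻¹ = dg b (T.map ρ.toEmbedding) := by
  rw [mul_inv_eq_iff_eq_mul]
  refine b.ext' fun i => ?_
  rcases h i with e | e <;> by_cases h' : i ∈ T <;> simp [le_mul_apply, dg_b, h', e]

theorem SgP.mul {g g' : V ≃ₗ[F] V} {ρ ρ' : Equiv.Perm τ} (h : SgP b g ρ) (h' : SgP b g' ρ') :
    SgP b (g * g') (ρ * ρ') := fun i => by
  rcases h' i with e | e <;> rcases h (ρ' i) with e' | e' <;> simp [le_mul_apply, e, e']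

theorem SgP.diag {g : V ≃ₗ[F] V} (h : SgP b g 1) : ∃ T, g = dg b T := by
  classical
  refine ⟨Finset.univ.filter fun i => g (b i) ≠ b i, b.ext' fun i => ?_⟩
  rw [dg_b]
  split_ifs with e
  · exact (h i).resolve_left (by simpa using e)
  · simpa using e

theorem SgP.mem {g : V ≃ₗ[F] V} {ρ : Equiv.Perm τ} (h : SgP b g ρ) : g ∈ dstab (Ln b) :=
  mem_dstab_of_mapsTo ρ (fun i j => by
    rw [Ln, Ln, finrank_span_singleton (b.ne_zero _), finrank_span_singleton (b.ne_zero _)]) fun i v hv => by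
    obtain ⟨t, rfl⟩ := Submodule.mem_span_singleton.1 hv
    rw [map_smul]
    refine Submodule.smul_mem _ _ ?_
    rcases h i with e | e <;> simp [e, Ln]

theorem SgP.eq_of {g : V ≃ₗ[F] V} {ρ : Equiv.Perm τ} (h : SgP b g ρ) {i j : τ}
    (e : b.repr (g (b i)) j ≠ 0) : ρ i = j := by
  by_contra h1
  rcases h i with e' | e' <;> simp [e', Finsupp.single_apply, h1] at e

theorem SgP.sq {g : V ≃ₗ[F] V} {ρ : Equiv.Perm τ} (h : SgP b g ρ) (h2 : g * g = 1) (i : τ) :
    ρ (ρ i) = i := (h.mul h).eq_of (by simp [h2])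

theorem dg_inj (h2 : (2 : F) ≠ 0) {T T' : Finset τ} (h : dg b T = dg b T') : T = T' := by
  have h3 : ∀ i, -b i ≠ b i := fun i h => b.ne_zero i (by
    rw [neg_eq_iff_add_eq_zero, ← two_smul F, smul_eq_zero] at h
    exact h.resolve_left h2)
  ext i
  have := congrArg (fun g : V ≃ₗ[F] V => g (b i)) h
  simp only [dg_b] at this
  split_ifs at this with h1 h1' h1'
  · simp [h1, h1']
  · exact absurd this (h3 i)
  · exact absurd this.symm (h3 i)
  · simp [h1, h1']

theorem dg_neg_iff (h2 : (2 : F) ≠ 0) {T : Finset τ} {x : V} :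
    dg b T x = -x ↔ ∀ i, i ∉ T → b.repr x i = 0 := by
  constructor
  · intro h i hi
    have := dg_repr b T x i
    rw [h, if_neg hi, map_neg, Finsupp.neg_apply, neg_eq_iff_add_eq_zero, ← two_mul] at this
    exact (mul_eq_zero.1 this).resolve_left h2
  · intro h
    refine b.ext_elem fun i => ?_
    rw [dg_repr]
    split_ifs with hi <;> simp [h i, hi]

theorem dg_fix_iff (h2 : (2 : F) ≠ 0) {T : Finset τ} {x : V} :
    dg b T x = x ↔ ∀ i ∈ T, b.repr x i = 0 := by
  constructor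
  · intro h i hi
    have := dg_repr b T x i
    rw [h, if_pos hi, eq_neg_iff_add_eq_zero, ← two_mul] at this
    exact (mul_eq_zero.1 this).resolve_left h2
  · intro h
    refine b.ext_elem fun i => ?_
    rw [dg_repr]
    split_ifs with hi <;> simp [h i, hi]

theorem fix_of_fix {g : V ≃ₗ[F] V} {T : Finset τ} (h : ∀ i, i ∉ T → g (b i) = b i) {x : V}
    (hx : ∀ i ∈ T, b.repr x i = 0) : g x = x := by
  rw [← b.sum_repr x, map_sum]
  refine Finset.sum_congr rfl fun i _ => ?_
  by_cases hi : i ∈ T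
  · simp [hx i hi]
  · rw [map_smul, h i hi]

theorem mem_ln {x : V} {j : τ} : x ∈ Ln b j ↔ ∀ i, i ≠ j → b.repr x i = 0 := by
  rw [Ln, ← Set.image_singleton, b.mem_span_image]
  simp [Set.subset_def, not_imp_comm]

theorem card_le_of_conj (h2 : (2 : F) ≠ 0) {h : V ≃ₗ[F] V} {T T' : Finset τ}
    (e : h * dg b T * h⁻¹ = dg b T') : T.card ≤ T'.card := by
  have f : ∀ T : Finset τ, finrank F (Submodule.span F (b '' T)) = T.card := fun T => by
    have := finrank_span_eq_card (b.linearIndependent.comp (Subtype.val : T → τ)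
      Subtype.val_injective)
    rwa [Set.range_comp, Subtype.range_coe_subtype, Fintype.card_coe] at this
  have m : ∀ (T : Finset τ) x, x ∈ Submodule.span F (b '' T) ↔ dg b T x = -x := fun T x => by
    rw [b.mem_span_image, dg_neg_iff h2]
    simp [Set.subset_def, not_imp_comm]
  rw [← f, ← f, ← LinearEquiv.finrank_map_eq h]
  refine Submodule.finrank_mono ?_
  rintro _ ⟨x, hx, rfl⟩
  rw [m, ← e, LinearEquiv.coe_coe, le_mul_apply, le_mul_apply, le_inv_apply, (m T x).1 hx, map_neg]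

theorem pow_mul_OM (h : ND Q) {x y : V} (hx : Q x ≠ 0) (e : Q x = Q y) {g : V ≃ₗ[F] V} {k : ℕ}
    (hg : rE Q x ^ k * g ∈ OM Q) : rE Q x ^ (k + 1) * (rE Q y * g) ∈ OM Q := by
  have := (OM Q).mul_mem (OM_conj ((OG Q).pow_mem (rE_mem x) k) (rE_mul_mem h hx e)) hg
  convert this using 1
  rw [pow_succ]; group

theorem rE_pow_even (x : V) {k : ℕ} (h : Even k) : rE Q x ^ k = 1 := by
  obtain ⟨m, rfl⟩ := h
  rw [← two_mul, pow_mul, pow_two, rE_mul_self, one_pow]

/-- The standing hypotheses for a frame. -/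
structure Fr (Q : QuadraticForm F V) (b : Basis τ F V) (c : F) (H : Subgroup (V ≃ₗ[F] V)) :
    Prop where
  nd : ND Q
  two : (2 : F) ≠ 0
  c0 : c ≠ 0
  q : ∀ i, Q (b i) = c
  orth : ∀ i j, i ≠ j → pB Q (b i) (b j) = 0
  ds : dstab (Ln b) ⊓ OM Q ≤ H
  le : H ≤ OG Q
  seven : 7 ≤ Fintype.card τ

namespace Fr

variable {c : F} (S : Fr Q b c H)
include S

theorem pB_b (i : τ) (x : V) : pB Q (b i) x = 2 * c * b.repr x i := by
  have : pB Q (b i) = (2 * c) • b.coord i := b.ext fun j => by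
    by_cases h : i = j
    · subst h; simp [pB_self, S.q]
    · simp [S.orth i j h, Finsupp.single_apply, Ne.symm h]
  simp [this]

theorem pB_sum (x y : V) : pB Q x y = 2 * c * ∑ i, b.repr x i * b.repr y i := by
  conv_lhs => rw [← b.sum_repr x]
  simp only [map_sum, map_smul, LinearMap.sum_apply, LinearMap.smul_apply, S.pB_b, smul_eq_mul,
    Finset.mul_sum]
  exact Finset.sum_congr rfl fun i _ => by ring

theorem Q_sum (x : V) : Q x = c * ∑ i, b.repr x i * b.repr x i :=
  mul_left_cancel₀ S.two (by rw [← pB_self, S.pB_sum, mul_assoc])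

theorem rE_b (i : τ) : rE Q (b i) = dg b {i} := b.ext' fun j => by
  rw [dg_b]
  split_ifs with h
  · rw [Finset.mem_singleton.1 h, rE_self (S.q i ▸ S.c0)]
  · exact rE_of_perp (S.orth i j fun e => h (by simp [e]))

theorem Q_sub {i j : τ} (h : i ≠ j) : Q (b i - b j) = 2 * c := by
  rw [Qsub, S.q, S.q, S.orth i j h]; ring

theorem rE_sub {i j : τ} (h : i ≠ j) : rE Q (b i - b j) = pm b (Equiv.swap i j) :=
  b.ext' fun k => by
    have : c⁻¹ * 2⁻¹ * (2 * c) = 1 := by have := S.two; have := S.c0; field_simp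
    rw [pm_b, rE_apply, S.Q_sub h, map_sub, LinearMap.sub_apply, S.pB_b, S.pB_b]
    by_cases hi : k = i
    · simp [hi, Finsupp.single_apply, h, this]
    by_cases hj : k = j
    · simp [hj, Finsupp.single_apply, h.symm, this]
    · simp [Finsupp.single_apply, hi, hj, Equiv.swap_apply_of_ne_of_ne]

theorem dg_mem {T : Finset τ} (h : Even T.card) : dg b T ∈ H := by
  obtain ⟨o, -⟩ := exists_not_mem_list (ι := τ) [] (by have := S.seven; simp; omega)
  have : ∀ T : Finset τ, rE Q (b o) ^ T.card * dg b T ∈ OM Q := fun T => by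
    induction T using Finset.induction_on with
    | empty => simp [dg_empty]
    | insert i T hi ih =>
      have := pow_mul_OM S.nd (S.q o ▸ S.c0) ((S.q o).trans (S.q i).symm) ih
      rwa [S.rE_b i, dg_mul, ← Finset.card_insert_of_notMem hi, show {i} ∆ T = insert i T by
        ext j; by_cases h : j = i <;> simp [Finset.mem_symmDiff, h, hi]] at this
  exact S.ds ⟨(sg_dg b T).mem, by simpa [rE_pow_even _ h] using this T⟩

theorem pm_mem {σ : Equiv.Perm τ} (h : Equiv.Perm.sign σ = 1) : pm b σ ∈ H := by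
  obtain ⟨i, j, hij⟩ := Fintype.exists_pair_of_one_lt_card (α := τ) (by have := S.seven; omega)
  have : ∀ σ : Equiv.Perm τ, ∃ k, Equiv.Perm.sign σ = (-1) ^ k ∧
      rE Q (b i - b j) ^ k * pm b σ ∈ OM Q := fun σ => by
    induction σ using Equiv.Perm.swap_induction_on with
    | one => exact ⟨0, by simp, by simp [show pm b 1 = 1 from b.ext' fun i => pm_b b 1 i]⟩
    | swap_mul σ x y hxy ih =>
      obtain ⟨k, h1, h2⟩ := ih
      refine ⟨k + 1, by simp [h1, hxy, pow_succ], ?_⟩
      rw [← pm_mul, ← S.rE_sub hxy]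
      exact pow_mul_OM S.nd (S.Q_sub hij ▸ mul_ne_zero S.two S.c0)
        ((S.Q_sub hij).trans (S.Q_sub hxy).symm) h2
  obtain ⟨k, h1, h2⟩ := this σ
  rw [h, eq_comm, neg_one_pow_eq_one_iff_even (by decide)] at h1
  exact S.ds ⟨(sg_pm b σ).mem, by simpa [rE_pow_even _ h1] using h2⟩

theorem pm_or {x : V} {j : τ} (hx : x ∈ Ln b j) (q : Q x = c) : x = b j ∨ x = -b j := by
  obtain ⟨t, rfl⟩ := Submodule.mem_span_singleton.1 hx
  rw [Q_smul, S.q] at q
  rcases mul_self_eq_one_iff.1 (mul_right_cancel₀ S.c0 (q.trans (one_mul c).symm)) with h | h <;>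
    simp [h]

theorem exists_sg {g : V ≃ₗ[F] V} (hg : g ∈ H) (h : g ∈ dstab (Ln b)) : ∃ ρ, SgP b g ρ := by
  obtain ⟨ρ, hρ⟩ := h
  exact ⟨ρ, fun i => S.pm_or (hρ i ▸ ⟨b i, Submodule.mem_span_singleton_self _, rfl⟩)
    ((S.le hg _).trans (S.q i))⟩

end Fr

end Cfsg.Agent.H77
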