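import Mathlib

/-!
An elementary abelian `2`-group of permutations of `n` points has order at most `2 ^ (n / 2)`.
-/

set_option autoImplicit false

namespace Cfsg.Agent.H77

open MulAction

theorem sq_two_pow_le (k : ℕ) : (2 ^ k) ^ 2 ≤ 2 ^ 2 ^ k := by
  rw [← pow_mul]
  refine Nat.pow_le_pow_right (by omega) ?_
  rcases k with _ | k
  · simp
  · have := Nat.lt_two_pow_self (n := k)
    rw [pow_succ]; omega

theorem rank_two_bound {G α : Type*} [Group G] [Finite G] [MulAction G α] (n : ℕ) :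
    ∀ (A : Subgroup G) (T : Finset α), T.card ≤ n → (∀ a ∈ A, a * a = 1) →
      (∀ a ∈ A, ∀ x ∈ T, a • x ∈ T) →
      Nat.card A ^ 2 ≤ 2 ^ n * Nat.card (A ⊓ fixingSubgroup G (T : Set α) : Subgroup G) ^ 2 := by
  classical
  induction n using Nat.strong_induction_on with
  | _ n ih =>
  intro A T hT h2 hm
  rcases T.eq_empty_or_nonempty with rfl | ⟨x, hx⟩
  · simp only [Finset.coe_empty, fixingSubgroup_empty, inf_top_eq]
    exact Nat.le_mul_of_pos_left _ (by positivity)
  have hc : ∀ a ∈ A, ∀ b ∈ A, a * b = b * a := fun a ha b hb => by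
    rw [← inv_eq_of_mul_eq_one_right (h2 _ (A.mul_mem ha hb)), mul_inv_rev,
      inv_eq_of_mul_eq_one_right (h2 a ha), inv_eq_of_mul_eq_one_right (h2 b hb)]
  let O := T.filter (· ∈ orbit A x)
  have hO : O.card = (stabilizer A x).index := by
    rw [index_stabilizer, ← Set.ncard_coe_finset]
    congr 1
    ext y
    simp only [O, Finset.coe_filter, Set.mem_setOf_eq, and_iff_right_iff_imp]
    rintro ⟨a, rfl⟩
    exact hm a a.2 x hx
  have hP : IsPGroup 2 A := fun a => ⟨1, Subtype.ext (by simpa [pow_two] using h2 a a.2)⟩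
  obtain ⟨k, hk⟩ := hP.index (stabilizer A x)
  have h1 : O.card ≤ T.card := Finset.card_filter_le _ _
  have hpos : 0 < 2 ^ k := by positivity
  have := ih (n - 2 ^ k) (by omega) (A ⊓ stabilizer G x) (T \ O)
    (by rw [Finset.card_sdiff_of_subset (show O ⊆ T from Finset.filter_subset _ _)]; omega)
    (fun a ha => h2 a ha.1) fun a ha y hy => by
      rw [Finset.mem_sdiff] at hy ⊢
      refine ⟨hm a ha.1 y hy.1, fun h => hy.2 ?_⟩
      obtain ⟨b, hb⟩ := (Finset.mem_filter.1 h).2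
      refine Finset.mem_filter.2 ⟨hy.1, ⟨a⁻¹, A.inv_mem ha.1⟩ * b, ?_⟩
      simp only [mul_smul, Subgroup.mk_smul] at hb ⊢
      rw [hb, inv_smul_smul]
  have e1 : Nat.card A = 2 ^ k * Nat.card (A ⊓ stabilizer G x : Subgroup G) := by
    rw [← (stabilizer A x).index_mul_card, hk, inf_comm, ← Subgroup.subgroupOf_map_subtype,
      Subgroup.card_map_of_injective A.subtype_injective]
    rfl
  have e2 : A ⊓ stabilizer G x ⊓ fixingSubgroup G ((T \ O : Finset α) : Set α) ≤
      A ⊓ fixingSubgroup G (T : Set α) := fun a ha => ⟨ha.1.1, (mem_fixingSubgroup_iff G).2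
    fun y hy => by
      by_cases h : y ∈ O
      · obtain ⟨b, rfl⟩ := (Finset.mem_filter.1 h).2
        change a • (b : G) • x = (b : G) • x
        rw [← mul_smul, hc a ha.1.1 b b.2, mul_smul, mem_stabilizer_iff.1 ha.1.2]
      · exact (mem_fixingSubgroup_iff G).1 ha.2 y (Finset.mem_coe.2 (Finset.mem_sdiff.2 ⟨hy, h⟩))⟩
  calc Nat.card A ^ 2 = (2 ^ k) ^ 2 * Nat.card (A ⊓ stabilizer G x : Subgroup G) ^ 2 := by
        rw [e1, mul_pow]
    _ ≤ 2 ^ 2 ^ k * (2 ^ (n - 2 ^ k) * _ ^ 2) := Nat.mul_le_mul (sq_two_pow_le k)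
        (this.trans (Nat.mul_le_mul_left _ (Nat.pow_le_pow_left (Subgroup.card_le_of_le e2) 2)))
    _ = _ := by rw [← mul_assoc, ← pow_add, Nat.add_sub_cancel' (by omega)]

end Cfsg.Agent.H77
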