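import Cfsg.Agent.H77.OFrame0
import Cfsg.Agent.H77.Rank2

/-!
Orthogonal frames: a proper overgroup of the stabiliser has a larger point stabiliser.
-/

set_option autoImplicit false
set_option linter.unusedSectionVars false
set_option linter.unusedSimpArgs false

namespace Cfsg.Agent.H77

open Module Cfsg.Geo QuadraticMap H11 H27
open scoped symmDiff Pointwise

variable {F V : Type*} [Field F] [AddCommGroup V] [Module F V] [FiniteDimensional F V] [Finite F]
variable {Q : QuadraticForm F V} {H : Subgroup (V ≃ₗ[F] V)}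
variable {τ : Type*} [Fintype τ] [DecidableEq τ] {b : Basis τ F V} {c : F}

/-- Every element of `H` mapping a line of the frame to a line of the frame fixes the frame. -/
def FP (b : Basis τ F V) (H : Subgroup (V ≃ₗ[F] V)) : Prop :=
  ∀ h ∈ H, ∀ i j, h (b i) ∈ Ln b j → h ∈ dstab (Ln b)

theorem neg_of_conj {h : V ≃ₗ[F] V} {T T' : Finset τ} (e : h * dg b T * h⁻¹ = dg b T') {x : V}
    (hx : dg b T x = -x) : dg b T' (h x) = -h x := by
  rw [← e, le_mul_apply, le_mul_apply, le_inv_apply, hx, map_neg]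

theorem conj_symm {G : Type*} [Group G] {h x y : G} (e : h * x * h⁻¹ = y) :
    h⁻¹ * y * h⁻¹⁻¹ = x := by rw [← e]; group

theorem dg_compl (T : Finset τ) : dg b Tᶜ = dg b T * dg b Finset.univ := by
  rw [dg_mul]; congr 1; ext i; simp [Finset.mem_symmDiff]

theorem conj_compl {h : V ≃ₗ[F] V} {T T' : Finset τ} (e : h * dg b T * h⁻¹ = dg b T') :
    h * dg b Tᶜ * h⁻¹ = dg b T'ᶜ := by
  rw [dg_compl, dg_compl, ← e]
  exact LinearEquiv.ext fun x => by simp [le_mul_apply, dg_univ]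

namespace Fr

variable (S : Fr Q b c H) (hP : FP b H)
include S hP

theorem sg_of_fix {g : V ≃ₗ[F] V} (hg : g ∈ H) {i : τ} (h : g (b i) = b i) : ∃ ρ, SgP b g ρ :=
  S.exists_sg hg (hP g hg i i (by rw [h]; exact Submodule.mem_span_singleton_self _))

theorem diag_of_conj {h : V ≃ₗ[F] V} (hh : h ∈ H) {T T' : Finset τ}
    (e : h * dg b T * h⁻¹ = dg b T') (t1 : T ≠ Finset.univ) (t1' : T' ≠ Finset.univ)
    (h3 : 3 ≤ T'.card) (h4 : T'.card ≠ 4) {R : Finset τ} (hR : R ⊆ T) (he : Even R.card) :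
    ∃ R', h * dg b R * h⁻¹ = dg b R' := by
  obtain ⟨k, hk⟩ : ∃ k, k ∉ T := by simpa [Finset.eq_univ_iff_forall] using t1
  obtain ⟨k', hk'⟩ : ∃ k, k ∉ T' := by simpa [Finset.eq_univ_iff_forall] using t1'
  let A : (V ≃ₗ[F] V) → Prop := fun x => ∃ U, x = h * dg b U * h⁻¹
  have A1 : ∀ x y, A x → A y → A (x * y) := by
    rintro _ _ ⟨U, rfl⟩ ⟨U', rfl⟩
    exact ⟨U ∆ U', by rw [← dg_mul]; group⟩
  have A2 : ∀ x y, A x → A y → x * y * x⁻¹ = y := by
    rintro _ _ ⟨U, rfl⟩ ⟨U', rfl⟩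
    rw [mul_inv_eq_iff_eq_mul, show ∀ u v, h * u * h⁻¹ * (h * v * h⁻¹) = h * (u * v) * h⁻¹ from
      fun u v => by group, show ∀ u v, h * u * h⁻¹ * (h * v * h⁻¹) = h * (u * v) * h⁻¹ from
      fun u v => by group, dg_mul, dg_mul, symmDiff_comm]
  have A3 : ∀ n ∈ H, (∀ m, m ∉ T' → n (b m) = b m) → ∀ x, A x → A (n * x * n⁻¹) := by
    rintro n hn n1 _ ⟨U, rfl⟩
    obtain ⟨ρ, hρ⟩ := S.sg_of_fix hP (H.mul_mem (H.mul_mem (H.inv_mem hh) hn) hh) (i := k) (by
      rw [le_mul_apply, le_mul_apply, fix_of_fix n1 (by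
        simpa using (dg_neg_iff S.two).1 (neg_of_conj (conj_compl e) (x := b k)
          (by simp [dg_b, hk]))), le_inv_apply])
    exact ⟨_, by rw [← hρ.conj U]; group⟩
  have hβ : ∀ m, m ∉ T' → (h * dg b R * h⁻¹) (b m) = b m := fun m hm => by
    have := (dg_neg_iff S.two).1 (neg_of_conj (conj_symm (conj_compl e)) (x := b m)
      (by simp [dg_b, hm]))
    rw [le_mul_apply, le_mul_apply, (dg_fix_iff S.two).2 fun i hi => this i (by simpa using hR hi),
      le_apply_inv]
  have Aβ : A (h * dg b R * h⁻¹) := ⟨R, rfl⟩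
  have β2 : h * dg b R * h⁻¹ * (h * dg b R * h⁻¹) = 1 := by
    simp [mul_assoc, ← mul_assoc (dg b R), dg_sq]
  have βH := H.mul_mem (H.mul_mem hh (S.dg_mem he)) (H.inv_mem hh)
  generalize h * dg b R * h⁻¹ = β at *
  obtain ⟨ρ, hρ⟩ := S.sg_of_fix hP βH (hβ k' hk')
  by_cases h1 : ρ = 1
  · obtain ⟨R', hR'⟩ := (h1 ▸ hρ).diag
    exact ⟨R', hR'⟩
  exfalso
  have r2 := hρ.sq β2
  have r1 : ∀ m, m ∈ T' → ρ m ∈ T' := fun m hm => by
    by_contra h2
    have : ρ (ρ m) = ρ m := hρ.eq_of (by simp [hβ _ h2])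
    exact h2 (by rwa [← this, r2])
  have e1 : ∀ x, ρ.symm x = ρ x := fun x => by rw [Equiv.symm_apply_eq, r2]
  have fin : ∀ U, A (dg b U) → ∀ m, ρ m ∈ U ↔ m ∈ U := fun U hU m => by
    simpa [e1] using Finset.ext_iff.1 (dg_inj S.two ((hρ.conj U).symm.trans (A2 _ _ Aβ hU))) m
  have cj : ∀ U, A (dg b U) → ∀ p q r s, p ≠ q → r ≠ s → p ∈ T' → q ∈ T' → r ∈ T' → s ∈ T' →
      ∃ U', A (dg b U') ∧ ∀ m, m ∈ U' ↔ Equiv.swap r s (Equiv.swap p q m) ∈ U := by
    intro U hU p q r s hpq hrs hp hq hr hs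
    refine ⟨U.map (Equiv.swap p q * Equiv.swap r s).toEmbedding, ?_, fun m => by
      rw [Finset.mem_map_equiv]; rfl⟩
    rw [← (sg_pm b _).conj]
    refine A3 _ (S.pm_mem (by simp [hpq, hrs])) (fun m hm => ?_) _ hU
    rw [pm_b, Equiv.Perm.mul_apply, Equiv.swap_apply_of_ne_of_ne (a := r),
      Equiv.swap_apply_of_ne_of_ne] <;> rintro rfl <;> contradiction
  obtain ⟨a, ha⟩ : ∃ a, ρ a ≠ a := by simpa [Equiv.ext_iff] using h1
  have haT : a ∈ T' := by
    by_contra h2
    exact ha (hρ.eq_of (by simp [hβ _ h2]))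
  obtain ⟨a3, h3T, h31⟩ := Finset.exists_mem_notMem_of_card_lt_card
    (s := {a, ρ a}) (t := T') (lt_of_le_of_lt (Finset.card_le_two) (by omega))
  simp only [Finset.mem_insert, Finset.mem_singleton, not_or] at h31
  have k1 : ρ a3 ≠ a := fun h => h31.2 (by rw [← h, r2])
  have k2 : ρ a3 ≠ ρ a := ρ.injective.ne h31.1
  have hU := A1 _ _ Aβ (A3 _ (S.dg_mem (T := {a, a3}) (by
    rw [Finset.card_pair (Ne.symm h31.1)]; decide)) (fun m hm => by
      rw [dg_b, if_neg (by simp; constructor <;> rintro rfl <;> contradiction)]) _ Aβ)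
  rw [show β * (dg b {a, a3} * β * (dg b {a, a3})⁻¹) = β * dg b {a, a3} * β⁻¹ * dg b {a, a3} by
    rw [inv_eq_of_mul_eq_one_right β2, inv_eq_of_mul_eq_one_right (dg_sq b _)]; group,
    hρ.conj, dg_mul] at hU
  by_cases h5 : ρ a3 = a3
  · obtain ⟨U, u1, u2⟩ := cj _ hU a a3 a (ρ a) (Ne.symm h31.1) ha.symm haT h3T haT (r1 a haT)
    have := fin _ u1 a
    simp [u2, Finset.mem_symmDiff, e1, Equiv.swap_apply_def, h31.1, h31.2, ha, Ne.symm h31.1,
      Ne.symm h31.2, h5, ha.symm] at this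
  · have h6 : ({a, ρ a, a3, ρ a3} : Finset τ).card = 4 := by
      rw [Finset.card_eq_four]
      exact ⟨_, _, _, _, ha.symm, Ne.symm h31.1, k1.symm, Ne.symm h31.2, k2.symm, Ne.symm h5, rfl⟩
    have h7 := Finset.card_le_card (show ({a, ρ a, a3, ρ a3} : Finset τ) ⊆ T' by
      simp [Finset.insert_subset_iff, haT, h3T, r1])
    obtain ⟨a5, h5T, h51⟩ := Finset.exists_mem_notMem_of_card_lt_card
      (s := {a, ρ a, a3, ρ a3}) (t := T') (by omega)
    simp only [Finset.mem_insert, Finset.mem_singleton, not_or] at h51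
    obtain ⟨U, u1, u2⟩ := cj _ hU (ρ a3) a5 a (ρ a) (Ne.symm h51.2.2.2) ha.symm (r1 _ h3T) h5T haT
      (r1 a haT)
    have hU' := A1 _ _ hU u1
    rw [dg_mul] at hU'
    have := fin _ hU' a3
    simp [u2, Finset.mem_symmDiff, e1, Equiv.swap_apply_def, h31.1, h31.2, ha, Ne.symm h31.1,
      Ne.symm h31.2, h5, ha.symm, k1, k2, h51.1, h51.2.1, h51.2.2.1,
      h51.2.2.2, Ne.symm h5, Ne.symm h51.2.2.1] at this

theorem mem_of_conj' {h : V ≃ₗ[F] V} (hh : h ∈ H) {T T' : Finset τ}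
    (e : h * dg b T * h⁻¹ = dg b T') (t0 : T ≠ ∅) (t1 : T ≠ Finset.univ) (h2 : T.card ≠ 2)
    (h4 : T.card ≠ 4) : h ∈ dstab (Ln b) := by
  have hc : T.card = T'.card :=
    le_antisymm (card_le_of_conj S.two e) (card_le_of_conj S.two (conj_symm e))
  have h0 := Finset.card_pos.2 (Finset.nonempty_iff_ne_empty.2 t0)
  by_cases h1 : T'.card = 1
  · obtain ⟨j, rfl⟩ := Finset.card_eq_one.1 h1
    obtain ⟨i, hi⟩ := Finset.nonempty_iff_ne_empty.2 t0
    exact hP h hh i j (mem_ln.2 (by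
      simpa using (dg_neg_iff S.two).1 (neg_of_conj e (x := b i) (by simp [dg_b, hi]))))
  obtain ⟨i, j, k, hi, hj, hk, hij, hik, hjk⟩ := Finset.two_lt_card_iff.1 (show 2 < T.card by omega)
  have t1' : T' ≠ Finset.univ := by
    rintro rfl
    exact t1 (Finset.eq_univ_of_card _ hc)
  obtain ⟨R, hR⟩ := S.diag_of_conj hP hh e t1 t1' (by omega) (by omega) (R := {i, j})
    (by simp [Finset.insert_subset_iff, hi, hj]) (by rw [Finset.card_pair hij]; decide)
  obtain ⟨R', hR'⟩ := S.diag_of_conj hP hh e t1 t1' (by omega) (by omega) (R := {i, k})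
    (by simp [Finset.insert_subset_iff, hi, hk]) (by rw [Finset.card_pair hik]; decide)
  obtain ⟨m, hm⟩ : ∃ m, b.repr (h (b i)) m ≠ 0 := by
    by_contra h5
    push Not at h5
    exact b.ne_zero i (h.map_eq_zero_iff.1 (b.ext_elem fun m => by simp [h5]))
  have m1 : m ∈ R := by_contra fun h5 => hm ((dg_neg_iff S.two).1
    (neg_of_conj hR (x := b i) (by simp [dg_b])) m h5)
  have m2 : m ∈ R' := by_contra fun h5 => hm ((dg_neg_iff S.two).1
    (neg_of_conj hR' (x := b i) (by simp [dg_b])) m h5)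
  have n1 := (dg_neg_iff S.two).1 (neg_of_conj (conj_symm hR) (x := b m) (by simp [dg_b, m1]))
  have n2 := (dg_neg_iff S.two).1 (neg_of_conj (conj_symm hR') (x := b m) (by simp [dg_b, m2]))
  refine (dstab _).inv_mem_iff.1 (hP _ (H.inv_mem hh) m i (mem_ln.2 fun l hl => ?_))
  by_cases hl' : l = j
  · exact n2 l (by simp [hl, hl', hjk, hij.symm])
  · exact n1 l (by simp [hl, hl'])

variable (h8 : Fintype.card τ ≠ 8)
include h8

theorem mem_of_conj {h : V ≃ₗ[F] V} (hh : h ∈ H) {T T' : Finset τ}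
    (e : h * dg b T * h⁻¹ = dg b T') (t0 : T ≠ ∅) (t1 : T ≠ Finset.univ) : h ∈ dstab (Ln b) := by
  by_cases h2 : T.card ≠ 2 ∧ T.card ≠ 4
  · exact S.mem_of_conj' hP hh e t0 t1 h2.1 h2.2
  have := S.seven
  exact S.mem_of_conj' hP hh (conj_compl e) (by simpa using t1) (by simpa using t0)
    (by rw [Finset.card_compl]; omega) (by rw [Finset.card_compl]; omega)

theorem mem_of_pair {h : V ≃ₗ[F] V} (hh : h ∈ H) {i j : τ} (hij : i ≠ j)
    (e : h * dg b {i, j} * h⁻¹ ∈ dstab (Ln b)) : h ∈ dstab (Ln b) := by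
  classical
  have := finite_lequiv (F := F) (V := V)
  have h7 := S.seven
  have t0 : ({i, j} : Finset τ) ≠ ∅ := by simp
  have t1 : ({i, j} : Finset τ) ≠ Finset.univ := fun e => by
    have := Finset.card_pair hij
    rw [e, Finset.card_univ] at this; omega
  have hy := S.dg_mem (T := {i, j}) (by rw [Finset.card_pair hij]; decide)
  obtain ⟨ρ, hρ⟩ := S.exists_sg (H.mul_mem (H.mul_mem hh hy) (H.inv_mem hh)) e
  have r2 := hρ.sq (by simp [mul_assoc, ← mul_assoc (dg b _), dg_sq])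
  by_contra hne
  let A : Subgroup (V ≃ₗ[F] V) :=
    { carrier := {x | ∃ T : Finset τ, Even T.card ∧ T.map ρ.toEmbedding = T ∧
        x = h⁻¹ * dg b T * h}
      one_mem' := ⟨∅, by simp, by simp, by simp [dg_empty]⟩
      mul_mem' := by
        rintro _ _ ⟨T, a1, a2, rfl⟩ ⟨T', b1, b2, rfl⟩
        refine ⟨T ∆ T', ?_, ?_, by rw [← dg_mul]; group⟩
        · have e1 := Finset.card_sdiff_add_card_inter T T'
          have e2 := Finset.card_sdiff_add_card_inter T' T
          rw [Finset.inter_comm] at e2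
          rw [Finset.symmDiff_def, Finset.card_union_of_disjoint disjoint_sdiff_sdiff]
          obtain ⟨u, hu⟩ := a1
          obtain ⟨v, hv⟩ := b1
          exact ⟨u + v - (T ∩ T').card, by omega⟩
        · ext x
          have a3 := Finset.ext_iff.1 a2 x
          have b3 := Finset.ext_iff.1 b2 x
          simp only [Finset.mem_map_equiv, Finset.mem_symmDiff] at a3 b3 ⊢
          rw [a3, b3]
      inv_mem' := by
        rintro _ ⟨T, a1, a2, rfl⟩
        exact ⟨T, a1, a2, by simp [mul_assoc, inv_eq_of_mul_eq_one_right (dg_sq b T)]⟩ }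
  have AH : A ≤ H := by
    rintro _ ⟨T, a1, -, rfl⟩
    exact H.mul_mem (H.mul_mem (H.inv_mem hh) (S.dg_mem a1)) hh
  have AS : ∀ x ∈ A, ∃ σ, SgP b x σ := fun x hx => S.exists_sg (AH hx) (by
    refine S.mem_of_conj hP h8 (AH hx) (T' := {i, j}) ?_ t0 t1
    obtain ⟨T, -, a2, rfl⟩ := hx
    have := hρ.conj T
    rw [a2, mul_inv_eq_iff_eq_mul] at this
    rw [show h⁻¹ * dg b T * h * dg b {i, j} * (h⁻¹ * dg b T * h)⁻¹ =
      h⁻¹ * (dg b T * (h * dg b {i, j} * h⁻¹)) * (dg b T)⁻¹ * h by group, ← this]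
    group)
  have P : ∀ {x σ}, SgP b x σ → ∀ k, x • ({b k, -b k} : Set V) = {b (σ k), -b (σ k)} := by
    intro x σ hx k
    rw [Set.smul_set_insert, Set.smul_set_singleton]
    change {x (b k), x (-b k)} = _
    rcases hx k with e | e <;> simp [e, Set.pair_comm]
  have key := rank_two_bound (Fintype.card τ) A
    (Finset.univ.image fun k => ({b k, -b k} : Set V)) Finset.card_image_le (by
      rintro _ ⟨T, -, -, rfl⟩
      simp [mul_assoc, ← mul_assoc (dg b T), dg_sq]) fun x hx y hy => by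
      obtain ⟨σ, hσ⟩ := AS x hx
      obtain ⟨k, -, rfl⟩ := Finset.mem_image.1 hy
      rw [P hσ]; exact Finset.mem_image_of_mem _ (Finset.mem_univ _)
  have ker : ∀ x ∈ A ⊓ fixingSubgroup (V ≃ₗ[F] V) ((Finset.univ.image
      fun k => ({b k, -b k} : Set V) : Finset (Set V)) : Set (Set V)),
      x = 1 ∨ (Even (Fintype.card τ) ∧ x = dg b Finset.univ) := fun x hx => by
    obtain ⟨T', rfl⟩ := (show SgP b x 1 from fun k => by
      have := (mem_fixingSubgroup_iff _).1 hx.2 {b k, -b k} (by simp)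
      exact (this ▸ Set.smul_mem_smul_set (Set.mem_insert _ _) : x • b k ∈ ({b k, -b k} : Set V))).diag
    obtain ⟨T, a1, -, a3⟩ := hx.1
    have a4 : h * dg b T' * h⁻¹ = dg b T := by rw [a3]; group
    by_cases a5 : T' = ∅
    · exact Or.inl (by rw [a5, dg_empty])
    by_cases a6 : T' = Finset.univ
    · subst a6
      have := card_le_of_conj S.two a4
      rw [Finset.eq_univ_of_card T (le_antisymm T.card_le_univ this)] at a1
      exact Or.inr ⟨a1, rfl⟩
    · exact absurd (S.mem_of_conj hP h8 hh a4 a5 a6) hne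
  -- the lower bound
  let ε := Fintype.equivFin τ
  let Y := Finset.univ.filter fun k => ε (ρ k) < ε k
  have hY : Y.card ≤ 2 := by
    have hm : ∀ x, (h * dg b {i, j} * h⁻¹) x - x ∈ Submodule.span F {h (b i), h (b j)} := fun x => by
      obtain ⟨x, rfl⟩ := h.surjective x
      rw [le_mul_apply, le_mul_apply, le_inv_apply, ← map_sub, ← Set.image_pair,
        ← LinearEquiv.coe_coe, ← Submodule.map_span]
      refine ⟨_, ?_, rfl⟩
      rw [← Set.image_pair, SetLike.mem_coe, b.mem_span_image]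
      intro k hk
      by_contra h1
      simp [dg_repr, show k ∉ ({i, j} : Finset τ) by simpa using h1] at hk
    have li : LinearIndependent F fun k : Y => (⟨_, hm (b k)⟩ :
        Submodule.span F {h (b i), h (b j)}) := by
      refine LinearIndependent.of_comp (Submodule.subtype _) (Fintype.linearIndependent_iff.2
        fun g hg k => ?_)
      have := congrArg (fun x => b.repr x k) hg
      simp only [map_sum, map_smul, Finsupp.coe_finsetSum, Finset.sum_apply, Function.comp,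
        Submodule.subtype_apply, map_sub, Finsupp.smul_apply, Finsupp.sub_apply] at this
      rw [Finset.sum_eq_single k] at this
      · have h1 : ρ k ≠ k := fun e => by simpa [e] using (Finset.mem_filter.1 k.2).2
        rcases hρ k with e | e <;> simpa [e, Finsupp.single_apply, h1] using this
      · intro l _ hl
        have h1 : ρ l ≠ k := fun e => by
          have a1 := (Finset.mem_filter.1 k.2).2
          have a2 := (Finset.mem_filter.1 l.2).2
          rw [← e, r2] at a1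
          exact lt_asymm a1 a2
        have h2 : (l : τ) ≠ k := Subtype.coe_ne_coe.2 hl
        rcases hρ l with e | e <;> simp [e, Finsupp.single_apply, h1, h2]
      · simp
    simpa using li.fintype_card_le_finrank.trans (finrank_span_pair_le _ _)
  obtain ⟨o, ho⟩ : ∃ o, o ∉ Y ∪ Y.map ρ.toEmbedding := by
    by_contra h1
    push Not at h1
    have := Finset.card_union_le Y (Y.map ρ.toEmbedding)
    rw [Finset.eq_univ_of_forall h1, Finset.card_univ, Finset.card_map] at this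
    omega
  have e1 : ∀ x, ρ.symm x = ρ x := fun x => by rw [Equiv.symm_apply_eq, r2]
  have o1 : ρ o = o := by
    simp only [Y, Finset.mem_union, Finset.mem_map_equiv, e1, Finset.mem_filter, r2,
      Finset.mem_univ, true_and, not_or, not_lt] at ho
    exact ε.injective (le_antisymm ho.2 ho.1)
  have low : 2 ^ (insert o Y)ᶜ.card ≤ Nat.card A := by
    let U : Finset τ → Finset τ := fun X => X ∪ X.map ρ.toEmbedding
    let W : Finset τ → Finset τ := fun X => if Even (U X).card then U X else insert o (U X)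
    have w1 : ∀ X ⊆ (insert o Y)ᶜ, o ∉ U X := fun X hX => by
      have : o ∉ X := fun h => by simpa using hX h
      simp [U, e1, o1, this]
    have w2 : ∀ X ⊆ (insert o Y)ᶜ, ∀ k ∈ (insert o Y)ᶜ, k ∈ W X ↔ k ∈ X := fun X hX k hk => by
      have k1 : k ∈ U X ↔ k ∈ X := by
        simp only [U, Finset.mem_union, Finset.mem_map_equiv, e1, or_iff_left_iff_imp]
        intro h1
        have a1 := hX h1
        simp [Y, r2] at a1 hk
        rwa [ε.injective (le_antisymm a1.2 hk.2)] at h1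
      simp only [W]
      split_ifs
      · exact k1
      · rw [Finset.mem_insert, k1, or_iff_right (by rintro rfl; simp at hk)]
    rw [← Finset.card_powerset, ← Nat.card_eq_finsetCard]
    refine Nat.card_le_card_of_injective (fun X => ⟨h⁻¹ * dg b (W X) * h, W X, ?_, ?_, rfl⟩)
      fun X X' e => ?_
    · simp only [W]
      split_ifs with h1
      · exact h1
      · rw [Finset.card_insert_of_notMem (w1 _ (Finset.mem_powerset.1 X.2))]
        exact Nat.even_add_one.2 h1
    · ext k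
      simp only [W]
      split_ifs <;> simp [U, e1, r2, or_comm, ρ.apply_eq_iff_eq_symm_apply, o1]
    · have a1 : W X = W X' := dg_inj S.two (by simpa using congrArg Subtype.val e)
      have a2 := Finset.mem_powerset.1 X.2
      have a3 := Finset.mem_powerset.1 X'.2
      refine Subtype.ext (Finset.ext fun k => ⟨fun hk => ?_, fun hk => ?_⟩)
      · rwa [← w2 _ a3 k (a2 hk), ← a1, w2 _ a2 k (a2 hk)]
      · rwa [← w2 _ a2 k (a3 hk), a1, w2 _ a3 k (a3 hk)]
  have c1 : Fintype.card τ - 3 ≤ (insert o Y)ᶜ.card := by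
    have := Finset.card_insert_le o Y
    rw [Finset.card_compl]; omega
  have c2 := (Nat.pow_le_pow_left ((Nat.pow_le_pow_right (by omega) c1).trans low) 2).trans key
  generalize A ⊓ _ = K at ker c2
  by_cases he : Even (Fintype.card τ)
  · have : Nat.card K ≤ 2 := by
      have := Set.ncard_le_ncard (show (K : Set (V ≃ₗ[F] V)) ⊆ {1, dg b Finset.univ} from
        fun x hx => (ker x hx).imp id And.right)
      exact this.trans ((Set.ncard_insert_le _ _).trans (by simp))
    have := c2.trans (Nat.mul_le_mul_left _ (Nat.pow_le_pow_left this 2))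
    rw [← pow_mul, ← pow_add, Nat.pow_le_pow_iff_right (by omega)] at this
    obtain ⟨m, hm⟩ := he
    omega
  · rw [(Subgroup.eq_bot_iff_forall K).2 fun x hx => (ker x hx).resolve_right fun h => he h.1,
      Subgroup.card_bot, one_pow, mul_one, ← pow_mul, Nat.pow_le_pow_iff_right (by omega)] at c2
    omega

theorem mem_of_dg {h : V ≃ₗ[F] V} (hh : h ∈ H) {T : Finset τ} (hT : dg b T ∈ H) (t0 : T ≠ ∅)
    (t1 : T ≠ Finset.univ) (e : h * dg b T * h⁻¹ ∈ dstab (Ln b)) : h ∈ dstab (Ln b) := by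
  obtain ⟨ρ, hρ⟩ := S.exists_sg (H.mul_mem (H.mul_mem hh hT) (H.inv_mem hh)) e
  have r2 := hρ.sq (by simp [mul_assoc, ← mul_assoc (dg b _), dg_sq])
  by_cases h1 : ρ = 1
  · obtain ⟨T', hT'⟩ := (h1 ▸ hρ).diag
    exact S.mem_of_conj hP h8 hh hT' t0 t1
  obtain ⟨a, ha⟩ : ∃ a, ρ a ≠ a := by simpa [Equiv.ext_iff] using h1
  have hy := S.dg_mem (T := {a, ρ a}) (by rw [Finset.card_pair ha.symm]; decide)
  refine (dstab _).inv_mem_iff.1 (S.mem_of_pair hP h8 (H.inv_mem hh) ha.symm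
    (S.mem_of_conj hP h8 (H.mul_mem (H.mul_mem (H.inv_mem hh) hy) (H.inv_mem (H.inv_mem hh)))
      (T' := T) ?_ t0 t1))
  have := hρ.conj {a, ρ a}
  rw [show Finset.map ρ.toEmbedding {a, ρ a} = {a, ρ a} by simp [r2, Finset.pair_comm],
    mul_inv_eq_iff_eq_mul] at this
  rw [show h⁻¹ * dg b {a, ρ a} * h⁻¹⁻¹ * dg b T * (h⁻¹ * dg b {a, ρ a} * h⁻¹⁻¹)⁻¹ =
    h⁻¹ * (dg b {a, ρ a} * (h * dg b T * h⁻¹)) * (dg b {a, ρ a})⁻¹ * h by group, ← this]
  group

theorem le_dstab {g : V ≃ₗ[F] V} (hg : g ∈ H) : g ∈ dstab (Ln b) := by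
  have := finite_lequiv (F := F) (V := V)
  have h7 := S.seven
  have ex : ∀ k ≤ 7, ∃ T : Finset τ, T.card = k := fun k hk => by
    obtain ⟨T, -, h⟩ := Finset.exists_subset_card_eq (s := (Finset.univ : Finset τ)) (n := k)
      (by rw [Finset.card_univ]; omega)
    exact ⟨T, h⟩
  obtain ⟨Y, hY⟩ := ex 2 (by omega)
  obtain ⟨W, hW⟩ := ex 4 (by omega)
  have ne : ∀ T : Finset τ, T.card ≤ 6 → T ≠ Finset.univ := by
    rintro T h rfl
    rw [Finset.card_univ] at h; omega
  have hy := S.dg_mem (T := Y) (by rw [hY]; decide)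
  have hw := S.dg_mem (T := W) (by rw [hW]; decide)
  obtain ⟨z, z1, ⟨n, hn, nN, z2⟩, n', hn', nN', z3⟩ := inv_trick (N := dstab (Ln b)) hy hw hg
    (dg_sq b Y) (dg_sq b W) (sg_dg b Y).mem (sg_dg b W).mem
    (fun h hh => S.mem_of_dg hP h8 hh hy (by rintro rfl; simp at hY) (ne _ (by omega)))
    (fun h hh => S.mem_of_dg hP h8 hh hw (by rintro rfl; simp at hW) (ne _ (by omega)))
    fun n _ _ e => by have := card_le_of_conj S.two (conj_symm e); omega
  obtain ⟨ρ, hρ⟩ := S.exists_sg hn nN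
  obtain ⟨T, hT, e, eH⟩ : ∃ T : Finset τ, T.card ≤ 4 ∧ z * dg b Y = dg b T ∧ dg b T ∈ H := by
    rcases z2 with e | e
    · exact ⟨_, by simp [hY], e.trans (hρ.conj _), S.dg_mem (by simp [hY])⟩
    · exact ⟨_, by simp [hW], e.trans (hρ.conj _), S.dg_mem (by simp [hW]; decide)⟩
  have ez : z = dg b (T ∆ Y) := by rw [← dg_mul, ← e, mul_assoc, dg_sq, mul_one]
  subst ez
  refine (dstab _).inv_mem_iff.1 (S.mem_of_dg hP h8 (H.inv_mem hg) (T := T ∆ Y)
    (dg_mul b T Y ▸ H.mul_mem eH hy) (fun h => z1 (by rw [h, dg_empty])) (ne _ ?_) ?_)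
  · have := (Finset.card_le_card (Finset.symmDiff_subset_union (s := T) (t := Y))).trans
      (Finset.card_union_le _ _)
    omega
  · rw [inv_inv, ← (dstab _).mul_mem_cancel_right (sg_dg b W).mem]
    rcases z3 with e | e <;> rw [e]
    · exact (dstab _).mul_mem ((dstab _).mul_mem nN' (sg_dg b Y).mem) ((dstab _).inv_mem nN')
    · exact (dstab _).mul_mem ((dstab _).mul_mem nN' (sg_dg b W).mem) ((dstab _).inv_mem nN')

end Fr

end Cfsg.Agent.H77
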