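import Cfsg.Agent.H77.OFrame0

/-!
Orthogonal frames over a prime field: an overgroup containing the reflections of the frame and
one Eichler transformation contains `Ω`.
-/

set_option autoImplicit false
set_option linter.unusedSectionVars false
set_option linter.unusedSimpArgs false

namespace Cfsg.Agent.H77

open Module Cfsg.Geo QuadraticMap H11 H27

variable {F V : Type*} [Field F] [AddCommGroup V] [Module F V] [FiniteDimensional F V] [Finite F]
variable {Q : QuadraticForm F V} {H : Subgroup (V ≃ₗ[F] V)}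

theorem rr_of_ee (hF : ∀ t : F, ∃ n : ℕ, t = n) {s v : V} (hs : Q s = 0) (hv : pB Q s v = 0)
    (h : EE Q H s v) : v ∈ RR H hs := ⟨hv, fun t => by
  obtain ⟨n, rfl⟩ := hF t
  induction n with
  | zero => simpa using ee_self (H := H) hs 0
  | succ n ih =>
    rw [Nat.cast_succ, add_smul, one_smul]
    exact EE.add hs (by simp [hv]) hv ih h⟩

/-- A torus element times a reflection. -/
def tM (Q : QuadraticForm F V) (s s' v : V) (a : F) (x : V) : V :=
  x + ((a - 1) * pB Q s' x) • s + ((a⁻¹ - 1) * pB Q s x) • s' - (pB Q v x / Q v) • v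

theorem has_tM {s v z : V} {hs : Q s = 0} (hv : v ∈ RR H hs) (v0 : Q v ≠ 0) (hz : rE Q z ∈ H)
    (z0 : Q z ≠ 0) (hsz : pB Q s z ≠ 0) (hvz : pB Q v z = 0) {l : F} (hl : l ≠ 0) :
    Has H (tM Q s ((pB Q s z)⁻¹ • z - (Q z / pB Q s z ^ 2) • s) v (l ^ 2 * Q v / Q z)) := by
  have r := has_of_mem hz
  have e1 := hv.1
  refine (r.comp ((hv.2 (-(Q z / (l * Q v * pB Q s z)))).comp (r.comp
    ((hv.2 (l / pB Q s z)).comp (r.comp (hv.2 (-(Q z / (l * Q v * pB Q s z))))))))).congr fun x => ?_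
  have R : ∀ α γ δ : F, rE Q z (x + α • s + γ • z + δ • v) = x + α • s +
      (-γ - (pB Q z x + α * pB Q s z) / Q z) • z + δ • v := fun α γ δ => by
    simp only [rE_apply, map_add, map_smul, pB_self, pB_comm z s, pB_zero hvz, smul_eq_mul]
    match_scalars <;> field_simp <;> ring
  have E : ∀ t α γ δ : F, eF Q s (t • v) (x + α • s + γ • z + δ • v) = x +
      (α - t * (pB Q v x + 2 * Q v * δ) - t ^ 2 * Q v * (pB Q s x + γ * pB Q s z)) • s + γ • z +
        (δ + t * (pB Q s x + γ * pB Q s z)) • v := fun t α γ δ => by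
    simp only [eF, map_add, map_smul, pB_self, hs, e1, pB_zero e1, hvz, smul_eq_mul, Q_smul,
      LinearMap.smul_apply]
    module
  conv_lhs => rw [show x = x + (0 : F) • s + (0 : F) • z + (0 : F) • v by simp]
  rw [E, R, E, R, E, R]
  simp only [tM, map_sub, map_smul, LinearMap.sub_apply, LinearMap.smul_apply, smul_eq_mul]
  match_scalars <;> field_simp <;> ring

theorem rr_torus (hF : ∀ t : F, ∃ n : ℕ, t = n) (h2 : (2 : F) ≠ 0) (h3 : (3 : F) ≠ 0) {s v z z' : V}
    {hs : Q s = 0} (hv : v ∈ RR H hs) (v0 : Q v ≠ 0) (hz : rE Q z ∈ H) (hz' : rE Q z' ∈ H)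
    (z0 : Q z ≠ 0) (e : Q z' = Q z) (hsz : pB Q s z ≠ 0) (hsz' : pB Q s z' ≠ 0) :
    (pB Q s z')⁻¹ • z' - (pB Q s z)⁻¹ • z ∈ RR H hs := by
  obtain ⟨l, l0, l1⟩ : ∃ l : F, l ≠ 0 ∧ l ^ 2 * Q v / Q z ≠ 1 := by
    by_cases h : (1 : F) ^ 2 * Q v / Q z = 1
    · refine ⟨2, h2, fun h' => h3 ?_⟩
      rw [mul_div_assoc] at h h'
      linear_combination h' - 4 * h
    · exact ⟨1, one_ne_zero, h⟩
  have key : ∀ z, rE Q z ∈ H → Q z ≠ 0 → pB Q s z ≠ 0 → ∃ s', s' - (pB Q s z)⁻¹ • z ∈ RR H hs ∧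
      Q s' = 0 ∧ pB Q s s' = 1 ∧ Has H (tM Q s s' (v - pB Q v s' • s) (l ^ 2 * Q v / Q z)) := by
    intro z hz z0 hsz
    have q : ∀ t : F, Q (v - t • s) = Q v := fun t => by simp [Qsub, Q_smul, hs, pB_zero hv.1]
    refine ⟨(pB Q s z)⁻¹ • z - (Q z / pB Q s z ^ 2) • s, by
      simpa using (RR H hs).smul_mem _ (rr_self hs), ?_, by simp [pB_self, hs, hsz], ?_⟩
    · simp only [Qsub, Q_smul, hs, map_smul, LinearMap.smul_apply, pB_comm z s, smul_eq_mul]
      field_simp; ring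
    · rw [← q]
      exact has_tM ((RR H hs).sub_mem hv ((RR H hs).smul_mem _ (rr_self hs))) (by rwa [q]) hz z0 hsz
        (by simp [pB_zero hv.1, mul_assoc, mul_comm, hsz]) l0
  obtain ⟨s1, a1, a2, a3, g1, a4, a5⟩ := key z hz z0 hsz
  obtain ⟨s2, b1, b2, b3, g2, b4, b5⟩ := key z' hz' (e ▸ z0) hsz'
  rw [e] at b5
  have a0 : l ^ 2 * Q v / Q z ≠ 0 := by simp [l0, v0, z0]
  generalize l ^ 2 * Q v / Q z = a at *
  have e1 := hv.1
  have := rr_of_ee hF (v := (a - 1) • (s2 - s1) - (a * (pB Q v s2 - pB Q v s1) / Q v) • v) hs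
    (by simp [a3, b3, e1]) ⟨g1 * g2⁻¹, H.mul_mem a4 (H.inv_mem b4), fun x => by
      obtain ⟨x, rfl⟩ := g2.surjective x
      rw [le_mul_apply, le_inv_apply, a5, b5]
      simp only [tM, eF, map_add, map_sub, map_smul, LinearMap.sub_apply, LinearMap.smul_apply,
        smul_eq_mul, Qsub, Q_smul, hs, a2, b2, a3, b3, e1, pB_zero e1, pB_self, pB_comm s1 s,
        pB_comm s2 s, pB_comm s1 v, pB_comm s2 v, pB_comm s1 s2, mul_zero, add_zero, sub_zero]
      match_scalars <;> field_simp <;> ring⟩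
  have := (RR H hs).add_mem this ((RR H hs).smul_mem (a * (pB Q v s2 - pB Q v s1) / Q v) hv)
  rw [sub_add_cancel, Submodule.smul_mem_iff _ (sub_ne_zero.2 l1)] at this
  convert (RR H hs).add_mem ((RR H hs).sub_mem this b1) a1 using 1
  abel

variable {τ : Type*} [Fintype τ] [DecidableEq τ] {b : Basis τ F V} {c : F}

theorem exists_sing_supp (U : Finset τ) (L : List (Dual F V)) (h : L.length + 3 ≤ U.card) :
    ∃ u, Q u = 0 ∧ u ≠ 0 ∧ (∀ i, i ∉ U → b.repr u i = 0) ∧ ∀ φ ∈ L, φ u = 0 := by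
  have f : finrank F (Submodule.span F (b '' U)) = U.card := by
    have := finrank_span_eq_card (b.linearIndependent.comp (Subtype.val : U → τ)
      Subtype.val_injective)
    rwa [Set.range_comp, Subtype.range_coe_subtype, Fintype.card_coe] at this
  have : ∀ (L : List (Dual F V)) (W : Submodule F V), L.length + 3 ≤ finrank F W →
      ∃ u ∈ W, Q u = 0 ∧ u ≠ 0 ∧ ∀ φ ∈ L, φ u = 0 := fun L => by
    induction L with
    | nil => exact fun W h => by simpa using exists_sing_sub (Q := Q) (X := W) (by simpa using h)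
    | cons φ L ih =>
      intro W h
      have := finrank_le_inf_ker W φ
      obtain ⟨u, h1, h2, h3, h4⟩ := ih (W ⊓ LinearMap.ker φ) (by simp at h; omega)
      exact ⟨u, h1.1, h2, h3, by simpa using ⟨h1.2, h4⟩⟩
  obtain ⟨u, h1, h2, h3, h4⟩ := this L _ (f ▸ h)
  rw [b.mem_span_image] at h1
  exact ⟨u, h2, h3, fun i hi => by_contra fun h => hi (h1 (Finsupp.mem_support_iff.2 h)), h4⟩

theorem exists_coord {x : V} (h : x ≠ 0) : ∃ i, b.repr x i ≠ 0 := by
  by_contra h1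
  push Not at h1
  exact h (b.ext_elem fun m => by simp [h1])

namespace Fr

variable (S : Fr Q b c H) (full : ∀ i, rE Q (b i) ∈ H)
include S full

theorem rr_of_coord {u x : V} {hu : Q u = 0} {U : Finset τ} (hU : U.card + 3 ≤ Fintype.card τ)
    (h1 : ∀ i, i ∉ U → b.repr u i = 0) (hx : x ∈ RR H hu) {k : τ} (hk : k ∉ U)
    (xk : b.repr x k ≠ 0) {y : V} (hy : ∀ i ∈ U, b.repr y i = 0) : y ∈ RR H hu := by
  have a1 : b k ∈ RR H hu := by
    have := (RR H hu).sub_mem hx (rr_conj hx (full k) (rE_mem _) hu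
      (rE_of_perp (by simp [S.pB_b, h1 k hk])))
    rwa [rE_apply, sub_sub_cancel, Submodule.smul_mem_iff _ (by
      simp [S.pB_b, S.q, S.c0, S.two, xk])] at this
  rw [← b.sum_repr y]
  refine Submodule.sum_mem _ fun l _ => ?_
  by_cases hl : l ∈ U
  · simp [hy l hl]
  obtain ⟨σ, s1, s2⟩ := exists_even_perm (insert k U) (Equiv.swap k l)
    (Equiv.injective _).injOn (by rw [Finset.card_insert_of_notMem hk]; omega)
  have := rr_conj a1 (S.pm_mem s1) (S.le (S.pm_mem s1)) hu (fix_of_fix (T := Uᶜ) (fun i hi => by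
    rw [Finset.notMem_compl] at hi
    rw [pm_b, s2 i (by simp [hi]), Equiv.swap_apply_of_ne_of_ne] <;> rintro rfl <;> contradiction)
    (by simpa using h1))
  rw [pm_b, s2 k (by simp), Equiv.swap_apply_left] at this
  exact (RR H hu).smul_mem _ this

theorem pB_flip {u : V} (hu : Q u = 0) {j : τ} (h : b.repr u j ≠ 0) :
    pB Q u (rE Q (b j) u) ≠ 0 := by
  simp [rE_apply, pB_self, hu, pB_comm u, S.pB_b, S.q, S.c0, S.two, h]

theorem OM_le_of_coord {u x : V} {hu : Q u = 0} (u0 : u ≠ 0) {U : Finset τ}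
    (hU : U.card + 3 ≤ Fintype.card τ) (h1 : ∀ i, i ∉ U → b.repr u i = 0) (hx : x ∈ RR H hu)
    {k : τ} (hk : k ∉ U) (xk : b.repr x k ≠ 0) : OM Q ≤ H := by
  have h7 := S.seven
  have step : ∀ {u : V} {hu : Q u = 0} {U : Finset τ}, u ≠ 0 → (∀ i, i ∉ U → b.repr u i = 0) →
      (∀ y, (∀ i ∈ U, b.repr y i = 0) → y ∈ RR H hu) → ∀ U' ⊆ Uᶜ, U'.card = 3 →
        ∀ w (hw : Q w = 0), (∀ i, i ∉ U' → b.repr w i = 0) →
          w ∈ RR H hu ∧ ∀ y, (∀ i ∈ U', b.repr y i = 0) → y ∈ RR H hw := by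
    intro u hu U u0 h1 h2 U' a1 a2 w hw a3
    have a4 := h2 w fun i hi => a3 i fun h => by simpa [hi] using a1 h
    obtain ⟨k, hk⟩ := exists_coord (b := b) u0
    exact ⟨a4, fun y hy => S.rr_of_coord full (by omega) a3 (rr_symm a4 hw) (k := k)
      (fun h => hk (h1 k (by simpa using a1 h))) hk hy⟩
  obtain ⟨U1, a1, a2⟩ := Finset.exists_subset_card_eq (s := Uᶜ) (n := 3)
    (by rw [Finset.card_compl]; omega)
  obtain ⟨u1, b1, b2, b3, -⟩ := exists_sing_supp (Q := Q) (b := b) U1 [] (by simp [a2])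
  have b4 := (step u0 h1 (fun y hy => S.rr_of_coord full hU h1 hx hk xk hy) U1 a1 a2 u1 b1 b3).2
  obtain ⟨U2, c1, c2⟩ := Finset.exists_subset_card_eq (s := U1ᶜ) (n := 3)
    (by rw [Finset.card_compl]; omega)
  obtain ⟨w, d1, d2, d3, -⟩ := exists_sing_supp (Q := Q) (b := b) U2 [] (by simp [c2])
  obtain ⟨j, hj⟩ := exists_coord (b := b) d2
  obtain ⟨d4, d5⟩ := step b2 b3 b4 U2 c1 c2 w d1 d3
  have d6 := (step b2 b3 b4 U2 c1 c2 (rE Q (b j) w) ((rE_mem _ w).trans d1) fun i hi => by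
    rw [S.rE_b, dg_repr]; simp [d3 i hi]).1
  have hA : AO Q H u1 := ⟨b1, fun y hy => by
    obtain ⟨y2, e2, e3⟩ : ∃ y2, (∀ i ∈ U1, b.repr y2 i = 0) ∧ ∀ i, i ∉ U1 → b.repr (y - y2) i = 0 :=
      ⟨b.equivFun.symm fun i => if i ∈ U1 then 0 else b.repr y i, fun i hi => by
        simp [-Basis.equivFun_symm_apply, ← Basis.equivFun_apply, hi], fun i hi => by
        simp [-Basis.equivFun_symm_apply, ← Basis.equivFun_apply, hi]⟩
    have e4 := b4 y2 e2
    have := rr_move d6 (d5 (y - y2) fun i hi => e3 i (by simpa using c1 hi)) (pB_zero d4.1)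
      (pB_zero (by rw [map_sub, hy, e4.1, sub_zero]))
    rw [Submodule.sub_mem_iff_left _ ((RR H b1).smul_mem _ d4),
      Submodule.smul_mem_iff _ (S.pB_flip full d1 hj)] at this
    simpa using (RR H b1).add_mem this e4⟩
  obtain ⟨i, hi⟩ := exists_coord (b := b) b2
  exact OM_le_of_two S.nd (by rw [finrank_eq_card_basis b]; omega) hA
    (hA.conj (full i) (rE_mem _)) (S.pB_flip full b1 hi)

theorem OM_le_of_ee (hF : ∀ t : F, ∃ n : ℕ, t = n) (h3 : (3 : F) ≠ 0)
    (r2 : ∀ i j, i ≠ j → rE Q (b i - b j) ∈ H) {s v : V} (hs : Q s = 0)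
    (s0 : s ≠ 0) (hsv : pB Q s v = 0) (v0 : Q v ≠ 0) (h : EE Q H s v) : OM Q ≤ H := by
  classical
  have h7 := S.seven
  have hv := rr_of_ee hF hs hsv h
  have β : ∀ k, b.repr s k ≠ 0 → pB Q s (b k) ≠ 0 := fun k hk => by
    simp [pB_comm s, S.pB_b, S.two, S.c0, hk]
  have T : ∀ k, b.repr s k ≠ 0 → ∀ z, rE Q z ∈ H → Q z = c → pB Q s z ≠ 0 →
      (pB Q s z)⁻¹ • z - (pB Q s (b k))⁻¹ • b k ∈ RR H hs := fun k hk z z1 z2 z3 =>
    rr_torus hF S.two h3 hv v0 (full k) z1 (S.q k ▸ S.c0) (z2.trans (S.q k).symm) (β k hk) z3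
  obtain ⟨k, hk⟩ := exists_coord (b := b) s0
  by_cases h5 : 5 ≤ (b.repr s).support.card
  · obtain ⟨U, a1, a2⟩ := Finset.exists_subset_card_eq (s := (b.repr s).support.erase k) (n := 4)
      (by rw [Finset.card_erase_of_mem (by simpa using hk)]; omega)
    obtain ⟨u, b1, b2, b3, b4⟩ := exists_sing_supp (Q := Q) (b := b) U [pB Q s] (by simp [a2])
    have b5 : pB Q s u = 0 := b4 _ (List.mem_singleton_self _)
    refine S.OM_le_of_coord full b2 (U := U) (by omega) b3 (rr_symm (hu := hs) ?_ b1) (k := k)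
      (fun h => by simpa using a1 h) hk
    have := Submodule.sum_mem (RR H hs) (t := Finset.univ) (f := fun l => (b.repr u l *
      pB Q s (b l)) • ((pB Q s (b l))⁻¹ • b l - (pB Q s (b k))⁻¹ • b k)) fun l _ => by
        by_cases hl : l ∈ U
        · have : b.repr s l ≠ 0 := by simpa using Finset.mem_of_mem_erase (a1 hl)
          exact (RR H hs).smul_mem _ (T k hk _ (full l) (S.q l) (β l this))
        · simp [b3 l hl]
    rw [← b.sum_repr u, map_sum] at b5
    simp only [map_smul, smul_eq_mul] at b5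
    simp only [smul_sub, Finset.sum_sub_distrib, ← Finset.sum_smul, b5, zero_smul, sub_zero] at this
    convert this using 1
    conv_lhs => rw [← b.sum_repr u]
    refine Finset.sum_congr rfl fun l _ => ?_
    by_cases hl : l ∈ U
    · have : b.repr s l ≠ 0 := by simpa using Finset.mem_of_mem_erase (a1 hl)
      rw [smul_smul, mul_assoc, mul_inv_cancel₀ (β l this), mul_one]
    · simp [b3 l hl]
  obtain ⟨l, hl⟩ : ∃ l, l ∉ (b.repr s).support := by
    by_contra h6
    push Not at h6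
    rw [Finset.eq_univ_of_forall h6, Finset.card_univ] at h5
    omega
  have hkl : k ≠ l := by rintro rfl; exact hl (by simpa using hk)
  have e1 : rE Q (b l) (b k - b l) = b k + b l := by
    rw [map_sub, rE_of_perp (S.orth l k hkl.symm), rE_self (S.q l ▸ S.c0), sub_neg_eq_add]
  have e2 : pB Q s (b l) = 0 := by simpa [pB_comm s, S.pB_b, S.two, S.c0] using hl
  have := rr_torus hF S.two h3 hv v0 (r2 k l hkl) (z' := b k + b l) (by
    rw [← e1, ← rE_conj (rE_mem _)]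
    exact H.mul_mem (H.mul_mem (full l) (r2 k l hkl)) (H.inv_mem (full l)))
    (S.Q_sub hkl ▸ mul_ne_zero S.two S.c0) (e1 ▸ rE_mem _ _) (by simpa [e2] using β k hk)
    (by simpa [e2] using β k hk)
  refine S.OM_le_of_coord full s0 (U := (b.repr s).support) (by omega) (by simp) this hl ?_
  simpa [Finsupp.single_apply, hkl, e2, ← two_mul, S.two] using β k hk

end Fr

end Cfsg.Agent.H77
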