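import Cfsg.Agent.H27.OGeoC
import Cfsg.Agent.H3.SympBasis

/-!
Orthogonal groups: the stabiliser of a non-degenerate subspace is maximal in `Ω` in every
dimension at least seven.
-/

set_option autoImplicit false
set_option linter.unusedSectionVars false
set_option linter.unusedSimpArgs false

namespace Cfsg.Agent.H77

open Module Cfsg.Geo QuadraticMap H11 H27

variable {F V : Type*} [Field F] [AddCommGroup V] [Module F V] [FiniteDimensional F V] [Finite F]
variable {Q : QuadraticForm F V} {M : Subgroup (V ≃ₗ[F] V)}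

theorem ee_smul_left {u v : V} (a : F) (h : EE Q M (a • u) v) : EE Q M u (a • v) :=
  Has.congr h fun z => by
    simp only [eF, map_smul, LinearMap.smul_apply, smul_eq_mul, Q_smul]; module

theorem ee_zero {u : V} (hu : Q u = 0) : EE Q M u 0 := by simpa using ee_self (H := M) hu 0

theorem ndon_even (h2 : (2 : F) = 0) {W : Submodule F V} (h : NDon Q W) : Even (finrank F W) := by
  obtain ⟨m, hm⟩ := H3.even_finrank_of_isAlt (polarBilin (Q.comp W.subtype))
    (fun x => by rw [polarBilin_apply_apply, polar_self', h2, zero_mul]) h.nd.nondegenerate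
  exact ⟨m, by omega⟩

/-- A non-degenerate space of dimension at least four represents everything on the orthogonal
complement of a singular vector. -/
theorem ndon_rep_perp {W : Submodule F V} (h : NDon Q W) (h4 : 4 ≤ finrank F W) {u : V}
    (hu : u ∈ W) (hu0 : u ≠ 0) (h0 : Q u = 0) (c : F) : ∃ y ∈ W, Q y = c ∧ pB Q y u = 0 := by
  obtain ⟨u', hu', e1, e2⟩ := h.exists_partner hu hu0 h0
  have e3 := finrank_le_inf_ker W (pB Q u)
  have e4 := finrank_le_inf_ker (W ⊓ LinearMap.ker (pB Q u)) (pB Q u')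
  have hP : NDon Q (W ⊓ LinearMap.ker (pB Q u) ⊓ LinearMap.ker (pB Q u')) := fun x hx h1 =>
    h x hx.1.1 fun z hz => by
      have := h1 (z - pB Q u' z • u - pB Q u z • u')
        ⟨⟨W.sub_mem (W.sub_mem hz (W.smul_mem _ hu)) (W.smul_mem _ hu'), by
          simp [pB_self, h0, e2]⟩, by simp [pB_self, e1, pB_comm u' u, e2]⟩
      simpa [pB_zero (LinearMap.mem_ker.1 hx.1.2), pB_zero (LinearMap.mem_ker.1 hx.2)] using this
  obtain ⟨y, hy⟩ := hP.nd.represents (by omega) c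
  exact ⟨y, y.2.1.1, hy, pB_zero y.2.1.2⟩

section Gen

variable {τ : Type*} [Fintype τ] [DecidableEq τ] {D : τ → Submodule F V}
variable (S : OD Q D M) (d : Dec D)
include S d

theorem od_ee_smul {j : τ} {u v : V} (hu : u ∈ D j) (hu0 : u ≠ 0) (h0 : Q u = 0)
    (hv : ∀ x ∈ D j, pB Q x v = 0) (h : EE Q M u v) (c : F) : EE Q M u (c • v) := by
  obtain ⟨u', hu', e1, e2⟩ := (ndon_summand S.nd d S.orth j).exists_partner hu hu0 h0
  have key : ∀ μ : F, EE Q M u ((μ * μ) • v) := fun μ => by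
    by_cases hμ : μ = 0
    · simpa [hμ] using ee_zero h0
    have q1 : Q (u - u') = -1 := by simp [Qsub, h0, e1, e2]
    have q2 : Q (μ⁻¹ • u - μ • u') = -1 := by
      simp [Qsub, Q_smul, h0, e1, e2, hμ]
    have m1 := (D j).sub_mem hu hu'
    have m2 := (D j).sub_mem ((D j).smul_mem μ⁻¹ hu) ((D j).smul_mem μ hu')
    have hg := S.rE_mul d m1 m2 (by simp [q1]) (q1.trans q2.symm)
    have := h.conj hg (S.le hg)
    rw [le_mul_apply, le_mul_apply, rE_of_perp (hv _ m2), rE_of_perp (hv _ m1)] at this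
    refine ee_smul_left _ (by
      convert this using 1
      have f1 : rE Q (μ⁻¹ • u - μ • u') u = (μ * μ) • u' := by
        rw [rE_apply, q2]
        simp only [map_sub, map_smul, LinearMap.sub_apply, LinearMap.smul_apply, pB_self, h0,
          pB_comm u' u, e2, smul_eq_mul]
        match_scalars <;> field_simp <;> ring
      rw [f1, map_smul, rE_apply, q1]
      simp only [map_sub, LinearMap.sub_apply, pB_self, e1, e2]
      match_scalars <;> field_simp <;> ring)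
  obtain ⟨x, y, hxy⟩ := exists_mul_sq_add_mul_sq (one_ne_zero (α := F)) one_ne_zero c
  have := EE.add h0 (by simp [hv u hu]) (by simp [hv u hu]) (key x) (key y)
  rwa [← add_smul, show x * x + y * y = c by linear_combination hxy] at this

end Gen

section Two

variable {D : Fin 2 → Submodule F V} (S : OD Q D M) (d : Dec D)
include S d

theorem loc_zero {i j : Fin 2} (hij : i ≠ j) (h4 : 4 ≤ finrank F (D j)) (hex : IrrOK Q (D i))
    (hne : ¬ OM Q ≤ M) {u v : V} (hu : u ∈ D j) (hu0 : u ≠ 0) (h0 : Q u = 0) (hv : v ∈ D i)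
    (h : EE Q M u v) : v = 0 := by
  by_contra hv0
  have hp : ∀ x ∈ D j, pB Q x v = 0 := fun x hx => S.orth j i hij.symm x hx v hv
  refine hne (S.OM_le_of_ao d (by omega) hu hu0 (S.ao_of_le d hu h0 fun l hl => ?_))
  rw [(fin2_cases hij l).resolve_right hl]
  refine S.rr_fill d le_rfl (ndon_summand S.nd d S.orth i) hex
    (fun x hx => S.orth i j hij x hx u hu) (fun c _ => ?_) hv hv0
    ⟨hp u hu, od_ee_smul S d hu hu0 h0 hp h⟩
  obtain ⟨y, hy, e1, e2⟩ := ndon_rep_perp (ndon_summand S.nd d S.orth j) h4 hu hu0 h0 c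
  exact ⟨j, y, hy, e1, e2, S.orth j i hij.symm y hy⟩

/-- The local step: an element fixing a singular vector of the large summand stabilises it. -/
theorem loc_step (hM : M ≤ OM Q) {i j : Fin 2} (hij : i ≠ j) (h4 : 4 ≤ finrank F (D j))
    (hex : IrrOK Q (D i)) (hne : ¬ OM Q ≤ M) {u : V} (hu : u ∈ D j) (hu0 : u ≠ 0) (h0 : Q u = 0)
    {g : V ≃ₗ[F] V} (hg : g ∈ M) (hgu : g u = u) : g ∈ stab (D j) := by
  have hgi := S.le hg
  have hji : ∀ x, d.π i x = 0 → x ∈ D j := fun x hx =>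
    d.mem_of_forall fun l hl => by rwa [(fin2_cases hij l).resolve_right hl]
  have h1 : ∀ y ∈ D j, pB Q u y = 0 → g y ∈ D j := fun y hy huy => by
    have e1 := rr_conj (S.rr_summand d hu hy h0 huy) hg hgi h0 hgu
    have e2 := (RR M h0).sub_mem e1 (S.rr_summand d hu (d.mem j (g y)) h0 (by
      rw [S.orth.π_right d hu, e1.1]))
    rw [← eq_sub_of_add_eq (d.add_two hij _)] at e2
    exact hji _ (loc_zero S d hij h4 hex hne hu hu0 h0 (d.mem i _) (by simpa using e2.2 1))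
  obtain ⟨u', hu', e1, e2⟩ := (ndon_summand S.nd d S.orth j).exists_partner hu hu0 h0
  have hua : pB Q u (-d.π i (g u')) = 0 := by
    rw [map_neg, S.orth j i hij.symm u hu _ (d.mem i _), neg_zero]
  obtain ⟨e, he, hef⟩ := exists_eich S.nd S.five h0 hua
  have e3 : pB Q u (g u') = 1 := by rw [← hgu, OG_pB hgi, e2]
  have h2 : e * g ∈ stab (D j) := mem_stab_of_mapsTo fun y hy => by
    have f1 := h1 (y - pB Q u y • u') ((D j).sub_mem hy ((D j).smul_mem _ hu')) (by simp [e2])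
    have f2 : e (g u') ∈ D j := hji _ (by
      simp [hef, eF, e3, d.π_π, d.ne hij hu])
    have f3 : e (g (y - pB Q u y • u')) ∈ D j := by
      rw [hef, eF, ← hgu, OG_pB hgi, hgu]
      simp only [map_sub (pB Q u), map_smul, e2, smul_eq_mul, mul_one, sub_self, zero_smul,
        add_zero]
      exact (D j).sub_mem f1 ((D j).smul_mem _ hu)
    have := (D j).add_mem f3 ((D j).smul_mem (pB Q u y) f2)
    simpa [le_mul_apply] using this
  have h3 : e * g ∈ OM Q := (OM Q).mul_mem he (hM hg)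
  have h5 : e * g ∈ M := S.base _ h3 (stab_of_stab S.nd d S.orth (OM_le h3) h2)
  have h6 : e ∈ M := by simpa using M.mul_mem h5 (M.inv_mem hg)
  have h7 := loc_zero S d hij h4 hex hne hu hu0 h0 ((D i).neg_mem (d.mem i _)) ⟨e, h6, hef⟩
  have h8 : e = 1 := LinearEquiv.ext fun x => by rw [hef, h7]; simp [eF]
  simpa [h8] using h2

theorem fix_dich {i j : Fin 2} (hij : i ≠ j) {x v : V} {e : V ≃ₗ[F] V}
    (hef : ∀ z, e z = eF Q x v z) (hi : e ∈ stab (D i)) (hj : e ∈ stab (D j))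
    (hv : v ∉ Submodule.span F {x}) (xi : d.π i x ≠ 0) (xj : d.π j x ≠ 0) :
    (2 : F) = 0 ∧ ∃ s t : F, s ≠ t ∧ v = s • d.π i x + t • d.π j x := by
  have key : ∀ {i j : Fin 2}, i ≠ j → e ∈ stab (D j) → d.π j x ≠ 0 →
      ∃ z ∈ D j, pB Q x z = 1 ∧ d.π i v = (pB Q v z + Q v) • d.π i x := by
    intro i j hij hj xj
    obtain ⟨z, hz, hz'⟩ := (ndon_summand S.nd d S.orth j).exists_ne (d.mem j x) xj
    rw [S.orth.π_left d hz] at hz'
    have hz1 := (D j).smul_mem (pB Q x z)⁻¹ hz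
    have e1 : pB Q x ((pB Q x z)⁻¹ • z) = 1 := by simp [hz']
    refine ⟨_, hz1, e1, ?_⟩
    have := d.ne hij (stab_apply hj hz1)
    rw [hef, eF, e1, map_sub, map_add, d.ne hij hz1, map_smul, map_smul] at this
    simpa [sub_eq_zero] using this
  obtain ⟨z, hz, z1, z2⟩ := key hij hj xj
  obtain ⟨w, hw, w1, w2⟩ := key hij.symm hi xi
  have f1 : pB Q v z = pB Q v w + Q v := by
    rw [← S.orth.π_left d hz v, w2, map_smul, LinearMap.smul_apply, S.orth.π_left d hz, z1]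
    simp
  have f2 : pB Q v w = pB Q v z + Q v := by
    rw [← S.orth.π_left d hw v, z2, map_smul, LinearMap.smul_apply, S.orth.π_left d hw, w1]
    simp
  have hv' : v = (pB Q v z + Q v) • d.π i x + (pB Q v w + Q v) • d.π j x := by
    rw [← z2, ← w2, d.add_two hij]
  have hne : pB Q v z + Q v ≠ pB Q v w + Q v := fun h => hv (by
    rw [hv', h, ← smul_add, d.add_two hij]
    exact Submodule.smul_mem _ _ (Submodule.mem_span_singleton_self x))
  refine ⟨?_, _, _, hne, hv'⟩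
  have f3 : Q v ≠ 0 := fun h => hne (by rw [f1, h]; ring)
  exact (mul_eq_zero.1 (show 2 * Q v = 0 by linear_combination -f1 - f2)).resolve_right f3

omit S d in
theorem exists_ts_plane (h2 : (2 : F) = 0) {P P' : Submodule F V} (hP : finrank F P = 2)
    (hP' : finrank F P' = 2) (ha : ∀ x ∈ P, Q x = 0 → x = 0) (ha' : ∀ x ∈ P', Q x = 0 → x = 0)
    (ho : ∀ x ∈ P, ∀ y ∈ P', pB Q x y = 0) (hd : Disjoint P P') :
    ∃ X ≤ P ⊔ P', finrank F X = 2 ∧ ∀ x ∈ X, Q x = 0 := by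
  obtain ⟨b, hb⟩ := exists_anisotropic_binary F
  obtain ⟨r, r0, r1, r2⟩ := exists_basis_anisotropic_plane (Q := Q) P hP ha hb
  obtain ⟨s, s0, s1, s2⟩ := exists_basis_anisotropic_plane (Q := Q) P' hP' ha' hb
  let φ := r.equiv s (Equiv.refl _)
  have hφ : ∀ x : P, Q (φ x) = Q x := fun x => by
    have e1 := r.sum_repr x
    rw [Fin.sum_univ_two] at e1
    rw [← e1]
    simp only [map_add, map_smul, φ, Basis.equiv_apply, Equiv.refl_apply, Submodule.coe_add,
      Submodule.coe_smul, Qadd, Q_smul, r0, r2, s0, s2, LinearMap.smul_apply, pB_eq, r1, s1]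
  refine ⟨LinearMap.range (P.subtype + P'.subtype ∘ₗ φ.toLinearMap), ?_, ?_, ?_⟩
  · rintro _ ⟨x, rfl⟩
    exact Submodule.add_mem_sup x.2 (φ x).2
  · rw [LinearMap.finrank_range_of_inj, hP]
    rw [injective_iff_map_eq_zero]
    intro x hx
    have h3 : (x : V) + φ x = 0 := hx
    exact Subtype.ext (Submodule.disjoint_def.1 hd _ x.2 (by
      rw [eq_neg_of_add_eq_zero_left h3]; exact P'.neg_mem (φ x).2))
  · rintro _ ⟨x, rfl⟩
    change Q ((x : V) + φ x) = 0
    rw [Qadd, hφ, ho _ x.2 _ (φ x).2]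
    linear_combination Q x * h2

theorem OM_le_of_nd4 (hM : M ≤ OM Q) {i j : Fin 2} (hij : i ≠ j) (h4 : 4 ≤ finrank F (D j))
    (hex : IrrOK Q (D i)) (hc : (2 : F) = 0 → finrank F (D j) = 4 → finrank F (D i) = 4 ∧
      ∀ X ≤ D i, finrank F X = 2 → ¬ ∀ x ∈ X, Q x = 0) {g : V ≃ₗ[F] V} (hg : g ∈ M)
    (hg' : g ∉ stab (D j)) (hni : ¬ ∀ x ∈ D j, g x ∈ D i) : OM Q ≤ M := by
  by_contra hne
  have hgi := S.le hg
  have hji : ∀ {i j : Fin 2}, i ≠ j → ∀ x, d.π i x = 0 → x ∈ D j := fun {i j} hij x hx =>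
    d.mem_of_forall fun l hl => by rwa [(fin2_cases hij l).resolve_right hl]
  -- the basic dichotomy
  have key : ∀ f ∈ D j, Q f = 0 → d.π i (g f) ≠ 0 → d.π j (g f) ≠ 0 → ∀ u : V,
      (∀ e ∈ M, e u = u → ∀ l, e ∈ stab (D l)) → pB Q (g f) u = 0 → ∀ y ∈ D j, pB Q f y = 0 →
      pB Q (g y) u = 0 → y ∉ Submodule.span F {f} →
      (2 : F) = 0 ∧ ∃ s t : F, s ≠ t ∧ g y = s • d.π i (g f) + t • d.π j (g f) := by
    intro f hf f0 fi fj u hu hfu y hy hfy hyu hyf
    obtain ⟨e, he, hef⟩ := ((rr_conj (S.rr_summand d hf hy f0 hfy) hg hgi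
      ((hgi f).trans f0) rfl).2 1).exists
    rw [one_smul] at hef
    have h1 := hu e he (by simp [hef, eF, hfu, hyu])
    refine fix_dich S d hij hef (h1 i) (h1 j) (fun h => hyf ?_) fi fj
    obtain ⟨c, hc⟩ := Submodule.mem_span_singleton.1 h
    exact Submodule.mem_span_singleton.2 ⟨c, g.injective (by rw [map_smul, hc])⟩
  have hloc : ∀ u ∈ D j, u ≠ 0 → Q u = 0 → ∀ e ∈ M, e u = u → ∀ l, e ∈ stab (D l) :=
    fun u hu hu0 h0 e he heu => stab_of_stab S.nd d S.orth (S.le he)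
      (loc_step S d hM hij h4 hex hne hu hu0 h0 he heu)
  have hspan : ∀ f y : V, y ∉ Submodule.span F {g⁻¹ (d.π i (g f)), g⁻¹ (d.π j (g f))} →
      y ∉ Submodule.span F {f} ∧
        ¬ ∃ s t : F, s ≠ t ∧ g y = s • d.π i (g f) + t • d.π j (g f) := fun f y hy => by
    refine ⟨fun h => hy ?_, fun ⟨s, t, _, h⟩ => hy (Submodule.mem_span_pair.2 ⟨s, t, ?_⟩)⟩
    · obtain ⟨c, rfl⟩ := Submodule.mem_span_singleton.1 h
      refine Submodule.mem_span_pair.2 ⟨c, c, ?_⟩
      rw [← smul_add, ← map_add, d.add_two hij, le_inv_apply]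
    · rw [← map_smul g⁻¹, ← map_smul g⁻¹, ← map_add, ← h, le_inv_apply]
  have hsing : ∀ x : V, ∃ u ∈ D j, u ≠ 0 ∧ Q u = 0 ∧ pB Q x u = 0 := fun x => by
    have := finrank_le_inf_ker (D j) (pB Q x)
    obtain ⟨u, hu, h0, hu0⟩ := exists_sing_sub (Q := Q) (X := D j ⊓ LinearMap.ker (pB Q x))
      (by omega)
    exact ⟨u, hu.1, hu0, h0, hu.2⟩
  have hpull : ∀ u y : V, pB Q (g⁻¹ u) y = 0 → pB Q (g y) u = 0 := fun u y h => by
    rw [← le_apply_inv g u, OG_pB hgi]; exact pB_zero h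
  obtain ⟨f, hf, f0, fi, fj⟩ : ∃ f ∈ D j, Q f = 0 ∧ d.π i (g f) ≠ 0 ∧ d.π j (g f) ≠ 0 := by
    by_contra hc
    push Not at hc
    obtain ⟨l, hl⟩ := exists_mapsToO S.nd d S.orth (i := j) (by omega) hgi fun f hf f0 => by
      by_cases h : d.π i (g f) = 0
      · exact ⟨j, hji hij _ h⟩
      · exact ⟨i, hji hij.symm _ (hc f hf f0 h)⟩
    rcases fin2_cases hij l with rfl | rfl
    · exact hni hl
    · exact hg' (mem_stab_of_mapsTo hl)
  have hdich : ∀ f ∈ D j, Q f = 0 → d.π i (g f) ≠ 0 → d.π j (g f) ≠ 0 →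
      (2 : F) = 0 ∧ ∃ y ∈ D j, ∃ s t : F, s ≠ t ∧ g y = s • d.π i (g f) + t • d.π j (g f) := by
    intro f hf f0 fi fj
    obtain ⟨u, hu, hu0, h0, hfu⟩ := hsing (g f)
    have hfne : f ≠ 0 := by rintro rfl; simp at fi
    obtain ⟨y, hy, hy1, hy2⟩ := exists_ker_list [pB Q f, pB Q (g⁻¹ u)] (W := D j)
      (S := Submodule.span F {f}) (by
        rw [finrank_span_singleton hfne]; simp only [List.length_cons, List.length_nil]; omega)
    obtain ⟨h2, h3⟩ := key f hf f0 fi fj u (hloc u hu hu0 h0) hfu y hy (hy1 _ (by simp))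
      (hpull u y (hy1 _ (by simp))) hy2
    exact ⟨h2, y, hy, h3⟩
  have h2 := (hdich f hf f0 fi fj).1
  have hsp := finrank_span_pair_le (F := F) (g⁻¹ (d.π i (g f))) (g⁻¹ (d.π j (g f)))
  by_cases h5 : 5 ≤ finrank F (D j)
  · obtain ⟨u, hu, hu0, h0, hfu⟩ := hsing (g f)
    obtain ⟨y, hy, hy1, hy2⟩ := exists_ker_list [pB Q f, pB Q (g⁻¹ u)] (W := D j)
      (S := Submodule.span F {g⁻¹ (d.π i (g f)), g⁻¹ (d.π j (g f))}) (by
        simp only [List.length_cons, List.length_nil]; omega)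
    exact (hspan f y hy2).2 (key f hf f0 fi fj u (hloc u hu hu0 h0) hfu y hy (hy1 _ (by simp))
      (hpull u y (hy1 _ (by simp))) (hspan f y hy2).1).2
  obtain ⟨hi4, hpl⟩ := hc h2 (by omega)
  have hloc' : ∀ u ∈ D i, u ≠ 0 → Q u = 0 → ∀ e ∈ M, e u = u → ∀ l, e ∈ stab (D l) :=
    fun u hu hu0 h0 e he heu => stab_of_stab S.nd d S.orth (S.le he)
      (loc_step S d hM hij.symm (by omega) (irrOK_of_ne (ndon_summand S.nd d S.orth j) (by omega))
        hne hu hu0 h0 he heu)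
  -- the image of `D j` is compatible with the decomposition
  have hB : ∀ z ∈ D j, g⁻¹ (d.π i (g z)) ∈ D j := fun z hz => by
    by_contra hc
    obtain ⟨l, hl, hla⟩ := exists_dual_of_not_mem hc
    obtain ⟨w, hw, w0, w1⟩ := exists_sing_summand S.nd d S.orth (i := j) (by omega)
      (φ := l ∘ₗ (g⁻¹ : V ≃ₗ[F] V).toLinearMap ∘ₗ d.π i ∘ₗ (g : V →ₗ[F] V)) hz (by
        change l (g⁻¹ (d.π i (g z))) ≠ 0
        rw [hla]; exact one_ne_zero)
    refine w1 (hl _ ?_)
    change g⁻¹ (d.π i (g w)) ∈ D j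
    by_cases wi : d.π i (g w) = 0
    · simp [wi]
    by_cases wj : d.π j (g w) = 0
    · rwa [d.self (hji hij.symm _ wj), le_inv_apply]
    obtain ⟨-, y, hy, s, t, hst, h⟩ := hdich w hw w0 wi wj
    have : d.π i (g w) = g ((s - t)⁻¹ • (y - t • w)) := by
      have h6 := sub_ne_zero.2 hst
      rw [map_smul, map_sub, map_smul, h]
      conv_rhs => rw [← d.add_two hij (g w)]
      simp only [d.π_π, map_add, d.π_π_ne hij, d.π_π_ne hij.symm]
      match_scalars <;> field_simp <;> ring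
    rw [this, le_inv_apply]
    exact (D j).smul_mem _ ((D j).sub_mem hy ((D j).smul_mem _ hw))
  have hA : ∀ z ∈ D i, g⁻¹ (d.π i (g z)) ∈ D i := fun z hz =>
    mem_of_orthO S.nd d S.orth fun l hl w hw => by
      rw [(fin2_cases hij l).resolve_left hl] at hw
      rw [← OG_pB hgi, le_apply_inv, ← S.orth.π_right d (d.mem i _),
        S.orth.π_left d (d.mem i _), ← le_apply_inv g (d.π i (g w)), OG_pB hgi]
      exact S.orth i j hij z hz _ (hB w hw)
  have han : ∀ l, ∀ u ∈ D l ⊓ (D i).map (g : V →ₗ[F] V), Q u = 0 → u = 0 := by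
    rintro l u ⟨hu, z, hz, rfl⟩ h0
    by_contra hu0
    have hl : ∀ e ∈ M, e (g z) = g z → ∀ l, e ∈ stab (D l) := by
      rcases fin2_cases hij l with rfl | rfl
      · exact hloc' _ hu hu0 h0
      · exact hloc _ hu hu0 h0
    have hz' : ∀ y ∈ D j, pB Q (g y) (g z) = 0 := fun y hy => by
      rw [OG_pB hgi]; exact S.orth j i hij.symm y hy z hz
    obtain ⟨y, hy, hy1, hy2⟩ := exists_ker_list [pB Q f] (W := D j)
      (S := Submodule.span F {g⁻¹ (d.π i (g f)), g⁻¹ (d.π j (g f))}) (by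
        simp only [List.length_cons, List.length_nil]; omega)
    exact (hspan f y hy2).2 (key f hf f0 fi fj _ hl (hz' f hf) y hy (hy1 _ (by simp))
      (hz' y hy) (hspan f y hy2).1).2
  have hle : ∀ l, finrank F (D l ⊓ (D i).map (g : V →ₗ[F] V) : Submodule F V) ≤ 2 := fun l => by
    by_contra hc
    obtain ⟨u, hu, h0, hu0⟩ := exists_sing_sub (Q := Q)
      (X := D l ⊓ (D i).map (g : V →ₗ[F] V)) (by omega)
    exact hu0 (han l u hu h0)
  have hsup : (D i).map (g : V →ₗ[F] V) ≤ (D i ⊓ (D i).map (g : V →ₗ[F] V)) ⊔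
      (D j ⊓ (D i).map (g : V →ₗ[F] V)) := by
    rintro _ ⟨z, hz, rfl⟩
    have m1 : d.π i (g z) ∈ (D i).map (g : V →ₗ[F] V) := ⟨_, hA z hz, le_apply_inv g _⟩
    change g z ∈ _
    rw [← d.add_two hij (g z)]
    refine Submodule.add_mem_sup ⟨d.mem i _, m1⟩ ⟨d.mem j _, ?_⟩
    rw [eq_sub_of_add_eq' (d.add_two hij (g z))]
    exact Submodule.sub_mem _ ⟨z, hz, rfl⟩ m1
  have e1 := Submodule.finrank_mono hsup
  have e2 := Submodule.finrank_add_le_finrank_add_finrank (D i ⊓ (D i).map (g : V →ₗ[F] V))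
    (D j ⊓ (D i).map (g : V →ₗ[F] V))
  rw [LinearEquiv.finrank_map_eq] at e1
  have e3 := hle i
  have e4 := hle j
  obtain ⟨X, hX, hX2, hX0⟩ := exists_ts_plane (Q := Q) h2 (P := D i ⊓ (D i).map (g : V →ₗ[F] V))
    (P' := D j ⊓ (D i).map (g : V →ₗ[F] V)) (by omega) (by omega) (han i) (han j)
    (fun x hx y hy => S.orth i j hij x hx.1 y hy.1)
    (Submodule.disjoint_def.2 fun x hx hx' => d.eq_zero_of_mem hij hx.1 hx'.1)
  refine hpl (X.map ((g⁻¹ : V ≃ₗ[F] V) : V →ₗ[F] V)) ?_ (by rwa [LinearEquiv.finrank_map_eq]) ?_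
  · rintro _ ⟨x, hx, rfl⟩
    obtain ⟨z, hz, rfl⟩ := (sup_le inf_le_right inf_le_right : _ ≤ (D i).map (g : V →ₗ[F] V)) (hX hx)
    simpa [le_inv_apply] using hz
  · rintro _ ⟨x, hx, rfl⟩
    exact (S.le (M.inv_mem hg) x).trans (hX0 x hx)

end Two

theorem OM_le_of_stab_nd7 (h : ND Q) (hd : 7 ≤ finrank F V) {W : Submodule F V} (hW : NDon Q W)
    (hex : IrrOK Q W) (hex' : IrrOK Q (perp (pB Q) W))
    (hni : 2 * finrank F W = finrank F V → ∀ g ∈ OG Q, ¬ ∀ x ∈ perp (pB Q) W, g x ∈ W)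
    (hpl : 2 * finrank F W = finrank F V → (2 : F) = 0 →
      ∀ X : Submodule F V, 2 * finrank F X = finrank F V → ¬ ∀ x ∈ X, Q x = 0)
    (hH : stab W ⊓ OM Q ≤ M) (hG : M ≤ OM Q) {g : V ≃ₗ[F] V} (hg : g ∈ M) (hg' : g ∉ stab W) :
    OM Q ≤ M := by
  obtain ⟨⟨d⟩, o⟩ := exists_dec_perpO h hW
  have hG' : M ≤ OG Q := hG.trans OM_le
  have S : OD Q ![W, perp (pB Q) W] M := ⟨h, by omega, o, fun g hg h => hH ⟨h 0, hg⟩, hG'⟩
  have e := finrank_perp h W
  have key : ∀ (g : V ≃ₗ[F] V) (A B : Submodule F V), (∀ x ∈ A, g x ∈ B) →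
      finrank F A ≤ finrank F B := by
    intro g A B h1
    have := Submodule.finrank_mono (show A.map (g : V →ₗ[F] V) ≤ B by
      rintro _ ⟨x, hx, rfl⟩; exact h1 x hx)
    rwa [LinearEquiv.finrank_map_eq] at this
  have hg1 : g ∉ stab (perp (pB Q) W) := fun h2 => hg' (stab_of_stab h d o (hG' hg) (j := 1) h2 0)
  have hU := ndon_perp h hW
  rcases lt_trichotomy (finrank F (perp (pB Q) W)) (finrank F W) with h1 | h1 | h1
  · refine OM_le_of_nd4 S d hG (i := 1) (j := 0) (by decide) (show 4 ≤ finrank F W by omega) hex'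
      (fun h2 (h3 : finrank F W = 4) => ?_) hg hg' fun h2 => absurd (key g W _ h2) (not_le.2 h1)
    obtain ⟨k, hk⟩ := ndon_even h2 hU
    omega
  · have hni1 := hni (by omega) g (hG' hg)
    have hni0 : ¬ ∀ x ∈ W, g x ∈ perp (pB Q) W := fun h2 => by
      refine hni (by omega) g⁻¹ ((OG Q).inv_mem (hG' hg)) fun x hx => ?_
      rw [← map_eq_of_mapsTo h2 h1.le] at hx
      obtain ⟨y, hy, rfl⟩ := hx
      simpa [le_inv_apply] using hy
    by_cases hp : ∀ X ≤ W, finrank F X = 2 → ¬ ∀ x ∈ X, Q x = 0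
    · exact OM_le_of_nd4 S d hG (i := 0) (j := 1) (by decide)
        (show 4 ≤ finrank F (perp (pB Q) W) by omega) hex
        (fun _ (h3 : finrank F (perp (pB Q) W) = 4) => ⟨show finrank F W = 4 by omega, hp⟩)
        hg hg1 hni1
    · refine OM_le_of_nd4 S d hG (i := 1) (j := 0) (by decide) (show 4 ≤ finrank F W by omega) hex'
        (fun h2 (h3 : finrank F W = 4) => ⟨show finrank F (perp (pB Q) W) = 4 by omega,
          fun Y (hY : Y ≤ perp (pB Q) W) hY2 hY0 => ?_⟩) hg hg' hni0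
      push Not at hp
      obtain ⟨X, hX, hX2, hX0⟩ := hp
      have hdis : X ⊓ Y = ⊥ := (Submodule.eq_bot_iff _).2 fun x hx =>
        d.eq_zero_of_mem (i := 0) (j := 1) (by decide) (hX hx.1) (hY hx.2)
      have e2 := Submodule.finrank_sup_add_finrank_inf_eq X Y
      rw [hdis, finrank_bot] at e2
      refine hpl (by omega) h2 (X ⊔ Y) (by omega) fun z hz => ?_
      obtain ⟨x, hx, y, hy, rfl⟩ := Submodule.mem_sup.1 hz
      rw [Qadd, hX0 x hx, hY0 y hy, hY hy x (hX hx)]; ring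
  · refine OM_le_of_nd4 S d hG (i := 0) (j := 1) (by decide)
      (show 4 ≤ finrank F (perp (pB Q) W) by omega) hex
      (fun h2 (h3 : finrank F (perp (pB Q) W) = 4) => ?_) hg hg1
      fun h2 => absurd (key g _ W h2) (not_le.2 h1)
    obtain ⟨k, hk⟩ := ndon_even h2 hW
    omega

section Mat

variable {ι : Type} [Fintype ι] [DecidableEq ι] {F : Type*} [Field F] [Fintype F]
variable {Q : QuadraticForm F (ι → F)} {W : Submodule F (ι → F)}

theorem isMaximalIn_omega' {K : Subgroup ((ι → F) ≃ₗ[F] (ι → F))}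
    (hne : ¬ omegaGL Q ≤ K.comap (toLE ι F : GL ι F →* _))
    (h : ∀ M, K ⊓ OM Q ≤ M → M ≤ OM Q → ∀ g ∈ M, g ∉ K → OM Q ≤ M) :
    IsMaximalIn (omegaGL Q) (K.comap (toLE ι F : GL ι F →* _) ⊓ omegaGL Q) := by
  rw [← comap_OM, ← Subgroup.comap_inf] at *
  refine isMaximalIn_comap _ (isMaximalIn_of inf_le_right ?_ fun M hM hM' g hg hg' =>
    h M hM hM' g hg fun h => hg' ⟨h, hM' hg⟩)
  by_contra hc
  push Not at hc
  exact hne fun g hg => (hc _ hg).1

theorem isMaximalIn_stab_nd7 (h : ND Q) (hd : 7 ≤ Fintype.card ι) (h0 : W ≠ ⊥) (h1 : W ≠ ⊤)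
    (hW : IsNondegenerateOn (polar Q) W)
    (hni : 2 * finrank F W = Fintype.card ι → Even (finrank F W) ∧ ¬ IsPlusTypeOn Q ⊤)
    (hex : ¬ (Fintype.card F ≤ 3 ∧ (∃ U : Submodule F (ι → F), finrank F U = 2 ∧
      IsNondegenerateOn (polar Q) U ∧ IsPlusTypeOn Q U ∧ (U = W ∨ (AreOrthogonalFor (polar Q) U W ∧
        finrank F U + finrank F W = Fintype.card ι))))) :
    IsMaximalIn (omegaGL Q) (subspaceStabilizer W ⊓ omegaGL Q) := by
  have hW' := ndon_iff.2 hW
  have hU := ndon_perp h hW'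
  have e := finrank_perp h W
  rw [fr_eq] at e
  refine isMaximalIn_omega' (K := stab W) (h.not_le_stab (by omega) h0 h1)
    fun M hM hG g hg hg' => OM_le_of_stab_nd7 h (by rwa [fr_eq]) hW'
      (irrOK_of hW' fun h2 h3 => ?_) (irrOK_of hU fun h2 h3 => ?_) (fun h2 g hg h3 => ?_)
      (fun h2 _ X h3 h4 => ?_) hM hG hg hg'
  · by_contra h4
    exact hex ⟨by omega, W, h2, hW, h3, Or.inl rfl⟩
  · by_contra h4
    exact hex ⟨by omega, _, h2, ndon_iff.1 hU, h3,
      Or.inr ⟨fun u hu v hv => pB_zero (hu v hv), by omega⟩⟩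
  · rw [fr_eq] at h2
    obtain ⟨h4, h5⟩ := hni h2
    obtain ⟨X, h6, h7⟩ := exists_ts_of_iso h hW' (by convert h4 using 1; omega) hg h3
    exact h5 ⟨X, le_top, h7, by rw [finrank_top, fr_eq]; omega⟩
  · rw [fr_eq] at h2
    exact (hni h2).2 ⟨X, le_top, h4, by rw [finrank_top, h3]⟩

end Mat

end Cfsg.Agent.H77
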