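import Cfsg.Agent.H27.ODec2
import Cfsg.Agent.H77.ONd

/-!
Orthogonal decompositions into at least five planes, first step.
-/

set_option autoImplicit false
set_option linter.unusedSectionVars false
set_option linter.unusedSimpArgs false

namespace Cfsg.Agent.H77

open Module Cfsg.Geo QuadraticMap H11 H27

theorem inv_trick2 {G : Type*} [Group G] [Finite G] {H N : Subgroup G} {y w g : G} (hy : y ∈ H) (hw : w ∈ H) (hg : g ∈ H)
    (y2 : y * y = 1) (w2 : w * w = 1) (yN : y ∈ N) (wN : w ∈ N)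
    (Uy : ∀ h ∈ H, h * y * h⁻¹ ∈ N → h ∈ N) (Uw : ∀ h ∈ H, h * w * h⁻¹ ∈ N → h ∈ N)
    (nc : ∀ n ∈ H, n ∈ N → n * y * n⁻¹ ≠ w) :
    ∃ z, z ≠ 1 ∧ z * z = 1 ∧ (∃ n ∈ H, n ∈ N ∧ (z * y = n * y * n⁻¹ ∨ z * y = n * w * n⁻¹)) ∧
      ∃ n ∈ H, n ∈ N ∧ (g⁻¹ * z * g * w = n * y * n⁻¹ ∨ g⁻¹ * z * g * w = n * w * n⁻¹) := by
  have hw' : g * w * g⁻¹ ∈ H := H.mul_mem (H.mul_mem hg hw) (H.inv_mem hg)
  have w2' : g * w * g⁻¹ * (g * w * g⁻¹) = 1 := by simp [mul_assoc, ← mul_assoc w w, w2]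
  obtain ⟨v, hv⟩ : ∃ v, v = g * w * g⁻¹ := ⟨_, rfl⟩
  rw [← hv] at hw' w2'
  rcases Nat.even_or_odd (orderOf (y * v)) with ⟨m, hm⟩ | ⟨r, hr⟩
  swap
  · have e := dihedral_odd y2 w2' r
    rw [← hr, pow_orderOf_eq_one, one_mul] at e
    have hh : ((y * v) ^ r * y * g)⁻¹ ∈ H :=
      H.inv_mem (H.mul_mem (H.mul_mem (H.pow_mem (H.mul_mem hy hw') r) hy) hg)
    have e' : ((y * v) ^ r * y * g)⁻¹ * y * ((y * v) ^ r * y * g)⁻¹⁻¹ = w := by
      generalize (y * v) ^ r * y = h at e ⊢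
      rw [e, hv]; group
    exact absurd e' (nc _ hh (Uy _ hh (e' ▸ wN)))
  have hpos := orderOf_pos (y * v)
  have z2 : ((y * v) ^ m)⁻¹ = (y * v) ^ m :=
    inv_eq_of_mul_eq_one_right (by rw [← pow_add, ← hm, pow_orderOf_eq_one])
  have z3 : (v * y) ^ m = (y * v) ^ m := by
    rw [← z2, ← inv_pow, mul_inv_rev, inv_eq_of_mul_eq_one_right y2,
      inv_eq_of_mul_eq_one_right w2']
  have c1 := dihedral_conj y2 w2' m
  have c2 := dihedral_conj w2' y2 m
  obtain ⟨h1, hh1, e1⟩ := dihedral_cases hy hw' y2 w2' m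
  obtain ⟨h2, hh2, e2⟩ := dihedral_cases hw' hy w2' y2 m
  have hz : (y * v) ^ m ∈ H := H.pow_mem (H.mul_mem hy hw') m
  have z1 := pow_ne_one_of_lt_orderOf (x := y * v) (n := m) (by omega) (by omega)
  rw [z3] at c2 e2
  generalize (y * v) ^ m = z at *
  have f1 : z * y ∈ N := N.mul_mem (Uy z hz (by
    have : z * y * z⁻¹ = y := by
      rw [← c1, show z * y * (y * z * y) = z * (y * y) * z * y by group, y2, mul_one]
      nth_rw 2 [← z2]; simp
    rwa [this])) yN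
  have hz' : g⁻¹ * z * g ∈ H := H.mul_mem (H.mul_mem (H.inv_mem hg) hz) hg
  have f2 : g⁻¹ * z * g * w ∈ N := N.mul_mem (Uw _ hz' (by
    have : z * v * z⁻¹ = v := by
      rw [← c2, show z * v * (v * z * v) = z * (v * v) * z * v by group, w2', mul_one]
      nth_rw 2 [← z2]; simp
    rwa [show g⁻¹ * z * g * w * (g⁻¹ * z * g)⁻¹ = g⁻¹ * (z * v * z⁻¹) * g by rw [hv]; group, this,
      hv, show g⁻¹ * (g * w * g⁻¹) * g = w by group])) wN
  have k1 : g⁻¹ * z * g * w = g⁻¹ * (z * v) * g := by rw [hv]; group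
  refine ⟨z, z1, by nth_rw 1 [← z2]; exact inv_mul_cancel z, ?_, ?_⟩
  · rcases e1 with e1 | e1
    · exact ⟨h1, hh1, Uy _ hh1 (e1 ▸ f1), Or.inl e1⟩
    · have e : z * y = h1 * g * w * (h1 * g)⁻¹ := by rw [e1, hv]; group
      exact ⟨_, H.mul_mem hh1 hg, Uw _ (H.mul_mem hh1 hg) (e ▸ f1), Or.inr e⟩
  · rcases e2 with e2 | e2
    · have e : g⁻¹ * z * g * w = g⁻¹ * h2 * g * w * (g⁻¹ * h2 * g)⁻¹ := by rw [k1, e2, hv]; group
      have hm := H.mul_mem (H.mul_mem (H.inv_mem hg) hh2) hg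
      exact ⟨_, hm, Uw _ hm (e ▸ f2), Or.inr e⟩
    · have e : g⁻¹ * z * g * w = g⁻¹ * h2 * y * (g⁻¹ * h2)⁻¹ := by rw [k1, e2]; group
      have hm := H.mul_mem (H.inv_mem hg) hh2
      exact ⟨_, hm, Uy _ hm (e ▸ f2), Or.inl e⟩


variable {F V : Type*} [Field F] [AddCommGroup V] [Module F V] [FiniteDimensional F V] [Finite F]
variable {Q : QuadraticForm F V} {H : Subgroup (V ≃ₗ[F] V)}
variable {τ : Type*} [Fintype τ] [DecidableEq τ] {D : τ → Submodule F V}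

/-- The commutator space of `u` contains a vector of norm `c` of a summand. -/
def Rng (Q : QuadraticForm F V) (D : τ → Submodule F V) (c : F) (u : V ≃ₗ[F] V) : Prop :=
  ∃ j, ∃ b ∈ D j, Q b = c ∧ ∃ x, ∃ t : F, t ≠ 0 ∧ u x - x = t • b

/-- Only elements of the stabiliser conjugate `u` into the stabiliser. -/
def UU (D : τ → Submodule F V) (H : Subgroup (V ≃ₗ[F] V)) (u : V ≃ₗ[F] V) : Prop :=
  ∀ h ∈ H, h * u * h⁻¹ ∈ dstab D → h ∈ dstab D

theorem loc_conj {c : F} {u n : V ≃ₗ[F] V} {l : List τ} (h : Loc Q D c u l) (hn : n ∈ dstab D)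
    (hi : n ∈ OG Q) : ∃ ρ : Equiv.Perm τ, Loc Q D c (n * u * n⁻¹) (l.map ρ) := by
  obtain ⟨ρ, h1, h2⟩ := Dec.exists_perm hn
  refine ⟨ρ, fun j => ?_⟩
  obtain ⟨j, rfl⟩ := ρ.surjective j
  refine (h j).imp (fun h => ⟨by simpa using h.1, fun x hx => ?_⟩) fun ⟨h3, b, hb, h4, h5⟩ =>
    ⟨List.mem_map_of_mem h3, n b, h1 j b hb, (hi b).trans h4, fun x hx => ?_⟩
  · rw [le_mul_apply, le_mul_apply, h.2 _ (h2 j x hx), le_apply_inv]
  · rw [le_mul_apply, le_mul_apply, h5 _ (h2 j x hx), ← rE_conj hi]; rfl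

theorem loc_ds {c : F} {u : V ≃ₗ[F] V} {l : List τ} (h : Loc Q D c u l) : u ∈ dstab D :=
  mem_dstab_of_stab fun j => mem_stab_of_mapsTo (h.mem j)

theorem exists_ne_of_ne_one (d : Dec D) {z : V ≃ₗ[F] V} (h : z ≠ 1) :
    ∃ j, ∃ x ∈ D j, z x ≠ x := by
  by_contra h1
  push Not at h1
  exact h (LinearEquiv.ext fun x => d.induction (p := fun x => z x = x) h1 (by simp)
    (fun x y a b => by rw [map_add, a, b]) x)

section

variable (S : OI Q D H) (d : Dec D) (h2 : ∀ i, finrank F (D i) = 2) (hG : GP Q D)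
include S d h2 hG

theorem exists_sub {j : τ} {b a : V} (hb : b ∈ D j) (ha : a ∈ D j) (h : b ∉ Submodule.span F {a}) :
    ∃ x ∈ D j, pB Q a x = 0 ∧ rE Q b x - x = -(Q b)⁻¹ • b :=
  S.exists_sub_eq d (fun i => (h2 i).ge) hG (by rwa [d.self hb, d.self ha])

theorem rng_of_refl {c : F} (hc : c ≠ 0) {u : V ≃ₗ[F] V} {j : τ} {b : V} (hb : b ∈ D j)
    (b1 : Q b = c) (h : ∀ x ∈ D j, u x = rE Q b x) : Rng Q D c u := by
  obtain ⟨x, hx, -, x2⟩ := exists_sub S d h2 hG hb (D j).zero_mem (by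
    simpa using fun h => hc (by simp [← b1, h]))
  exact ⟨j, b, hb, b1, x, -(Q b)⁻¹, by simpa [b1] using hc, by rw [h x hx, x2]⟩

theorem mem_span_of_refl_eq {j : τ} {a b : V} (ha : a ∈ D j) (hb : b ∈ D j) (b0 : Q b ≠ 0)
    (h : ∀ x ∈ D j, rE Q b x = rE Q a x) : b ∈ Submodule.span F {a} := by
  by_contra h1
  obtain ⟨x, hx, x1, x2⟩ := exists_sub S d h2 hG hb ha h1
  rw [h x hx, rE_of_perp x1, sub_self, eq_comm, smul_eq_zero] at x2
  exact x2.elim (by simpa using b0) (by rintro rfl; simp at b0)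

theorem fin_part {c : F} (hc : c ≠ 0) (hP : Part Q D H c) {g z : V ≃ₗ[F] V} (hg : g ∈ H)
    (hz : z ∈ OG Q) {i : τ} (zi : ∀ x ∈ D i, z x = x) (h : Rng Q D c (g⁻¹ * z * g)) :
    g ∈ dstab D := by
  obtain ⟨j, b, hb, b1, x, t, t0, hx⟩ := h
  refine S.claimA d (fun i => (h2 i).ge) hG hc hP hg hb b1 (l := i) fun y hy => ?_
  have := perp_of_fix hz (zi y hy) (g x)
  rw [← le_apply_inv g (z _), ← map_sub, show g⁻¹ (z (g x)) - x = _ from hx] at this
  simpa [t0] using this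

theorem uu_of {c : F} (hc : c ≠ 0) (hP : Part Q D H c) {u : V ≃ₗ[F] V} (hu : u ∈ H)
    (u2 : u * u = 1) (L : List V) (hL : L.length < Fintype.card τ)
    (h : ∀ x, (∀ v ∈ L, pB Q v x = 0) → u x = x) (hr : Rng Q D c u) : UU D H u := by
  intro g hg h1
  have hi := S.le hg
  obtain ⟨i, h3⟩ := exists_cent d (fun i => (h2 i).ge) h1
    (by simp [mul_assoc, ← mul_assoc u u, u2]) (L.map fun v => pB Q (g v)) (by simpa using hL)
    fun x hx => by
      rw [le_mul_apply, le_mul_apply, h _ fun v hv => by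
        rw [← OG_pB hi, le_apply_inv]; exact hx _ (List.mem_map_of_mem hv), le_apply_inv]
  exact fin_part S d h2 hG hc hP hg (S.le (H.mul_mem (H.mul_mem hg hu) (H.inv_mem hg))) h3
    (by simpa [mul_assoc] using hr)

theorem uu_of_loc {c : F} (hc : c ≠ 0) (hP : Part Q D H c) {u : V ≃ₗ[F] V} (hu : u ∈ H)
    {l : List τ} (L : Loc Q D c u l) (hL : l.length < Fintype.card τ) {j : τ} (hj : j ∈ l) :
    UU D H u := by
  have : ∀ j, ∃ b ∈ D j, ∀ x ∈ D j, u x = rE Q b x := fun j => by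
    rcases L j with ⟨-, h⟩ | ⟨-, b, hb, -, h⟩
    · exact ⟨0, (D j).zero_mem, fun x hx => by rw [h x hx, rE_of_perp (by simp)]⟩
    · exact ⟨b, hb, h⟩
  choose b hb hb' using this
  refine uu_of S d h2 hG hc hP hu (L.sq d) (l.map b) (by simpa using hL) (fun x hx => ?_) ?_
  · rw [← d.sum x, map_sum]
    refine Finset.sum_congr rfl fun k _ => ?_
    rcases L k with ⟨-, h⟩ | ⟨h, -⟩
    · exact h _ (d.mem k x)
    · rw [hb' k _ (d.mem k x), rE_of_perp (by
        rw [S.orth.π_right d (hb k)]; exact hx _ (List.mem_map_of_mem h))]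
  · obtain ⟨-, a, ha, a1, h⟩ := (L j).resolve_left fun h => h.1 hj
    exact rng_of_refl S d h2 hG hc ha a1 h

theorem rng_mul {c c' : F} (hc : c ≠ 0) (hc' : c' ≠ 0) {u w : V ≃ₗ[F] V} {l l' : List τ}
    (L : Loc Q D c u l) (L' : Loc Q D c' w l') (h : u * w ≠ 1) :
    Rng Q D c (u * w) ∨ Rng Q D c' (u * w) := by
  obtain ⟨j, x, hx, hx'⟩ := exists_ne_of_ne_one d h
  rcases L j with ⟨-, h⟩ | ⟨-, b, hb, b1, h⟩ <;> rcases L' j with ⟨-, h'⟩ | ⟨-, b', hb', b1', h'⟩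
  · exact absurd (by rw [le_mul_apply, h' x hx, h x hx]) hx'
  · exact Or.inr (rng_of_refl S d h2 hG hc' hb' b1' fun y hy => by
      rw [le_mul_apply, h' y hy, h _ (rE_mem_sub hb' hy)])
  · exact Or.inl (rng_of_refl S d h2 hG hc hb b1 fun y hy => by rw [le_mul_apply, h' y hy, h y hy])
  · obtain ⟨y, hy, y1, y2⟩ := exists_sub S d h2 hG hb hb' (by
      intro h3
      obtain ⟨t, rfl⟩ := Submodule.mem_span_singleton.1 h3
      exact hx' (by rw [le_mul_apply, h' x hx, h _ (rE_mem_sub hb' hx), rE_smul (by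
        rintro rfl; exact hc (by simp [← b1])), rE_rE]))
    exact Or.inl ⟨j, b, hb, b1, y, -(Q b)⁻¹, by simpa [b1] using hc, by
      rw [le_mul_apply, h' y hy, rE_of_perp y1, h y hy, y2]⟩

theorem core_pair (ht : 5 ≤ Fintype.card τ) {H' : Subgroup (V ≃ₗ[F] V)} (hH : H' ≤ H) {c c' : F}
    (hc : c ≠ 0) (hc' : c' ≠ 0) (hP : Part Q D H c) (hP' : Part Q D H c') {y w : V ≃ₗ[F] V}
    {i j k l : τ} (Ly : Loc Q D c y [i, j]) (Lw : Loc Q D c' w [k, l]) (hy : y ∈ H') (hw : w ∈ H')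
    (nc : ∀ n ∈ H', n ∈ dstab D → n * y * n⁻¹ ≠ w) {g : V ≃ₗ[F] V} (hg : g ∈ H') :
    g ∈ dstab D := by
  have := finite_lequiv (F := F) (V := V)
  have Uy := uu_of_loc S d h2 hG hc hP (hH hy) Ly (by simp; omega) (j := i) (by simp)
  have Uw := uu_of_loc S d h2 hG hc' hP' (hH hw) Lw (by simp; omega) (j := k) (by simp)
  obtain ⟨z, z1, -, ⟨n, hn, nN, z2⟩, n', hn', nN', z3⟩ := inv_trick2 (N := dstab D) hy hw hg
    (Ly.sq d) (Lw.sq d) (loc_ds Ly) (loc_ds Lw) (fun h hh => Uy h (hH hh))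
    (fun h hh => Uw h (hH hh)) nc
  have key : ∀ {n v z' : V ≃ₗ[F] V}, n ∈ H' → n ∈ dstab D → v * v = 1 →
      (z' * v = n * y * n⁻¹ ∨ z' * v = n * w * n⁻¹) → ∃ u e, ∃ m : List τ, m.length = 2 ∧
        (e = c ∨ e = c') ∧ Loc Q D e u m ∧ z' = u * v ∧ u ∈ H := by
    intro n v z' hn nN v2 h
    rcases h with h | h
    · obtain ⟨ρ, L⟩ := loc_conj Ly nN (S.le (hH hn))
      exact ⟨_, _, _, by simp, Or.inl rfl, L, by rw [← h, mul_assoc, v2, mul_one],
        hH (H'.mul_mem (H'.mul_mem hn hy) (H'.inv_mem hn))⟩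
    · obtain ⟨ρ, L⟩ := loc_conj Lw nN (S.le (hH hn))
      exact ⟨_, _, _, by simp, Or.inr rfl, L, by rw [← h, mul_assoc, v2, mul_one],
        hH (H'.mul_mem (H'.mul_mem hn hw) (H'.inv_mem hn))⟩
  obtain ⟨u, e, m, hm, -, L, rfl, hu⟩ := key hn nN (Ly.sq d) z2
  obtain ⟨u', e', m', -, he', L', z5, -⟩ := key hn' nN' (Lw.sq d) z3
  obtain ⟨p, hp⟩ := exists_not_mem_list (i :: j :: m) (by simp; omega)
  simp only [List.mem_cons, not_or] at hp
  have zi : ∀ x ∈ D p, (u * y) x = x := fun x hx => by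
    rw [le_mul_apply, ((Ly p).resolve_right (by simp [hp])).2 x hx,
      ((L p).resolve_right (by simp [hp])).2 x hx]
  have hz := S.le (H.mul_mem hu (hH hy))
  have z6 : u' * w ≠ 1 := fun h => z1 (by
    rw [h] at z5
    rw [show u * y = g * (g⁻¹ * (u * y) * g) * g⁻¹ by group, z5]; group)
  have e0 : e' ≠ 0 := by rcases he' with rfl | rfl <;> assumption
  rcases rng_mul S d h2 hG e0 hc' L' Lw z6 with h | h <;> rw [← z5] at h
  · rcases he' with rfl | rfl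
    · exact fin_part S d h2 hG hc hP (hH hg) hz zi h
    · exact fin_part S d h2 hG hc' hP' (hH hg) hz zi h
  · exact fin_part S d h2 hG hc' hP' (hH hg) hz zi h

theorem loc_two {c : F} {i j : τ} (hij : i ≠ j) {a b : V} (ha : a ∈ D i) (hb : b ∈ D j)
    (a1 : Q a = c) (b1 : Q b = c) : Loc Q D c (rE Q a * rE Q b) [i, j] := by
  have L0 : Loc Q D c 1 [] := fun j => Or.inl ⟨by simp, fun _ _ => rfl⟩
  simpa using (L0.mul S.orth (by simp) hb b1).mul S.orth (i := i) (by simpa using hij) ha a1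

theorem diag_of (hc2 : (2 : F) = 0) {c : F} (hc : c ≠ 0) {u w : V ≃ₗ[F] V} {l l' : List τ}
    (L : Loc Q D c u l) (L' : Loc Q D c w l') (h : u * w * (u * w) = 1) (j : τ) :
    (∀ x ∈ D j, (u * w) x = x) ∨ ∃ b ∈ D j, Q b = c ∧ ∀ x ∈ D j, (u * w) x = rE Q b x := by
  rcases L j with ⟨-, h1⟩ | ⟨-, b, hb, b1, h1⟩ <;> rcases L' j with ⟨-, h'⟩ | ⟨-, a, ha, a1, h'⟩
  · exact Or.inl fun x hx => by rw [le_mul_apply, h' x hx, h1 x hx]
  · exact Or.inr ⟨a, ha, a1, fun y hy => by rw [le_mul_apply, h' y hy, h1 _ (rE_mem_sub ha hy)]⟩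
  · exact Or.inr ⟨b, hb, b1, fun y hy => by rw [le_mul_apply, h' y hy, h1 y hy]⟩
  refine Or.inl fun x hx => ?_
  have a0 : a ≠ 0 := by rintro rfl; exact hc (by simp [← a1])
  have b0 : b ≠ 0 := by rintro rfl; exact hc (by simp [← b1])
  have h3 : b ∈ Submodule.span F {a} := by
    by_contra h3
    obtain ⟨y, hy, y1, y2⟩ := exists_sub S d h2 hG hb ha h3
    have e1 := congrArg (fun g : V ≃ₗ[F] V => g y) h
    have m1 := rE_mem_sub (Q := Q) hb hy
    simp only [le_mul_apply, le_one_apply] at e1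
    rw [h' y hy, rE_of_perp y1, h1 y hy, h' _ m1, h1 _ (rE_mem_sub ha m1)] at e1
    have e2 : rE Q a (rE Q b y) = rE Q b y := by
      rw [← rE_rE (Q := Q) b (rE Q a (rE Q b y)), e1]
    rw [eq_add_of_sub_eq y2, map_add, rE_of_perp y1, add_left_inj, map_smul, rE_apply] at e2
    have e3 : pB Q a b = 0 := by
      have : (-(Q b)⁻¹ * ((Q a)⁻¹ * pB Q a b)) • a = 0 := by
        linear_combination (norm := module) -e2
      simpa [a0, a1, b1, hc] using this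
    refine a0 (S.ndon d j a ha fun z hz => ?_)
    obtain ⟨α, β, rfl⟩ := span_plane (h2 j).le ha hb a0 h3 z hz
    simp [pB_self, e3, hc2]
  obtain ⟨t, rfl⟩ := Submodule.mem_span_singleton.1 h3
  rw [le_mul_apply, h' x hx, h1 _ (rE_mem_sub ha hx), rE_smul (by rintro rfl; simp at b0), rE_rE]

theorem end_even (ht : 5 ≤ Fintype.card τ) (hc2 : (2 : F) = 0) {c : F} (hc : c ≠ 0)
    (hP : Part Q D H c) {g z : V ≃ₗ[F] V} (hg : g ∈ H) (hz : z ∈ OG Q) (z1 : z ≠ 1)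
    (h1 : ∀ j, (∀ x ∈ D j, z x = x) ∨ ∃ b ∈ D j, Q b = c ∧ ∀ x ∈ D j, z x = rE Q b x)
    (h1' : ∀ j, (∀ x ∈ D j, (g⁻¹ * z * g) x = x) ∨
      ∃ b ∈ D j, Q b = c ∧ ∀ x ∈ D j, (g⁻¹ * z * g) x = rE Q b x) : g ∈ dstab D := by
  have hi := S.le hg
  have R : ∀ {z : V ≃ₗ[F] V}, z ≠ 1 → (∀ j, (∀ x ∈ D j, z x = x) ∨
      ∃ b ∈ D j, Q b = c ∧ ∀ x ∈ D j, z x = rE Q b x) → Rng Q D c z := fun z1 h1 => by
    obtain ⟨j, x, hx, hx'⟩ := exists_ne_of_ne_one d z1
    obtain ⟨b, hb, b1, h⟩ := (h1 j).resolve_left fun h => hx' (h x hx)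
    exact rng_of_refl S d h2 hG hc hb b1 h
  by_cases k1 : ∃ i, ∀ x ∈ D i, z x = x
  · obtain ⟨i, k1⟩ := k1
    exact fin_part S d h2 hG hc hP hg hz k1 (R (fun h => z1 (by
      simpa [mul_assoc, inv_mul_eq_one] using h)) h1')
  by_cases k2 : ∃ i, ∀ x ∈ D i, (g⁻¹ * z * g) x = x
  · obtain ⟨i, k2⟩ := k2
    exact (dstab D).inv_mem_iff.1 (fin_part S d h2 hG hc hP (H.inv_mem hg)
      ((OG Q).mul_mem ((OG Q).mul_mem ((OG Q).inv_mem hi) hz) hi) k2
      (by simpa [mul_assoc] using R z1 h1))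
  push Not at k1 k2
  choose b hb b1 b2 using fun j => (h1 j).resolve_left fun h => by
    obtain ⟨x, hx, h'⟩ := k1 j; exact h' (h x hx)
  choose a ha a1 a2 using fun j => (h1' j).resolve_left fun h => by
    obtain ⟨x, hx, h'⟩ := k2 j; exact h' (h x hx)
  obtain ⟨i, j, hij⟩ := Fintype.exists_pair_of_one_lt_card (α := τ) (by omega)
  have o : ∀ k l, pB Q (g (a k)) (b l) = 0 := fun k l => by
    obtain ⟨x, hx, -, x2⟩ := exists_sub S d h2 hG (ha k) (D k).zero_mem (by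
      simpa using fun h => hc (by simp [← a1 k, h]))
    have := perp_of_fix hz (show z (b l) = b l by
      rw [b2 l _ (hb l), rE_of_perp (by simp [pB_self, hc2])]) (g x)
    rw [← le_apply_inv g (z _), ← map_sub, show g⁻¹ (z (g x)) = _ from a2 k x hx, x2] at this
    simpa [a1, hc] using this
  have La := loc_two S d h2 hG hij (ha i) (ha j) (a1 i) (a1 j)
  have Lb := loc_two S d h2 hG hij (hb i) (hb j) (b1 i) (b1 j)
  have ma := S.rE_mul d (ha i) (ha j) (a1 i ▸ hc) ((a1 i).trans (a1 j).symm)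
  have mb := S.rE_mul d (hb i) (hb j) (b1 i ▸ hc) ((b1 i).trans (b1 j).symm)
  refine uu_of_loc S d h2 hG hc hP ma La (by simp; omega) (j := i) (by simp) g hg
    (uu_of_loc S d h2 hG hc hP mb Lb (by simp; omega) (j := i) (by simp) _
      (H.mul_mem (H.mul_mem hg ma) (H.inv_mem hg)) ?_)
  have e : g * (rE Q (a i) * rE Q (a j)) * g⁻¹ = rE Q (g (a i)) * rE Q (g (a j)) := by
    rw [← rE_conj hi, ← rE_conj hi]; group
  have hv := (OG Q).mul_mem (rE_mem (Q := Q) (g (a i))) (rE_mem (g (a j)))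
  have e' : ∀ l, (rE Q (g (a i)) * rE Q (g (a j))) (b l) = b l := fun l => by
    rw [le_mul_apply, rE_of_perp (o j l), rE_of_perp (o i l)]
  rw [e]
  generalize rE Q (g (a i)) * rE Q (g (a j)) = v at hv e'
  have : v * (rE Q (b i) * rE Q (b j)) * v⁻¹ = rE Q (b i) * rE Q (b j) := by
    conv_rhs => rw [← e' i, ← e' j, ← rE_conj hv, ← rE_conj hv]
    group
  rw [this]; exact loc_ds Lb

theorem mem_of_part_even (ht : 5 ≤ Fintype.card τ) (hc2 : (2 : F) = 0) {c : F} (hc : c ≠ 0)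
    (hP : Part Q D H c) {g : V ≃ₗ[F] V} (hg : g ∈ H) : g ∈ dstab D := by
  have := finite_lequiv (F := F) (V := V)
  obtain ⟨e⟩ := Function.Embedding.nonempty_of_card_le (α := Fin 4) (β := τ) (by simp; omega)
  choose a ha a1 using fun i => (S.ndon d i).exists_rep (h2 i).ge c
  have Ly := loc_two S d h2 hG (i := e 0) (j := e 1) (by simp) (ha _) (ha _) (a1 _) (a1 _)
  have Lw := ((loc_two S d h2 hG (i := e 2) (j := e 3) (by simp) (ha _) (ha _) (a1 _) (a1 _)).mul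
    S.orth (i := e 1) (by simp) (ha _) (a1 _)).mul S.orth (i := e 0) (by simp) (ha _) (a1 _)
  have hH : ∀ i j, rE Q (a i) * rE Q (a j) ∈ H := fun i j =>
    S.rE_mul d (ha i) (ha j) (a1 i ▸ hc) ((a1 i).trans (a1 j).symm)
  have hw : rE Q (a (e 0)) * (rE Q (a (e 1)) * (rE Q (a (e 2)) * rE Q (a (e 3)))) ∈ H := by
    rw [← mul_assoc]; exact H.mul_mem (hH _ _) (hH _ _)
  have hy := hH (e 0) (e 1)
  generalize rE Q (a (e 0)) * rE Q (a (e 1)) = y at Ly hy
  generalize rE Q (a (e 0)) * (rE Q (a (e 1)) * (rE Q (a (e 2)) * rE Q (a (e 3)))) = w at Lw hw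
  obtain ⟨z, z1, z0, ⟨n, hn, nN, z2⟩, n', hn', nN', z3⟩ := inv_trick2 (N := dstab D) hy hw hg
    (Ly.sq d) (Lw.sq d) (loc_ds Ly) (loc_ds Lw)
    (uu_of_loc S d h2 hG hc hP hy Ly (by simp; omega) (j := e 0) (by simp))
    (uu_of_loc S d h2 hG hc hP hw Lw (by simp; omega) (j := e 0) (by simp)) fun n hn nN h => by
      obtain ⟨l, hl, L⟩ := Ly.conj nN (S.le hn)
      obtain ⟨m, hm⟩ := exists_not_mem_list (l.map (Function.invFun e)) (by simp [hl])
      obtain ⟨-, b, hb, b1, h1⟩ := (Lw (e m)).resolve_left fun h => h.1 (by fin_cases m <;> simp)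
      obtain ⟨x, hx, -, x2⟩ := exists_sub S d h2 hG hb (D _).zero_mem (by
        simpa using fun h => hc (by simp [← b1, h]))
      rw [← h1 x hx, ← h, ((L (e m)).resolve_right fun h => hm (List.mem_map.2
        ⟨_, h.1, Function.leftInverse_invFun e.injective m⟩)).2 x hx, sub_self, eq_comm] at x2
      exact hc (by simp [← b1, (smul_eq_zero.1 x2).resolve_left (by simpa [b1] using hc)])
  have key : ∀ {n v z' : V ≃ₗ[F] V}, n ∈ H → n ∈ dstab D → v * v = 1 →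
      (z' * v = n * y * n⁻¹ ∨ z' * v = n * w * n⁻¹) → ∃ u, ∃ m : List τ,
        Loc Q D c u m ∧ z' = u * v ∧ u ∈ H := by
    intro n v z' hn nN v2 h
    rcases h with h | h
    · obtain ⟨ρ, L⟩ := loc_conj Ly nN (S.le hn)
      exact ⟨_, _, L, by rw [← h, mul_assoc, v2, mul_one],
        H.mul_mem (H.mul_mem hn hy) (H.inv_mem hn)⟩
    · obtain ⟨ρ, L⟩ := loc_conj Lw nN (S.le hn)
      exact ⟨_, _, L, by rw [← h, mul_assoc, v2, mul_one],
        H.mul_mem (H.mul_mem hn hw) (H.inv_mem hn)⟩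
  obtain ⟨u, m, L, rfl, hu⟩ := key hn nN (Ly.sq d) z2
  obtain ⟨u', m', L', z5, -⟩ := key hn' nN' (Lw.sq d) z3
  refine end_even S d h2 hG ht hc2 hc hP hg (S.le (H.mul_mem hu hy)) z1
    (diag_of S d h2 hG hc2 hc L Ly z0) ?_
  rw [z5]
  refine diag_of S d h2 hG hc2 hc L' Lw ?_
  rw [← z5, show g⁻¹ * (u * y) * g * (g⁻¹ * (u * y) * g) = g⁻¹ * (u * y * (u * y)) * g by group,
    z0]
  group

theorem exists_trans (ht : 5 ≤ Fintype.card τ) {i j : τ} {x y : V} (hx : x ∈ D i) (hy : y ∈ D j)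
    (x0 : Q x ≠ 0) (h : Q x = Q y) : ∃ n ∈ H, n ∈ dstab D ∧ n x = y := by
  have key : ∀ {i j : τ} {x y : V}, i ≠ j → x ∈ D i → y ∈ D j → Q x ≠ 0 → Q x = Q y →
      ∃ n ∈ H, n ∈ dstab D ∧ n x = y := by
    intro i j x y hij hx hy x0 h
    obtain ⟨e, he, e1⟩ := S.iso.exists_map (S.ndon d j) hx hy (by rintro rfl; simp at x0)
      (by rintro rfl; simp [h] at x0) h
    obtain ⟨e', he'⟩ := S.iso j i
    obtain ⟨g, hg, h1, -, -⟩ := exists_swapO d S.orth hij e e' he he'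
    obtain ⟨l, hl⟩ := exists_not_mem_list [j] (by simp; omega)
    obtain ⟨r, hr, hrg⟩ := exists_spare S.nd S.five (K := dstab D ⊓ fixer {y}) (fun c _ => by
      obtain ⟨v, hv, e⟩ := (S.ndon d l).exists_rep (h2 l).ge c
      exact ⟨v, e, mem_dstab_of_stab (rE_stab S.nd d S.orth hv), fun x hx => by
        rw [Set.mem_singleton_iff.1 hx]
        exact rE_of_perp (S.orth l j (by simpa using hl) v hv y hy)⟩) hg.2
    have := (dstab D).mul_mem hr.1.1 hg.1
    exact ⟨r * g, S.ds ⟨this, hrg⟩, this, by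
      rw [le_mul_apply, h1 ⟨x, hx⟩, e1]; exact hr.1.2 y rfl⟩
  obtain ⟨l, hl⟩ := exists_not_mem_list [i, j] (by simp; omega)
  simp only [List.mem_cons, List.not_mem_nil, or_false, not_or] at hl
  obtain ⟨v, hv, e⟩ := (S.ndon d l).exists_rep (h2 l).ge (Q x)
  obtain ⟨n, h1, h2, h3⟩ := key (Ne.symm hl.1) hx hv x0 e.symm
  obtain ⟨n', h1', h2', h3'⟩ := key hl.2 hv hy (e ▸ x0) (e.trans h)
  exact ⟨n' * n, H.mul_mem h1' h1, (dstab D).mul_mem h2' h2, by rw [le_mul_apply, h3, h3']⟩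

theorem mem_of_part_neg (ht : 5 ≤ Fintype.card τ) (hc2 : (2 : F) ≠ 0) {c : F} (hc : c ≠ 0)
    (hP : Part Q D H c) {p : τ} {b b' : V} (hb : b ∈ D p) (hb' : b' ∈ D p) (b1 : Q b = c)
    (b1' : Q b' = c) (bb : pB Q b b' = 0) {g : V ≃ₗ[F] V} (hg : g ∈ H) : g ∈ dstab D := by
  have := finite_lequiv (F := F) (V := V)
  have b0 : b ≠ 0 := by rintro rfl; exact hc (by simp [← b1])
  have hs := span_plane (h2 p).le hb hb' b0 (fun h => by
    obtain ⟨t, rfl⟩ := Submodule.mem_span_singleton.1 h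
    simp [pB_self, b1, hc, hc2] at bb
    simp [bb] at b1'
    exact hc b1'.symm)
  let Ng : (V ≃ₗ[F] V) → τ → Prop := fun u j =>
    (∀ x ∈ D j, u x = -x) ∧ ∀ k, k ≠ j → ∀ x ∈ D k, u x = x
  have hw := S.rE_mul d hb hb' (b1 ▸ hc) (b1.trans b1'.symm)
  have w1 : ∀ x, (∀ v ∈ [b, b'], pB Q v x = 0) → (rE Q b * rE Q b') x = x := fun x hx => by
    rw [le_mul_apply, rE_of_perp (hx b' (by simp)), rE_of_perp (hx b (by simp))]
  have Nw : Ng (rE Q b * rE Q b') p := ⟨fun x hx => by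
    obtain ⟨α, β, rfl⟩ := hs x hx
    simp only [le_mul_apply, map_add, map_smul, map_neg, rE_of_perp (pB_zero bb), rE_of_perp bb,
      rE_self (b1 ▸ hc : Q b ≠ 0), rE_self (b1' ▸ hc : Q b' ≠ 0)]
    module, fun k hk x hx => w1 x (by
      simp [S.orth p k hk.symm b hb x hx, S.orth p k hk.symm b' hb' x hx])⟩
  generalize rE Q b * rE Q b' = w at hw w1 Nw
  have Nm : ∀ {u j}, Ng u j → ∀ k, ∀ x ∈ D k, u x ∈ D k := fun {u j} h k x hx => by
    by_cases hk : k = j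
    · subst hk; rw [h.1 x hx]; exact (D k).neg_mem hx
    · rwa [h.2 k hk x hx]
  have w2 : w * w = 1 := LinearEquiv.ext fun x =>
    d.induction (p := fun x => w (w x) = x) (fun j x hx => by
      by_cases hk : j = p
      · subst hk; rw [Nw.1 x hx, map_neg, Nw.1 x hx, neg_neg]
      · rw [Nw.2 j hk x hx, Nw.2 j hk x hx]) (by simp) (fun x y a b => by simp [a, b]) x
  have Nc : ∀ n ∈ dstab D, ∃ j, Ng (n * w * n⁻¹) j := fun n hn => by
    obtain ⟨ρ, h1, h2⟩ := Dec.exists_perm hn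
    refine ⟨ρ p, fun x hx => ?_, fun k hk x hx => ?_⟩
    · rw [le_mul_apply, le_mul_apply, Nw.1 _ (h2 p x hx), map_neg, le_apply_inv]
    · obtain ⟨k, rfl⟩ := ρ.surjective k
      rw [le_mul_apply, le_mul_apply, Nw.2 k (fun h => hk (h ▸ rfl)) _ (h2 k x hx), le_apply_inv]
  have R : ∀ {u : V ≃ₗ[F] V}, u b = -b → Rng Q D c u := fun h =>
    ⟨p, b, hb, b1, b, -2, by simpa using hc2, by rw [h]; module⟩
  obtain ⟨i, j, hij⟩ := Fintype.exists_pair_of_one_lt_card (α := τ) (by omega)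
  choose a ha a1 using fun i => (S.ndon d i).exists_rep (h2 i).ge c
  have Ly := loc_two S d h2 hG hij (ha _) (ha _) (a1 _) (a1 _)
  have hy := S.rE_mul d (ha i) (ha j) (a1 i ▸ hc) ((a1 i).trans (a1 j).symm)
  generalize rE Q (a i) * rE Q (a j) = y at Ly hy
  have Yc : ∀ n ∈ H, n ∈ dstab D → ∃ k, k ≠ p ∧ ∃ v ∈ D k, Q v = c ∧
      ∀ x ∈ D k, (n * y * n⁻¹) x = rE Q v x := fun n hn nN => by
    obtain ⟨ρ, L⟩ := loc_conj Ly nN (S.le hn)
    by_cases h : ρ i = p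
    · exact ⟨ρ j, fun h' => hij (ρ.injective (h.trans h'.symm)),
        ((L _).resolve_left (by simp)).2⟩
    · exact ⟨ρ i, h, ((L _).resolve_left (by simp)).2⟩
  obtain ⟨z, z1, -, ⟨n, hn, nN, z2⟩, n', hn', nN', z3⟩ := inv_trick2 (N := dstab D) hy hw hg
    (Ly.sq d) w2 (loc_ds Ly) (mem_dstab_of_stab fun j => mem_stab_of_mapsTo (Nm Nw j))
    (uu_of_loc S d h2 hG hc hP hy Ly (by simp; omega) (j := i) (by simp))
    (uu_of S d h2 hG hc hP hw w2 [b, b'] (by simp; omega) w1 (R (Nw.1 b hb))) fun n hn nN h => by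
      obtain ⟨k, hk, v, hv, v1, h1⟩ := Yc n hn nN
      have := h1 v hv
      rw [h, Nw.2 k hk v hv, rE_self (v1 ▸ hc), eq_neg_iff_add_eq_zero, ← two_smul F,
        smul_eq_zero] at this
      exact this.elim hc2 (by rintro rfl; exact hc (by simp [← v1]))
  have e1 : z = z * y * y := by rw [mul_assoc, Ly.sq d, mul_one]
  have e2 : g⁻¹ * z * g = g⁻¹ * z * g * w * w := by rw [mul_assoc _ w, w2, mul_one]
  have hz : z ∈ OG Q := S.le (by
    rw [e1]
    rcases z2 with h | h <;> rw [h]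
    · exact H.mul_mem (H.mul_mem (H.mul_mem hn hy) (H.inv_mem hn)) hy
    · exact H.mul_mem (H.mul_mem (H.mul_mem hn hw) (H.inv_mem hn)) hy)
  obtain ⟨k, zk⟩ : ∃ k, ∀ x ∈ D k, z x = x := by
    rcases z2 with h | h
    · obtain ⟨ρ, L⟩ := loc_conj Ly nN (S.le hn)
      obtain ⟨k, hk⟩ := exists_not_mem_list [i, j, ρ i, ρ j] (by simp; omega)
      simp only [List.mem_cons, List.not_mem_nil, or_false, not_or] at hk
      exact ⟨k, fun x hx => by
        rw [e1, h, le_mul_apply, ((Ly k).resolve_right (by simp [hk])).2 x hx,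
          ((L k).resolve_right (by simp [hk])).2 x hx]⟩
    · obtain ⟨m, L⟩ := Nc n nN
      obtain ⟨k, hk⟩ := exists_not_mem_list [i, j, m] (by simp; omega)
      simp only [List.mem_cons, List.not_mem_nil, or_false, not_or] at hk
      exact ⟨k, fun x hx => by
        rw [e1, h, le_mul_apply, ((Ly k).resolve_right (by simp [hk])).2 x hx, L.2 k hk.2.2 x hx]⟩
  refine fin_part S d h2 hG hc hP hg hz zk ?_
  rcases z3 with h | h
  · obtain ⟨k, hk, v, hv, v1, h1⟩ := Yc n' hn' nN'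
    exact rng_of_refl S d h2 hG hc hv v1 fun x hx => by
      rw [e2, h, le_mul_apply, Nw.2 k hk x hx, h1 x hx]
  · obtain ⟨m, L⟩ := Nc n' nN'
    by_cases hm : p = m
    · subst hm
      refine absurd ?_ z1
      have : g⁻¹ * z * g = 1 := by
        by_contra h3
        obtain ⟨l, x, hx, h4⟩ := exists_ne_of_ne_one d h3
        rw [e2, h, le_mul_apply] at h4
        by_cases hl : l = p
        · subst hl; exact h4 (by rw [Nw.1 x hx, map_neg, L.1 x hx, neg_neg])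
        · exact h4 (by rw [Nw.2 l hl x hx, L.2 l hl x hx])
      simpa [mul_assoc, inv_mul_eq_one] using this
    · exact R (by rw [e2, h, le_mul_apply, Nw.1 b hb, map_neg, L.2 p hm b hb])

theorem mem_of_part5 (ht : 5 ≤ Fintype.card τ) {c : F} (hc : c ≠ 0) (hP : Part Q D H c)
    {g : V ≃ₗ[F] V} (hg : g ∈ H) : g ∈ dstab D := by
  by_cases hc2 : (2 : F) = 0
  · exact mem_of_part_even S d h2 hG ht hc2 hc hP hg
  obtain ⟨ν, hν⟩ := FiniteField.exists_nonsquare (F := F) (by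
    intro h; exact hc2 (by simpa [h] using ringChar.Nat.cast_ringChar (R := F)))
  have ν0 : ν ≠ 0 := by rintro rfl; simp at hν
  have hc' := mul_ne_zero ν0 hc
  choose a ha a1 using fun i => (S.ndon d i).exists_rep (h2 i).ge c
  by_cases hP' : Part Q D H (ν * c)
  · choose b hb b1 using fun i => (S.ndon d i).exists_rep (h2 i).ge (ν * c)
    obtain ⟨i, j, hij⟩ := Fintype.exists_pair_of_one_lt_card (α := τ) (by omega)
    have Ly := loc_two S d h2 hG hij (ha _) (ha _) (a1 _) (a1 _)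
    have Lw := loc_two S d h2 hG hij (hb _) (hb _) (b1 _) (b1 _)
    refine core_pair S d h2 hG ht le_rfl hc hc' hP hP' Ly Lw
      (S.rE_mul d (ha i) (ha j) (a1 i ▸ hc) ((a1 i).trans (a1 j).symm))
      (S.rE_mul d (hb i) (hb j) (b1 i ▸ hc') ((b1 i).trans (b1 j).symm)) (fun n hn nN h => ?_) hg
    obtain ⟨ρ, L⟩ := loc_conj Ly nN (S.le hn)
    rw [h] at L
    obtain ⟨-, v, hv, v1, h1⟩ := (Lw i).resolve_left (by simp)
    obtain ⟨u, hu, u1, h3⟩ : ∃ u ∈ D i, (Q u = 0 ∨ Q u = c) ∧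
        ∀ x ∈ D i, (rE Q (b i) * rE Q (b j)) x = rE Q u x := by
      rcases L i with ⟨-, h⟩ | ⟨-, u, hu, u1, h⟩
      · exact ⟨0, (D i).zero_mem, Or.inl (by simp), fun x hx => by
          rw [h x hx, rE_of_perp (by simp)]⟩
      · exact ⟨u, hu, Or.inr u1, h⟩
    obtain ⟨t, rfl⟩ := Submodule.mem_span_singleton.1 (mem_span_of_refl_eq S d h2 hG hu hv
      (v1 ▸ hc') fun x hx => (h1 x hx).symm.trans (h3 x hx))
    rw [Q_smul] at v1
    rcases u1 with u1 | u1 <;> rw [u1] at v1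
    · exact hc' (by simp [← v1])
    · exact hν ⟨t, (mul_right_cancel₀ hc v1).symm⟩
  simp only [H27.Part, not_forall] at hP'
  obtain ⟨h, hh, i, x, hx, x1, j, hj, hh'⟩ := hP'
  obtain ⟨n, hn, nN, n1⟩ := exists_trans S d h2 hG ht hj hx (by rw [S.le hh, x1]; exact hc')
    (S.le hh x)
  have x0 : x ≠ 0 := by rintro rfl; exact hc' (by simp [← x1])
  obtain ⟨v, hv, v1, v2⟩ := exists_ker_list [pB Q x] (W := D i) (S := ⊥) (by simp [h2])
  have v3 : pB Q x v = 0 := v1 _ (List.mem_singleton_self _)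
  have v4 : v ∉ Submodule.span F {x} := fun h => by
    obtain ⟨t, rfl⟩ := Submodule.mem_span_singleton.1 h
    have t0 : t = 0 := by simpa [pB_self, x1, hc, ν0, hc2] using v3
    exact v2 (by simp [t0])
  have hs := span_plane (h2 i).le hx hv x0 v4
  have v0 : Q v ≠ 0 := fun h => v2 (S.ndon d i v hv fun z hz => by
    obtain ⟨α, β, rfl⟩ := hs z hz
    simp [pB_self, h, pB_zero v3])
  by_cases hsq : IsSquare (Q v / c)
  · exfalso
    obtain ⟨t, ht'⟩ := hsq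
    have t0 : t ≠ 0 := by rintro rfl; simp [v0, hc] at ht'
    have e : Q (t⁻¹ • v) = c := by
      rw [Q_smul, div_eq_iff hc] at *; rw [ht']; field_simp
    have m := (D i).smul_mem t⁻¹ hv
    have o : pB Q (t⁻¹ • v) x = 0 := by simp [pB_zero v3]
    generalize t⁻¹ • v = u at e m o
    obtain ⟨k, hk⟩ := exists_not_mem_list [i] (by simp; omega)
    obtain ⟨l, hl⟩ := exists_not_mem_list [i, k] (by simp; omega)
    simp only [List.mem_cons, List.not_mem_nil, or_false, not_or] at hk hl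
    have Ly := loc_two S d h2 hG (Ne.symm hk) m (ha _) e (a1 _)
    have Lw := loc_two S d h2 hG (Ne.symm hl.2) (ha _) (ha _) (a1 _) (a1 _)
    have f : ∀ m, m ≠ i → rE Q (a m) x = x := fun m hm => rE_of_perp (S.orth m i hm _ (ha m) x hx)
    refine hh' (((dstab D).mul_mem_cancel_left nN).1 (core_pair S d h2 hG ht
      (H' := H ⊓ fixer {x}) inf_le_left hc hc hP hP Ly Lw
      ⟨S.rE_mul d m (ha k) (e ▸ hc) (e.trans (a1 k).symm), ?_⟩
      ⟨S.rE_mul d (ha k) (ha l) (a1 k ▸ hc) ((a1 k).trans (a1 l).symm), ?_⟩ (fun r hr rN h => ?_)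
      ⟨H.mul_mem hn hh, ?_⟩))
    · rintro _ rfl; rw [le_mul_apply, f k hk, rE_of_perp o]
    · rintro _ rfl; rw [le_mul_apply, f l hl.1, f k hk]
    · have h1 := Dec.stab_of_fix d rN hx x0 (by rw [hr.2 x rfl]; exact hx) u m
      have h3 := ((Lw i).resolve_right (by simp [Ne.symm hk, Ne.symm hl.1])).2 _ h1
      rw [← h, le_mul_apply, le_mul_apply, le_inv_apply, EmbeddingLike.apply_eq_iff_eq,
        le_mul_apply, rE_of_perp (S.orth k i hk _ (ha k) u m), rE_self (e ▸ hc),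
        neg_eq_iff_add_eq_zero, ← two_smul F, smul_eq_zero] at h3
      exact h3.elim hc2 (by rintro rfl; exact hc (by simp [← e]))
    · rintro _ rfl; exact n1
  obtain ⟨t, t0, e⟩ := exists_eq_mul_sq_of_not_isSquare hν hsq
  obtain ⟨α, β, e1⟩ := hs _ (ha i)
  have e2 := a1 i
  rw [div_eq_iff hc] at e
  rw [e1] at e2
  simp only [Qadd, Q_smul, map_smul, v3, x1, e, LinearMap.smul_apply, smul_zero] at e2
  refine mem_of_part_neg S d h2 hG ht hc2 hc hP (ha i) (b' := -(β * t) • x + (α / t) • v)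
    ((D i).add_mem ((D i).smul_mem _ hx) ((D i).smul_mem _ hv)) (a1 i) ?_ ?_ hg
  · simp only [Qadd, Q_smul, map_smul, v3, x1, e, LinearMap.smul_apply, smul_zero]
    field_simp
    field_simp at e2
    linear_combination e2
  · simp only [e1, map_add, map_smul, LinearMap.add_apply, LinearMap.smul_apply, pB_self, v3,
      pB_zero v3, x1, e, smul_eq_mul]
    field_simp
    ring

end

end Cfsg.Agent.H77
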