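import Cfsg.Agent.H77.OPlane5

/-!
Orthogonal groups: the stabiliser of an orthogonal decomposition into at least five isometric
planes is maximal in `Ω` (after `H27.ODec2`).
-/

set_option autoImplicit false
set_option linter.unusedSectionVars false
set_option linter.unusedSimpArgs false

namespace Cfsg.Agent.H77

open Module Cfsg.Geo QuadraticMap H11 H27

variable {F V : Type*} [Field F] [AddCommGroup V] [Module F V] [FiniteDimensional F V] [Fintype F]
variable {Q : QuadraticForm F V} {H : Subgroup (V ≃ₗ[F] V)}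
variable {τ : Type*} [Fintype τ] [DecidableEq τ] {D : τ → Submodule F V}

section

variable (S : OI Q D H) (d : Dec D) (h2 : ∀ i, finrank F (D i) = 2) (hG : GP Q D)
include S d h2 hG

theorem exists_ext5 (ht : 5 ≤ Fintype.card τ) {c : F} (hc : c ≠ 0) {g : V ≃ₗ[F] V} (hg : g ∈ H)
    (hg' : g ∉ dstab D) : ∃ H', OI Q D H' ∧ (∃ g ∈ H', g ∉ dstab D) ∧ (OM Q ≤ H' → OM Q ≤ H) ∧
      ∀ i, ∀ x ∈ D i, Q x ≠ 0 → (Q x = c ∨ rE Q x ∈ H) → rE Q x ∈ H' := by
  have hP : ¬ Part Q D H c := fun h => hg' (mem_of_part5 S d h2 hG ht hc h hg)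
  simp only [H27.Part, not_forall] at hP
  obtain ⟨h, hh, i, a, ha, a1, j, hj, hh'⟩ := hP
  have key : ∀ n ∈ H, ∀ j, n a ∈ D j → n ∈ extG Q H a := fun n hn j hj =>
    ⟨S.le hn, S.rE_mul d hj ha (by rw [S.le hn, a1]; exact hc) (S.le hn a), Or.inl hn⟩
  refine ⟨extG Q H a, oi_of S.nd S.five S.orth S.iso (fun n hn => ?_) fun _ h => h.1,
    ⟨h, key h hh j hj, hh'⟩, OM_le_of_extG S.nd S.five, fun l x hx x0 h1 => ?_⟩
  · obtain ⟨ρ, hρ, -⟩ := Dec.exists_perm hn.1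
    exact key n (S.ds hn) _ (hρ i a ha)
  · rcases h1 with h1 | h1
    · exact rE_mem_extG (S.rE_mul d hx ha x0 (h1.trans a1.symm))
    · exact key _ h1 i (stab_apply (rE_stab S.nd d S.orth hx i) ha)

theorem exists_full5 (ht : 5 ≤ Fintype.card τ) {g : V ≃ₗ[F] V} (hg : g ∈ H) (hg' : g ∉ dstab D) :
    ∃ H', OI Q D H' ∧ (∃ g ∈ H', g ∉ dstab D) ∧ (OM Q ≤ H' → OM Q ≤ H) ∧
      ∀ i, ∀ x ∈ D i, rE Q x ∈ H' := by
  obtain ⟨ν, ν0, hν⟩ : ∃ ν : F, ν ≠ 0 ∧ ∀ c, IsSquare c ∨ ∃ t, t ≠ 0 ∧ c = ν * t ^ 2 := by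
    by_cases h : ∃ ν : F, ¬ IsSquare ν
    · obtain ⟨ν, h⟩ := h
      exact ⟨ν, by rintro rfl; simp at h, fun c => or_iff_not_imp_left.2
        (exists_eq_mul_sq_of_not_isSquare h)⟩
    · push Not at h
      exact ⟨1, one_ne_zero, fun c => Or.inl (h c)⟩
  obtain ⟨H1, S1, ⟨g1, k1, k2⟩, k3, k4⟩ := exists_ext5 S d h2 hG ht one_ne_zero hg hg'
  obtain ⟨H2, S2, l1, l3, l4⟩ := exists_ext5 S1 d h2 hG ht ν0 k1 k2
  refine ⟨H2, S2, l1, fun h => k3 (l3 h), fun i x hx => ?_⟩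
  by_cases x0 : Q x = 0
  · rw [rE, refl_of_eq_zero x0]; exact H2.one_mem
  rcases hν (Q x) with ⟨t, h⟩ | ⟨t, t0, h⟩
  · have t0 : t ≠ 0 := by rintro rfl; simp [x0] at h
    have e : Q (t⁻¹ • x) = 1 := by rw [Q_smul, h]; field_simp
    refine l4 i x hx x0 (Or.inr ?_)
    rw [← rE_smul (inv_ne_zero t0)]
    exact k4 i _ ((D i).smul_mem _ hx) (e ▸ one_ne_zero) (Or.inl e)
  · have e : Q (t⁻¹ • x) = ν := by rw [Q_smul, h]; field_simp
    rw [← rE_smul (inv_ne_zero t0)]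
    exact l4 i _ ((D i).smul_mem _ hx) (e ▸ ν0) (Or.inl e)

end

/-- The standing hypotheses for planes. -/
structure OF5 (Q : QuadraticForm F V) (D : τ → Submodule F V) (H : Subgroup (V ≃ₗ[F] V)) :
    Prop extends OI Q D H where
  two : ∀ i, finrank F (D i) = 2
  gp : GP Q D
  irr : ∀ i, IrrOK Q (D i)
  seven : 5 ≤ Fintype.card τ
  full : ∀ i, ∀ x ∈ D i, rE Q x ∈ H

namespace OF5

variable (S : OF5 Q D H) (d : Dec D)
include S d

theorem ds_le : dstab D ⊓ OG Q ≤ H := fun g hg => by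
  obtain ⟨i, -⟩ := exists_not_mem_list (ι := τ) [] (by have := S.seven; simp; omega)
  obtain ⟨r, hr, h⟩ := exists_spare S.nd S.five (K := dstab D ⊓ H) (fun c _ => by
    obtain ⟨y, hy, e⟩ := (S.ndon d i).exists_rep (S.two i).ge c
    exact ⟨y, e, mem_dstab_of_stab (rE_stab S.nd d S.orth hy), S.full i y hy⟩) hg.2
  exact (H.mul_mem_cancel_left hr.1.2).1 (S.ds ⟨(dstab D).mul_mem hr.1.1 hg.1, h⟩)

theorem nonsing_ne {i : τ} {x : V} (h : d.π i x ≠ 0) : ∃ a ∈ D i, Q a ≠ 0 ∧ pB Q a x ≠ 0 := by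
  obtain ⟨a, ha, h1, h2⟩ := (S.ndon d i).exists_nonsing_ne (d.mem i x) h fun h =>
    (S.gp i _ (d.mem i x) h).imp fun _ h => ⟨h.1, h.2.1⟩
  exact ⟨a, ha, h1, by rwa [S.orth.π_right d ha] at h2⟩

theorem perp_of_π {i : τ} {s x : V} (h : d.π i s = 0) (hx : x ∈ D i) : pB Q x s = 0 := by
  rw [← S.orth.π_right d hx, h, map_zero]

theorem fill {s : V} {hs : Q s = 0} {i l : τ} (hil : l ≠ i) (hi : d.π i s = 0) (hl : d.π l s = 0)
    {y : V} (hy : y ∈ D i) (y0 : y ≠ 0) (h : y ∈ RR H hs) : D i ≤ RR H hs :=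
  S.rr_fill d le_rfl (S.ndon d i) (S.irr i) (fun _ hx => S.perp_of_π d hi hx) (fun c _ => by
    obtain ⟨z, hz, e⟩ := (S.ndon d l).exists_rep (S.two l).ge c
    exact ⟨l, z, hz, e, S.perp_of_π d hl hz, S.orth l i hil z hz⟩) hy y0 h

theorem finish {s : V} {hs : Q s = 0} (s0 : s ≠ 0) {l m n : τ} (hlm : l ≠ m) (hln : l ≠ n)
    (hmn : m ≠ n) (hl : d.π l s = 0) (hm : d.π m s = 0) (hn : d.π n s = 0)
    (h : D l ≤ RR H hs) : OM Q ≤ H := by
  have h2 : ∀ i, 2 ≤ finrank F (D i) := fun i => (S.two i).ge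
  have h' := S.le_rr_of_le d h2 hl hm h
  obtain ⟨x, hx, x1⟩ := (S.ndon d l).exists_rep (h2 l) 1
  obtain ⟨x', hx', x1'⟩ := (S.ndon d m).exists_rep (h2 m) (-1)
  have hu : Q (x + x') = 0 := by simp [Qadd, x1, x1', S.orth l m hlm x hx x' hx']
  have hπ : ∀ i, i ≠ l → i ≠ m → d.π i (x + x') = 0 := fun i a b => by
    rw [map_add, d.ne a hx, d.ne b hx', add_zero]
  have h3 := rr_symm ((RR H hs).add_mem (h hx) (h' hx')) hu
  obtain ⟨i, hi⟩ : ∃ i, d.π i s ≠ 0 := by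
    by_contra hc
    push Not at hc
    exact s0 (d.eq_zero hc)
  have il : i ≠ l := by rintro rfl; exact hi hl
  have im : i ≠ m := by rintro rfl; exact hi hm
  obtain ⟨a, ha, a0, a1⟩ := S.nonsing_ne d hi
  have h4 : a ∈ RR H hu := by
    have := (RR H hu).sub_mem h3 (rr_conj h3 (S.full i a ha) (rE_mem a) hu
      (rE_of_perp (S.perp_of_π d (hπ i il im) ha)))
    rwa [rE_apply, sub_sub_cancel, Submodule.smul_mem_iff _ (mul_ne_zero (inv_ne_zero a0) a1)]
      at this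
  have h5 := S.fill d (l := n) (by rintro rfl; exact hi hn) (hπ i il im) (hπ n hln.symm hmn.symm) ha
    (by rintro rfl; simp at a0) h4
  have hA : AO Q H (x + x') := ⟨hu, fun v hv => by
    have h6 : v - (d.π l v + d.π m v) ∈ RR H hu := by
      rw [← d.sum (v - _)]
      refine Submodule.sum_mem _ fun k _ => ?_
      by_cases kl : k = l
      · simp [kl, d.π_π, d.π_π_ne hlm]
      by_cases km : k = m
      · simp [km, d.π_π, d.π_π_ne hlm.symm]
      · exact S.le_rr_of_le d h2 (hπ i il im) (hπ k kl km) h5 (d.mem k _)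
    have h7 := rr_move h4 ((RR H hs).add_mem (h (d.mem l v)) (h' (d.mem m v))) (pB_zero h3.1)
      (pB_zero (by simpa [hv, -map_add] using h6.1))
    have h8 := (Submodule.sub_mem_iff_left _ ((RR H hu).smul_mem _ h3)).1 h7
    rw [Submodule.smul_mem_iff _ (by rwa [pB_comm])] at h8
    simpa using (RR H hu).add_mem h6 h8⟩
  obtain ⟨b, hb, b0, b1⟩ := S.nonsing_ne d (i := l) (x := x + x') (by
    rw [map_add, d.self hx, d.ne hlm hx', add_zero]; rintro rfl; simp at x1)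
  refine OM_le_of_two S.nd S.five hA (hA.conj (S.full l b hb) (rE_mem b)) ?_
  rw [rE_apply, map_sub, pB_self, hu, map_smul, pB_comm _ b]
  simpa [b0] using b1

theorem exists_three {g : V ≃ₗ[F] V} (hg : g ∈ H) (hg' : g ∉ dstab D) :
    ∃ y i j l, Q y ≠ 0 ∧ rE Q y ∈ H ∧ i ≠ j ∧ i ≠ l ∧ j ≠ l ∧ Q (d.π i y) ≠ 0 ∧ d.π j y ≠ 0 ∧
      d.π l y ≠ 0 := by
  have hi := S.le hg
  obtain ⟨y, y0, y1, y2⟩ : ∃ y, Q y ≠ 0 ∧ rE Q y ∈ H ∧ ∀ j, y ∉ D j := by
    by_contra hc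
    push Not at hc
    have h1 : ∀ i, ∀ x ∈ D i, Q x ≠ 0 → ∃ j, g x ∈ D j := fun i x hx x0 =>
      hc _ (by rwa [hi]) (by
        rw [← rE_conj hi]; exact H.mul_mem (H.mul_mem hg (S.full i x hx)) (H.inv_mem hg))
    refine hg' (d.mem_dstab_of S.iso.finrank_eq
      (fun i => ne_bot_of_finrank_pos (by rw [S.two]; omega)) fun i => ?_)
    obtain ⟨a, ha, a0⟩ := (S.ndon d i).exists_nonsing (by rw [S.two]; omega)
    obtain ⟨u, hu, b1, b2⟩ := S.gp i a ha a0
    have hb := rE_mem_sub (Q := Q) hu ha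
    obtain ⟨j, hj⟩ := h1 i a ha a0
    obtain ⟨l, hl⟩ := h1 i _ hb (by rwa [rE_mem u a])
    obtain rfl : j = l := by
      by_contra hne
      exact b1 (by rw [← OG_pB hi, S.orth j l hne _ hj _ hl])
    refine ⟨j, fun x hx => ?_⟩
    obtain ⟨α, β, rfl⟩ := span_plane (S.two i).le ha hb (by rintro rfl; simp at a0) b2 x hx
    rw [map_add, map_smul, map_smul]
    exact (D j).add_mem ((D j).smul_mem _ hj) ((D j).smul_mem _ hl)
  obtain ⟨i, hi⟩ := exists_nonsing_π d S.orth y0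
  obtain ⟨j, hj, j0⟩ : ∃ j, j ≠ i ∧ d.π j y ≠ 0 := by
    by_contra hc
    push Not at hc
    exact y2 i (d.mem_of_forall hc)
  by_cases h3 : ∃ l, i ≠ l ∧ j ≠ l ∧ d.π l y ≠ 0
  · obtain ⟨l, h1, h2, h3⟩ := h3
    exact ⟨y, i, j, l, y0, y1, hj.symm, h1, h2, hi, j0, h3⟩
  push Not at h3
  obtain ⟨l, hl⟩ := exists_not_mem_list [i, j] (by have := S.seven; simp; omega)
  simp only [List.mem_cons, List.not_mem_nil, or_false, not_or] at hl
  obtain ⟨e, he⟩ := S.iso j l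
  obtain ⟨e', he'⟩ := S.iso l j
  obtain ⟨n, hn, n1, -, n3⟩ := exists_swapO d S.orth (Ne.symm hl.2) e e' he he'
  obtain ⟨u, hu, b1, b2⟩ := S.gp i _ (d.mem i y) hi
  have hb := rE_mem_sub (Q := Q) hu (d.mem i y)
  have ey : y = d.π i y + d.π j y := d.ext fun k => by
    by_cases ki : k = i
    · simp [ki, d.π_π, d.π_π_ne hj.symm]
    by_cases kj : k = j
    · simp [kj, d.π_π, d.π_π_ne hj]
    · simp [d.π_π_ne ki, d.π_π_ne kj, h3 k (Ne.symm ki) (Ne.symm kj)]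
  have hm := H.mul_mem (S.ds_le d hn) (S.full i u hu)
  have e1 : (n * rE Q u) y = rE Q u (d.π i y) + e ⟨_, d.mem j y⟩ := by
    rw [le_mul_apply, ey, map_add, map_add, n3 i hj.symm (Ne.symm hl.1) _ hb,
      rE_of_perp (S.orth i j hj.symm u hu _ (d.mem j y)), ← ey, ← n1]
  have h4 : rE Q ((n * rE Q u) y) ∈ H := by
    rw [← rE_conj (S.le hm)]; exact H.mul_mem (H.mul_mem hm y1) (H.inv_mem hm)
  have h5 : Q ((n * rE Q u) y) ≠ 0 := by rwa [S.le hm]
  rw [e1] at h4 h5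
  have hz := (e ⟨_, d.mem j y⟩).2
  have z0 : (e ⟨_, d.mem j y⟩ : V) ≠ 0 := by simpa using j0
  generalize (e ⟨_, d.mem j y⟩ : V) = z at *
  generalize rE Q u (d.π i y) = b at *
  have c0 : (Q (b + z))⁻¹ * pB Q (b + z) y ≠ 0 := mul_ne_zero (inv_ne_zero h5) (by
    rwa [map_add, LinearMap.add_apply, S.perp_of_π d (h3 l (Ne.symm hl.1) (Ne.symm hl.2)) hz,
      add_zero, ← S.orth.π_right d hb, pB_comm])
  have h6 : Q (rE Q (b + z) y) ≠ 0 := by rwa [rE_mem]
  have h7 : rE Q (rE Q (b + z) y) ∈ H := by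
    rw [← rE_conj (rE_mem _)]; exact H.mul_mem (H.mul_mem h4 y1) (H.inv_mem h4)
  have f1 : d.π i (rE Q (b + z) y) ≠ 0 := by
    rw [rE_apply, map_sub, map_smul, map_add (d.π _), d.self hb, d.ne (Ne.symm hl.1) hz, add_zero]
    exact fun h => b2 ((Submodule.smul_mem_iff _ c0).1
      (sub_eq_zero.1 h ▸ Submodule.mem_span_singleton_self _))
  have f2 : d.π j (rE Q (b + z) y) ≠ 0 := by
    rwa [rE_apply, map_sub, map_smul, map_add (d.π _), d.ne hj hb, d.ne (Ne.symm hl.2) hz, add_zero,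
      smul_zero, sub_zero]
  have f3 : d.π l (rE Q (b + z) y) ≠ 0 := by
    rw [rE_apply, map_sub, map_smul, map_add (d.π _), d.ne hl.1 hb, d.self hz, zero_add,
      h3 l (Ne.symm hl.1) (Ne.symm hl.2), zero_sub, neg_ne_zero]
    exact smul_ne_zero c0 z0
  obtain ⟨k, hk⟩ := exists_nonsing_π d S.orth h6
  by_cases ki : k = i
  · exact ⟨_, i, j, l, h6, h7, hj.symm, Ne.symm hl.1, Ne.symm hl.2, ki ▸ hk, f2, f3⟩
  by_cases kj : k = j
  · exact ⟨_, j, i, l, h6, h7, hj, Ne.symm hl.2, Ne.symm hl.1, kj ▸ hk, f1, f3⟩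
  · exact ⟨_, k, i, j, h6, h7, ki, kj, hj.symm, hk, f1, f2⟩

theorem OM_le_of_deg {y s : V} (y0 : Q y ≠ 0) (y1 : rE Q y ∈ H) {n : V ≃ₗ[F] V} (hn : n ∈ H)
    (e : n y = y - s) (s0 : s ≠ 0) (hs : Q s = 0) {i j l : τ} (hil : i ≠ l) (hjl : j ≠ l)
    (h : ∀ k, k ≠ i → k ≠ j → d.π k s = 0) (hl : d.π l y ≠ 0)
    (hM : ∀ z ∈ D l, Q z ≠ 0 → z ∈ LL H hs → ∃ w ∈ D l, w ≠ 0 ∧ w ∈ RR H hs) : OM Q ≤ H := by
  have h1 : pB Q s y = 0 := by
    have := S.le hn y
    rw [e, Qsub, hs] at this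
    rw [pB_comm]; linear_combination -this
  have h2 : -(Q y)⁻¹ • y ∈ LL H hs := ⟨by simp [h1], ee_of_pair hs h1 y0 _ (by
    rw [neg_mul, inv_mul_cancel₀ y0, neg_one_smul, ← sub_eq_add_neg, ← e, ← rE_conj (S.le hn)]
    exact H.mul_mem y1 (H.mul_mem (H.mul_mem hn y1) (H.inv_mem hn)))⟩
  obtain ⟨a, ha, a0, a1⟩ := S.nonsing_ne d hl
  have sl := h l hil.symm hjl.symm
  obtain ⟨w, hw, w0, w1⟩ := hM _ ((D l).smul_mem _ ha) (by simp [Q_smul, a0, a1, y0])
    (ll_sub h2 (S.full l a ha) (S.perp_of_π d sl ha))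
  obtain ⟨m, hm⟩ := exists_not_mem_list [i, j, l] (by have := S.seven; simp; omega)
  obtain ⟨p, hp⟩ := exists_not_mem_list [i, j, l, m] (by have := S.seven; simp; omega)
  simp only [List.mem_cons, List.not_mem_nil, or_false, not_or] at hm hp
  exact S.finish d s0 (Ne.symm hm.2.2) (Ne.symm hp.2.2.1) (Ne.symm hp.2.2.2) sl (h m hm.1 hm.2.1)
    (h p hp.1 hp.2.1) (S.fill d hm.2.2 sl (h m hm.1 hm.2.1) hw w0 w1)

theorem OM_le_minus (ha : ∀ i, ∀ z ∈ D i, Q z = 0 → z = 0) {g : V ≃ₗ[F] V} (hg : g ∈ H)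
    (hg' : g ∉ dstab D) : OM Q ≤ H := by
  classical
  obtain ⟨y, i, j, l, y0, y1, hij, hil, hjl, hi, hj, hl⟩ := S.exists_three d hg hg'
  obtain ⟨T, t1, t2⟩ := (S.ndon d i).exists_T (S.two i) (ha i) (d.mem i y)
    (by rintro h; simp [h] at hi)
  obtain ⟨T', t1', t2'⟩ := (S.ndon d j).exists_T (S.two j) (ha j) (d.mem j y) hj
  obtain ⟨t, ht, ht'⟩ := exists_inter (A := T) (B := T'.image Neg.neg) (U := Finset.univ.erase 0)
    (fun t ht => by simpa using (t2 t ht).1) (fun t ht => by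
      obtain ⟨u, hu, rfl⟩ := Finset.mem_image.1 ht
      simpa using (t2' u hu).1) (by
      have : 0 < Fintype.card F := Fintype.card_pos
      rw [Finset.card_image_of_injective _ neg_injective, Finset.card_erase_of_mem (by simp),
        Finset.card_univ]; omega)
  obtain ⟨t', ht'', rfl⟩ := Finset.mem_image.1 ht'
  obtain ⟨t0, a, hai, a0, a1⟩ := t2 _ ht
  obtain ⟨-, b, hb, b0, b1⟩ := t2' _ ht''
  rw [S.orth.π_right d hai] at a1
  rw [S.orth.π_right d hb] at b1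
  have hab := S.orth i j hij a hai b hb
  have hs : Q (((Q a)⁻¹ * pB Q a y) • a + ((Q b)⁻¹ * pB Q b y) • b) = 0 := by
    simp only [Qadd, Q_smul, map_smul, LinearMap.smul_apply, hab, smul_zero]
    field_simp
    linear_combination -Q b * a1 - Q a * b1
  refine S.OM_le_of_deg d y0 y1 (H.mul_mem (S.full i a hai) (S.full j b hb))
    ?_ (fun h => ?_) hs hil hjl
    (fun k h1 h2 => by simp [d.ne h1 hai, d.ne h2 hb]) hl fun z hz z0 z1 => ?_
  · rw [le_mul_apply, rE_apply b, map_sub, map_smul, rE_of_perp hab, rE_apply]; abel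
  · have := congrArg (fun x => Q (d.π i x)) h
    simp only [map_add, map_smul, d.self hai, d.ne hij hb, smul_zero, add_zero, map_zero,
      Q_smul] at this
    exact mul_ne_zero t0 a0 (by field_simp at this; rw [a1]; linear_combination this)
  · have z2 : z ≠ 0 := by rintro rfl; simp at z0
    obtain ⟨U, u1, u2⟩ := (S.ndon d l).exists_T (S.two l) (ha l) hz z2
    have sl : ∀ x ∈ D l, pB Q x (((Q a)⁻¹ * pB Q a y) • a + ((Q b)⁻¹ * pB Q b y) • b) = 0 :=
      fun x hx => by simp [S.orth l i hil.symm x hx a hai, S.orth l j hjl.symm x hx b hb]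
    refine ⟨z, hz, z2, rr_of_ll (addSubgroup_eq_top (K := (LL H hs).comap
      (LinearMap.toSpanSingleton F V z).toAddMonoidHom) u1 (inv_ne_zero z0) fun u hu => ?_)⟩
    obtain ⟨u0, w, hw, w0, w1⟩ := u2 u hu
    refine ⟨u0, ?_⟩
    have := ll_sub (ll_sub z1 (S.full l w hw) (sl w hw)) (S.full l z hz) (sl z hz)
    rw [map_smul, smul_eq_mul, pB_comm z w] at this
    change (u * (Q z)⁻¹) • z ∈ LL H hs
    convert this using 2
    field_simp
    linear_combination w1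

theorem OM_le_plus (hq : 5 < Fintype.card F) (hp : ∀ i, ∃ z ∈ D i, z ≠ 0 ∧ Q z = 0)
    {g : V ≃ₗ[F] V} (hg : g ∈ H) (hg' : g ∉ dstab D) : OM Q ≤ H := by
  choose f hf f0 f1 using hp
  obtain ⟨y, i, j, l, y0, y1, hij, hil, hjl, hi, hj, hl, hne⟩ : ∃ y i j l, Q y ≠ 0 ∧ rE Q y ∈ H ∧
      i ≠ j ∧ i ≠ l ∧ j ≠ l ∧ d.π i y ≠ 0 ∧ d.π j y ≠ 0 ∧ d.π l y ≠ 0 ∧
        Q (d.π i y) ≠ Q (d.π j y) := by
    obtain ⟨y, i, j, l, y0, y1, hij, hil, hjl, hi, hj, hl⟩ := S.exists_three d hg hg'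
    by_cases h1 : Q (d.π i y) = Q (d.π j y)
    swap
    · exact ⟨y, i, j, l, y0, y1, hij, hil, hjl, by rintro h; simp [h] at hi, hj, hl, h1⟩
    obtain ⟨a, ha, a0, a1, a2, a3⟩ := (S.ndon d i).exists_good (S.two i) (d.mem i y) hi (Q y)
      (Or.inl hq)
    have a4 : pB Q y a = pB Q a (d.π i y) := by rw [S.orth.π_right d ha, pB_comm]
    have c0 : (Q y)⁻¹ * pB Q y a ≠ 0 := mul_ne_zero (inv_ne_zero y0) (a4 ▸ a1)
    refine ⟨rE Q y a, i, j, l, by rwa [rE_mem], ?_, hij, hil, hjl, ?_, ?_, ?_, ?_⟩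
    · rw [← rE_conj (rE_mem _)]; exact H.mul_mem (H.mul_mem y1 (S.full i a ha)) (H.inv_mem y1)
    · rw [rE_apply, map_sub, map_smul, d.self ha]
      exact fun h => a3 (sub_eq_zero.1 h ▸ Submodule.smul_mem _ _
        (Submodule.mem_span_singleton_self _))
    · rw [rE_apply, map_sub, map_smul, d.ne hij.symm ha, zero_sub, neg_ne_zero]
      exact smul_ne_zero c0 hj
    · rw [rE_apply, map_sub, map_smul, d.ne hil.symm ha, zero_sub, neg_ne_zero]
      exact smul_ne_zero c0 hl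
    · simp only [rE_apply, map_sub, map_smul, d.ne hij.symm ha, d.self ha, zero_sub, Qneg, Qsub,
        Q_smul, ← h1, a4, smul_eq_mul]
      intro h
      exact a2 (mul_left_cancel₀ y0 (by field_simp at h; linear_combination h))
  obtain ⟨x, hx, x0, x1, x2⟩ := (S.ndon d i).exists_shift (S.two i) (hf i) (f0 i) (f1 i)
    (d.mem i y) hi (Q (d.π j y))
  obtain ⟨x', hx', x0', x1', x2'⟩ := (S.ndon d j).exists_shift (S.two j) (hf j) (f0 j) (f1 j)
    (d.mem j y) hj (Q (d.π i y))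
  obtain ⟨e, he, e1⟩ := S.iso.exists_map (S.ndon d j) (d.mem i y) hx' hi x0' x1'.symm
  obtain ⟨e', he', e1'⟩ := S.iso.exists_map (S.ndon d i) (d.mem j y) hx hj x0 x1.symm
  obtain ⟨n, hn, n1, n2, n3⟩ := exists_swapO d S.orth hij e e' he he'
  have m1 := (D i).sub_mem (d.mem i y) hx
  have m2 := (D j).sub_mem (d.mem j y) hx'
  have hs : Q (d.π i y - x + (d.π j y - x')) = 0 := by
    rw [Qadd, x2, x2', S.orth i j hij _ m1 _ m2]; simp
  refine S.OM_le_of_deg d y0 y1 (S.ds_le d hn) ?_ (fun h => hne ?_) hs hil hjl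
    (fun k h1 h2 => by rw [map_add, d.ne h1 m1, d.ne h2 m2, add_zero]) hl fun z hz z0 z1 => ?_
  · have : n (y - d.π i y - d.π j y) = y - d.π i y - d.π j y := by
      rw [← d.sum (y - _ - _), map_sum]
      refine Finset.sum_congr rfl fun k _ => ?_
      by_cases ki : k = i
      · simp [ki, d.π_π, d.π_π_ne hij]
      by_cases kj : k = j
      · simp [kj, d.π_π, d.π_π_ne hij.symm]
      · exact n3 k ki kj _ (d.mem k _)
    rw [map_sub, map_sub, n1 ⟨_, d.mem i y⟩, n2 ⟨_, d.mem j y⟩, e1, e1'] at this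
    linear_combination (norm := abel) this
  · have := congrArg (d.π i) h
    rw [map_add, d.self m1, d.ne hij m2, add_zero, map_zero, sub_eq_zero] at this
    rw [this, x1]
  · have sl : ∀ w ∈ D l, pB Q w (d.π i y - x + (d.π j y - x')) = 0 := fun w hw => by
      rw [map_add, S.orth l i hil.symm w hw _ m1, S.orth l j hjl.symm w hw _ m2, add_zero]
    obtain ⟨u, hu, u', hu', u1, u2, u3, α, β, hα, rfl⟩ := (S.ndon d l).exists_hypbasis (S.two l)
      (hf l) (f0 l) (f1 l) hz (by rintro rfl; simp at z0)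
    have key : ∀ α β μ : F, μ ≠ 0 → α • u + β • u' ∈ LL H hs →
        (μ⁻¹ * β) • u + (μ * α) • u' ∈ LL H hs := fun α β μ hμ h => by
      have hm := (D l).add_mem hu ((D l).smul_mem μ hu')
      have := (LL H hs).neg_mem (ll_refl h (S.full l _ hm) (sl _ hm))
      convert this using 1
      simp only [rE_apply, Qadd, Q_smul, map_add, map_smul, LinearMap.add_apply, pB_self, u1, u2,
        u3, pB_comm u' u, LinearMap.smul_apply, smul_eq_mul, mul_zero, zero_add, add_zero, mul_one]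
      match_scalars <;> field_simp <;> ring
    obtain ⟨γ, γ0, hγ⟩ : ∃ γ : F, γ ≠ 0 ∧ γ • u + (0 : F) • u' ∈ LL H hs := by
      obtain ⟨t, t0, t1, t2⟩ : ∃ t : F, t ≠ 0 ∧ t ≠ -1 ∧ 1 * t ^ 2 + t + 1 ≠ 0 := by
        by_contra hc
        push Not at hc
        exact quad_three hq.le 1 hc
      have t3 : -1 - t ≠ 0 := fun h => t1 (by linear_combination -h)
      have β0 : β ≠ 0 := by rintro rfl; simp [Q_smul, u1] at z0
      refine ⟨(1 + t⁻¹ + (-1 - t)⁻¹) * β, mul_ne_zero (fun h => t2 ?_) β0, ?_⟩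
      · field_simp at h; linear_combination -h
      · convert (LL H hs).add_mem ((LL H hs).add_mem (key α β 1 one_ne_zero z1) (key α β t t0 z1))
          (key α β _ t3 z1) using 1
        module
    refine ⟨u', hu', by rintro rfl; simp at u3, rr_of_ll fun c => ?_⟩
    by_cases hc : c = 0
    · simp [hc]
    · simpa [div_mul_cancel₀ _ γ0] using key γ 0 (c / γ) (div_ne_zero hc γ0) hγ

end OF5

theorem OM_le_plane5 (S : OI Q D H) (d : Dec D) (h2 : ∀ i, finrank F (D i) = 2)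
    (ht : 5 ≤ Fintype.card τ) (h3 : Fintype.card F ≠ 3)
    (hq : (∃ i, ∃ z ∈ D i, z ≠ 0 ∧ Q z = 0) → 5 < Fintype.card F) {g : V ≃ₗ[F] V} (hg : g ∈ H)
    (hg' : g ∉ dstab D) : OM Q ≤ H := by
  have hG : GP Q D := fun i x hx x0 => by
    obtain ⟨a, ha, a0, a1, a2, a3⟩ := (S.ndon d i).exists_good (h2 i) hx x0 (2 * Q x) (by
      by_cases h : ∃ i, ∃ z ∈ D i, z ≠ 0 ∧ Q z = 0
      · exact Or.inl (hq h)
      push Not at h
      refine Or.inr ⟨fun z hz z0 => by_contra fun z1 => h i z hz z1 z0, ?_⟩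
      by_cases h4 : (2 : F) = 0
      · exact Or.inr ⟨h4, by simp [h4]⟩
      · obtain ⟨m, hm⟩ := two_ne_zero_iff_odd.1 h4
        have : 1 < Fintype.card F := Fintype.one_lt_card
        exact Or.inl (by omega))
    refine ⟨a, ha, fun h => a2 ?_, fun h => a3 ?_⟩
    · rw [rE_apply, map_sub, map_smul, pB_self, pB_comm x a, smul_eq_mul] at h
      field_simp at h; linear_combination h
    · rw [rE_apply] at h
      simpa [Submodule.smul_mem_iff _ (mul_ne_zero (inv_ne_zero a0) a1)] using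
        Submodule.sub_mem _ (Submodule.mem_span_singleton_self x) h
  obtain ⟨H', S', ⟨g', k1, k2⟩, k3, k4⟩ := exists_full5 S d h2 hG ht hg hg'
  have T : OF5 Q D H' := ⟨S', h2, hG, fun i _ h => exists_ne_three (by
    have := hq ⟨i, h⟩; omega), ht, k4⟩
  refine k3 ?_
  by_cases h : ∃ i, ∃ z ∈ D i, z ≠ 0 ∧ Q z = 0
  · obtain ⟨i, z, hz, z0, z1⟩ := id h
    refine T.OM_le_plus d (hq h) (fun j => ?_) k1 k2
    obtain ⟨e, he⟩ := S.iso i j
    exact ⟨e ⟨z, hz⟩, Subtype.prop _, by simpa using z0, (he _).trans z1⟩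
  · push Not at h
    exact T.OM_le_minus d (fun i z hz z0 => by_contra fun z1 => h i z hz z1 z0) k1 k2

section Geo

variable {ι : Type} [Fintype ι] [DecidableEq ι] {Q : QuadraticForm F (ι → F)} {t : ℕ}
  {D : Fin t → Submodule F (ι → F)}

theorem o_planes (h : ND Q) (ht : 5 ≤ t) (hD : IsOrthogonalMDecomposition Q 2 D)
    (h3 : Fintype.card F ≠ 3) (h5 : (∀ i, IsPlusTypeOn Q (D i)) → 5 < Fintype.card F) :
    IsMaximalIn (omegaGL Q) (decompositionStabilizer D ⊓ omegaGL Q) := by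
  have hn := H98.IsMDecomposition_mul_eq hD.decomp.decomp
  have hk := hD.decomp.decomp.finrank_eq
  refine isMaximalIn_dec_of h (by omega) hD fun M S d g hg hg' => ?_
  refine OM_le_plane5 S d hk (by simpa using ht) h3 ?_ hg hg'
  rintro ⟨i, z, hz, z0, z1⟩
  refine h5 fun j => ?_
  obtain ⟨e, he⟩ := S.iso i j
  refine ⟨Submodule.span F {(e ⟨z, hz⟩ : ι → F)},
    (Submodule.span_singleton_le_iff_mem _ _).2 (Subtype.prop _), fun w hw => ?_, ?_⟩
  · obtain ⟨a, rfl⟩ := Submodule.mem_span_singleton.1 hw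
    simp [Q_smul, he, z1]
  · rw [finrank_span_singleton (by simpa using z0), hk]

theorem plus_of_planes (hD : IsOrthogonalMDecomposition Q 2 D) (h : ∀ i, IsPlusTypeOn Q (D i)) :
    IsPlusTypeOn Q ⊤ := by
  have hn := H98.IsMDecomposition_mul_eq hD.decomp.decomp
  have hk := hD.decomp.decomp.finrank_eq
  obtain ⟨d⟩ := exists_dec hD.decomp.decomp.indep hD.decomp.decomp.iSup_eq_top
  have o : Orth (pB Q) D := hD.decomp.orthogonal
  have : ∀ i, ∃ z ∈ D i, z ≠ 0 ∧ Q z = 0 := fun i => by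
    obtain ⟨U, h1, h2, h3⟩ := h i
    obtain ⟨z, hz, z0⟩ := Submodule.exists_mem_ne_zero_of_ne_bot
      (ne_bot_of_finrank_pos (W := U) (by rw [hk] at h3; omega))
    exact ⟨z, h1 hz, z0, h2 z hz⟩
  choose z hz z0 z1 using this
  have e : ∀ (c : Fin t → F) i, d.π i (Fintype.linearCombination F z c) = c i • z i := fun c i => by
    rw [Fintype.linearCombination_apply, map_sum, Finset.sum_eq_single i]
    · rw [map_smul, d.self (hz i)]
    · intro j _ hj; rw [map_smul, d.ne hj.symm (hz j), smul_zero]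
    · simp
  refine ⟨LinearMap.range (Fintype.linearCombination F z), le_top, ?_, ?_⟩
  · rintro _ ⟨c, rfl⟩
    rw [Q_sum_π d o]
    simp [e, Q_smul, z1]
  · rw [LinearMap.finrank_range_of_inj, finrank_top, fr_eq, fr_eq]
    · simp; omega
    rw [injective_iff_map_eq_zero]
    intro c hc
    ext i
    simpa [hc, z0] using (e c i).symm

end Geo

end Cfsg.Agent.H77
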