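import Cfsg.Agent.H27.SkHPair
import Cfsg.Agent.H27.SkHInst
import Cfsg.Agent.H27.FinField

/-!
Skew-Hermitian forms: the stabiliser of a decomposition into two totally isotropic subspaces of
dimension at least three is maximal.
-/

set_option autoImplicit false
set_option linter.unusedSectionVars false
set_option linter.unusedSimpArgs false

namespace Cfsg.Agent.H77

open Module Cfsg.Geo H27

variable {F V : Type*} [Field F] [AddCommGroup V] [Module F V] {σ : F →+* F}
variable {B : V →ₛₗ[σ] V →ₗ[F] F} {M : Subgroup (V ≃ₗ[F] V)} [FiniteDimensional F V]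
variable {D : Fin 2 → Submodule F V}
variable (S : SkH B) (d : Dec D) (hD : ∀ i, ∀ x ∈ D i, ∀ y ∈ D i, B x y = 0)
  (htr : ∀ t, σ t = t → ∃ d, t = d + σ d) (hM : dstab D ⊓ GG B ≤ M)
include S d hD htr hM

theorem pair_K {i j : Fin 2} (hij : i ≠ j) {u v : V} (hu : u ∈ D i) (hn : ¬ AS B M u)
    (huv : B u v = 0) (h : ∀ c : F, ES B M u (c • v) 0) : v ∈ D j := by
  have huu := hD i u hu u hu
  have h1 : d.π i v ∈ Submodule.span F {u} := by
    by_contra hc
    obtain ⟨y, hy, hy1, hy2⟩ := S.pair_exists d hD hij (W := Submodule.span F {u})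
      ((Submodule.span_singleton_le_iff_mem _ _).2 hu) (d.mem i v) hc
    rw [S.pair_π d hD hij hy] at hy2
    have h2 := S.zero_symm (hy1 u (Submodule.mem_span_singleton_self u))
    exact hn (S.as_of_es htr huu huv h2 (S.ne_symm (hy2 ▸ one_ne_zero)) (fun c => ⟨0, h c⟩)
      (S.pair_es d hD hM hij hu hy h2))
  obtain ⟨c0, hc0⟩ := Submodule.mem_span_singleton.1 h1
  have hv := d.add_two hij v
  have hy := d.mem j v
  generalize d.π j v = y at hv hy
  rw [← hc0] at hv
  by_cases h0 : c0 = 0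
  · rwa [← hv, h0, zero_smul, zero_add]
  subst hv
  have huy : B u y = 0 := by simpa [huu] using huv
  refine absurd ⟨huu, fun t ht => ?_⟩ hn
  obtain ⟨e, rfl⟩ := htr t ht
  have := S.es_comp huu (by simp [huu, huy]) (by simp [huy]) (h (e / c0))
    (S.pair_es d hD hM hij hu ((D j).smul_mem (-(e / c0)) hy) (by simp [huy]))
  refine Has.congr this fun z => ?_
  have e1 : (e / c0) • (c0 • u + y) + -(e / c0) • y = e • u := by
    rw [smul_add, smul_smul, div_mul_cancel₀ _ h0]; module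
  rw [e1]
  simp only [map_smul, map_add, LinearMap.map_smulₛₗ, LinearMap.smul_apply, LinearMap.add_apply,
    huy, hD j y hy y hy, smul_eq_mul, RingHom.id_apply]
  module

theorem pair_prop (h3 : ∀ i, 3 ≤ finrank F (D i)) (hG : M ≤ GG B)
    (hn : ∀ i, ∀ u ∈ D i, u ≠ 0 → ¬ AS B M u) {g : V ≃ₗ[F] V} (hg : g ∈ M) {i k : Fin 2} {x : V}
    (hx : x ∈ D i) (hx0 : x ≠ 0) (hgx : g x ∈ D k) : ∀ a ∈ D i, g a ∈ D k := by
  have hgi := (hG hg).1
  have key : ∀ {i j k l : Fin 2}, i ≠ j → k ≠ l → ∀ x ∈ D i, x ≠ 0 → g x ∈ D k → ∀ y ∈ D j,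
      B x y = 0 → g y ∈ D l := fun {i j k l} hij hkl x hx hx0 hgx y hy hxy =>
    pair_K S d hD htr hM hkl hgx (hn k _ hgx ((g.map_ne_zero_iff).2 hx0)) ((hgi x y).trans hxy)
      fun c => by
        have := (S.pair_es d hD hM hij hx ((D j).smul_mem c hy) (by simp [hxy])).conj hg hgi
        rwa [map_smul] at this
  obtain ⟨j, hj⟩ := exists_ne i
  obtain ⟨l, hl⟩ := exists_ne k
  intro a ha
  obtain ⟨b, hb, hb1, hb2⟩ := exists_ker_list [B x, B a] (W := D j) (S := ⊥) (by
    have := h3 j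
    simp only [finrank_bot, List.length_cons, List.length_nil]; omega)
  exact key hj hl b hb (by simpa using hb2) (key hj.symm hl.symm x hx hx0 hgx b hb
    (hb1 _ (by simp))) a ha (S.zero_symm (hb1 _ (by simp)))

omit hM in
theorem isMaximalIn_pair3 {m : ℕ} (hm : ∀ i, finrank F (D i) = m) (h3 : 3 ≤ m) :
    IsMaximalIn (GG B) (dstab D ⊓ GG B) := by
  have hd : ∀ i j, finrank F (D i) = finrank F (D j) := fun i j => by rw [hm, hm]
  have h0 : ∀ i, D i ≠ ⊥ := fun i => ne_bot_of_finrank_pos (by rw [hm]; omega)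
  have h01 : (0 : Fin 2) ≠ 1 := by decide
  refine isMaximalIn_of inf_le_right ?_ fun M hM hM' g hg hg' => ?_
  · obtain ⟨x, hx, hx0⟩ := Submodule.exists_mem_ne_zero_of_ne_bot (h0 0)
    obtain ⟨y, hy, -, hyx⟩ := S.pair_exists d hD h01 (W := ⊥) bot_le hx (by simpa using hx0)
    obtain ⟨g, hg, hgf⟩ := S.exists_tvS (hD 1 y hy y hy) (map_one σ)
    refine ⟨g, hg, fun h => ?_⟩
    obtain ⟨ρ, hρ⟩ := h.1
    have h1 : g x ∈ D (ρ 0) := by rw [← hρ]; exact ⟨x, hx, rfl⟩
    rw [hgf, one_smul, hyx, one_smul] at h1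
    rcases fin2_cases h01 (ρ 0) with h2 | h2 <;> rw [h2] at h1
    · have := hD 0 _ h1 x hx
      simp [hD 0 x hx x hx, hyx] at this
    · have := hD 1 y hy _ h1
      simp [hD 1 y hy y hy, hyx] at this
  by_cases hn : ∃ i, ∃ u ∈ D i, u ≠ 0 ∧ AS B M u
  · obtain ⟨i, z, hz, hz0, hzA⟩ := hn
    obtain ⟨j, hj⟩ := exists_ne i
    obtain ⟨s, hs, hs'⟩ := S.pair_swap d hD hd hj.symm
    refine S.pair_finish d hD fun l w hw => ?_
    rcases fin2_cases hj l with rfl | rfl
    · exact S.pair_all d hD hM hj (hs' z hz) ((s.map_ne_zero_iff).2 hz0)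
        (hzA.conj (hM hs) hs.2.1) hw
    · exact S.pair_all d hD hM hj.symm hz hz0 hzA hw
  exfalso
  push Not at hn
  obtain ⟨k, x, hx, hgx⟩ := d.exists_not_mem_of_not_mem_dstab hd h0 fun h => hg' ⟨h, hM' hg⟩
  obtain ⟨k', hk'⟩ := exists_ne k
  have hgi := (hM' hg).1
  have hu : ∀ i, d.π i (g x) ≠ 0 := fun i hi => by
    obtain ⟨j, hj⟩ := exists_ne i
    have := d.add_two hj (g x)
    rw [hi, add_zero] at this
    exact hgx j (this ▸ d.mem j _)
  obtain ⟨y, hy, hy1, hy2⟩ := exists_ker_list [B x] (W := D k') (S := ⊥) (by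
      rw [hm]; simp only [finrank_bot, List.length_cons, List.length_nil]; omega)
  have hxy : B x y = 0 := hy1 _ (by simp)
  have h1 : ∀ c : F, ES B M (g x) (c • g y) 0 := fun c => by
    have := (S.pair_es d hD hM hk'.symm hx ((D k').smul_mem c hy) (by simp [hxy])).conj hg hgi
    rwa [map_smul] at this
  have hv0 : g y ≠ 0 := (g.map_ne_zero_iff).2 (by simpa using hy2)
  generalize g x = u at hu h1
  generalize g y = v at h1 hv0
  refine hv0 (d.eq_zero fun j => ?_)
  obtain ⟨i, hij⟩ := exists_ne j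
  obtain ⟨z, hz, -, hzu⟩ := S.pair_exists d hD hij.symm (W := ⊥) bot_le (d.mem j u)
    (by simpa using hu j)
  have hz' : B (d.π j u) z = -1 := S.one_symm hzu
  rw [S.pair_π d hD hij.symm hz] at hzu
  have huz : B u z = -1 := S.one_symm hzu
  obtain ⟨w, hw, hw1, hw2⟩ := exists_ker_list [B u, B v] (W := D i) (S := ⊥) (by
      rw [hm]; simp only [finrank_bot, List.length_cons, List.length_nil]; omega)
  have key : ∀ c : F, d.π j (c • v) = B (c • v) z • d.π j u := fun c => by
    obtain ⟨e, he, hef⟩ := (h1 c).exists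
    have := pair_prop S d hD htr hM (fun i => by rw [hm]; exact h3) hM' hn he hw
      (by simpa using hw2) (k := i) (by
        have f1 : B u w = 0 := hw1 _ (by simp)
        have f2 : B v w = 0 := hw1 _ (by simp)
        simpa [hef, f1, f2] using hw) z hz
    have := d.ne hij.symm this
    rw [hef, huz, map_add, map_add, d.ne hij.symm hz, map_smul _ (-1 : F),
      map_smul _ _ u] at this
    simp only [zero_mul, add_zero, zero_add, neg_smul, one_smul] at this
    exact neg_add_eq_zero.1 this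
  have hβ : B v z = 0 := by
    by_contra hβ
    obtain ⟨e, he⟩ := htr 1 (map_one σ)
    have h2 := key (σ (e / B v z))
    have h4 : B (σ (e / B v z) • v) z = e := by
      rw [LinearMap.map_smulₛₗ, LinearMap.smul_apply, S.inv, smul_eq_mul, div_mul_cancel₀ _ hβ]
    have h5 : B z (σ (e / B v z) • v) = e := by
      rw [← S.pair_π d hD hij.symm hz, h2, h4, map_smul, S.pair_π d hD hij.symm hz, hzu]; simp
    rw [S.skew, h4] at h5
    exact one_ne_zero (α := F) (by linear_combination he - h5)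
  simpa [hβ] using key 1

end Cfsg.Agent.H77

namespace Cfsg.Agent.H77

open Module Cfsg.Geo H27

variable {F : Type*} [Field F] [Fintype F]

theorem c2_sp_pair {m : ℕ} (hm : 3 ≤ m) (hodd : Odd (Fintype.card F))
    (D : Fin 2 → Submodule F (Fin m ⊕ Fin m → F)) (hD : IsMDecomposition m D)
    (hts : ∀ i, IsTotallySingularFor (Cfsg.sympForm m F) (D i)) :
    IsMaximalIn (Cfsg.spGL m F) (decompositionStabilizer D ⊓ Cfsg.spGL m F) := by
  obtain ⟨d⟩ := exists_dec hD.indep hD.iSup_eq_top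
  have h2 : (2 : F) ≠ 0 := two_ne_zero_of_odd_card hodd
  have := isMaximalIn_comap (toLE (Fin m ⊕ Fin m) F)
    (isMaximalIn_pair3 skH_symp d (fun i x hx y hy => by
      rw [sympBilin_apply]; exact hts i x hx y hy)
      (fun t _ => ⟨t / 2, by rw [RingHom.id_apply]; field_simp; ring⟩) hD.finrank_eq hm)
  rwa [Subgroup.comap_inf, comap_GG_symp, comap_dstab] at this

theorem c2_su_pair {n q : ℕ} (hF : Fintype.card F = q ^ 2) (hn : 4 ≤ n) {k : ℕ} (hk : 3 ≤ k)
    (D : Fin 2 → Submodule F (Fin n → F)) (hD : IsMDecomposition k D)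
    (hts : ∀ i, IsTotallySingularFor (Cfsg.hermForm n F q) (D i)) :
    IsMaximalIn (Cfsg.GU n F q ⊓ specialLinear (Fin n) F)
      (decompositionStabilizer D ⊓ (Cfsg.GU n F q ⊓ specialLinear (Fin n) F)) := by
  haveI : Fact (Fintype.card F = q ^ 2) := ⟨hF⟩
  obtain ⟨d⟩ := exists_dec hD.indep hD.iSup_eq_top
  obtain ⟨ζ, h0, hζ⟩ := H10.exists_skew F q
  have := isMaximalIn_comap (toLE (Fin n) F)
    (isMaximalIn_pair3 (skH_su (n := n) (by omega) h0 hζ) d (fun i x hx y hy =>
      (suB_eq_zero h0).2 (hts i y hy x hx))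
      (fun t ht => (H10.exists_trace_eq ht).imp fun _ h => h.symm) hD.finrank_eq hk)
  rwa [Subgroup.comap_inf, comap_GG_su h0, comap_dstab] at this

end Cfsg.Agent.H77
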