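import Cfsg.Agent.H77.C8Orth

/-! Rational structures over a subfield, and conjugation of opposite root elements. -/

set_option autoImplicit false
set_option linter.unusedSectionVars false

namespace Cfsg.Agent.H77

open Module Cfsg.Agent.H27 Pointwise

/-- If `s` of order `p` fixes only `a` in the orbit of `a`, every `t` of order `p` fixes a point
of this orbit. -/
theorem exists_fixed_in_orbit {G X : Type*} [Group G] [MulAction G X] [Finite X] {p : ℕ}
    (hp : p.Prime) (L : Subgroup G) {s t : G} (hsL : s ∈ L) (htL : t ∈ L) (hs : s ^ p = 1)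
    (ht : t ^ p = 1) (a : X) (hsa : s • a = a)
    (huniq : ∀ h ∈ L, s • h • a = h • a → h • a = a) : ∃ h ∈ L, t • h • a = h • a := by
  classical
  haveI : Fact p.Prime := ⟨hp⟩
  haveI := Fintype.ofFinite (MulAction.orbit L a)
  let π := MulAction.toPermHom L (MulAction.orbit L a)
  by_cases hd : p ∣ Fintype.card (MulAction.orbit L a)
  · obtain ⟨⟨_, h, rfl⟩, h1, h2⟩ := Equiv.Perm.exists_fixed_point_of_prime' (n := 1) hd
      (σ := π ⟨s, hsL⟩)
      (by rw [pow_one, ← map_pow, show (⟨s, hsL⟩ : L) ^ p = 1 from Subtype.ext hs, map_one])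
      (a := ⟨a, MulAction.mem_orbit_self a⟩) (Subtype.ext hsa)
    exact absurd (Subtype.ext (huniq h h.2 (congrArg Subtype.val h1))) h2
  · obtain ⟨⟨_, h, rfl⟩, h1⟩ := Equiv.Perm.exists_fixed_point_of_prime (n := 1) hd
      (σ := π ⟨t, htL⟩)
      (by rw [pow_one, ← map_pow, show (⟨t, htL⟩ : L) ^ p = 1 from Subtype.ext ht, map_one])
    exact ⟨h, h.2, congrArg Subtype.val h1⟩

variable {F V : Type*} [Field F] [AddCommGroup V] [Module F V]

theorem smul_sp_one (g : V ≃ₗ[F] V) (u : V) : g • (sp F [u] : Set V) = (sp F [g u] : Set V) := by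
  ext x
  simp only [Set.mem_smul_set, SetLike.mem_coe, mem_sp_one]
  constructor
  · rintro ⟨_, ⟨c, rfl⟩, rfl⟩
    exact ⟨c, map_smul g c u⟩
  · rintro ⟨c, rfl⟩
    exact ⟨_, ⟨c, rfl⟩, map_smul g c u⟩

theorem pow_char_eq_one [Finite F] {s : V ≃ₗ[F] V} (h : ∀ x, s (s x - x) = s x - x) :
    s ^ ringChar F = 1 := by
  have key : ∀ (n : ℕ) x, (s ^ n) x = x + (n : F) • (s x - x) := by
    intro n x
    induction n with
    | zero => simp
    | succ n ih =>
      rw [pow_succ', le_mul_apply, ih, map_add, map_smul, h]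
      push_cast
      module
  ext x
  rw [key, ringChar.Nat.cast_ringChar, zero_smul, add_zero]
  rfl

/-- Two unipotent elements fixing unique points `⟨u⟩`, `⟨w⟩` of an invariant set. -/
theorem exists_conj_point [Finite F] [Finite V] {L : Subgroup (V ≃ₗ[F] V)} {s t : V ≃ₗ[F] V}
    (hs : s ∈ L) (ht : t ∈ L) (hs2 : ∀ x, s (s x - x) = s x - x) (ht2 : ∀ x, t (t x - x) = t x - x)
    {u w : V} (hu0 : u ≠ 0) (hsu : s u = u)
    (h1 : ∀ h ∈ L, s (h u) ∈ sp F [h u] → h u ∈ sp F [u])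
    (h2 : ∀ h ∈ L, t (h u) ∈ sp F [h u] → h u ∈ sp F [w]) :
    ∃ h ∈ L, ∃ ε : F, ε ≠ 0 ∧ h u = ε • w := by
  have hp : (ringChar F).Prime := CharP.char_is_prime F (ringChar F)
  have hm : ∀ x : V, x ∈ sp F [x] := fun x => mem_sp (by simp)
  obtain ⟨h, hL, hh⟩ := exists_fixed_in_orbit hp L hs ht
    (pow_char_eq_one hs2) (pow_char_eq_one ht2) (sp F [u] : Set V)
    (by rw [smul_sp_one, hsu]) (fun h hL hh => by
      rw [smul_sp_one, smul_sp_one] at hh
      have h3 := h1 h hL (by rw [← SetLike.mem_coe, ← hh]; exact hm _)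
      rw [smul_sp_one]
      obtain ⟨c, hc⟩ := mem_sp_one.mp h3
      have hc0 : c ≠ 0 := by
        rintro rfl
        exact hu0 (h.map_eq_zero_iff.mp (by simpa using hc))
      congr 1
      refine le_antisymm (sp_le (by simpa using h3)) (sp_le ?_)
      simp only [List.mem_singleton, forall_eq]
      exact mem_sp_one.mpr ⟨c⁻¹, by rw [hc, smul_smul, inv_mul_cancel₀ hc0, one_smul]⟩)
  rw [smul_sp_one, smul_sp_one] at hh
  obtain ⟨c, hc⟩ := mem_sp_one.mp (h2 h hL (by rw [← SetLike.mem_coe, ← hh]; exact hm _))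
  refine ⟨h, hL, c, ?_, hc⟩
  rintro rfl
  exact hu0 (h.map_eq_zero_iff.mp (by simpa using hc))

/-- The pointwise stabiliser of a set of vectors. -/
def fixer (Z : Set V) : Subgroup (V ≃ₗ[F] V) where
  carrier := {g | ∀ z ∈ Z, g z = z}
  one_mem' _ _ := rfl
  mul_mem' {a b} ha hb z hz := by rw [le_mul_apply, hb z hz, ha z hz]
  inv_mem' {a} ha z hz := by
    apply a.injective; rw [le_apply_inv, ha z hz]

/-- A map `y ↦ y + c(y) • u` fixes only the point `⟨u⟩` of the plane `⟨u, w⟩` if `c(w) ≠ 0`. -/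
theorem mem_sp_of_shear {u w y : V} {φ : Dual F V} (hu0 : u ≠ 0) (hu : φ u = 0) (hw : φ w ≠ 0)
    (hy : y ∈ sp F [u, w]) (h : y + φ y • u ∈ sp F [y]) : y ∈ sp F [u] := by
  obtain ⟨a, b, rfl⟩ := mem_sp_two.mp hy
  by_cases hb : b = 0
  · exact mem_sp_one.mpr ⟨a, by simp [hb]⟩
  obtain ⟨c, hc⟩ := mem_sp_one.mp h
  have h1 := congrArg φ hc
  simp only [map_add, map_smul, hu, smul_eq_mul, mul_zero, zero_add, add_zero] at h1 hc
  have h2 : c = 1 := by
    have : (c - 1) * (b * φ w) = 0 := by linear_combination -h1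
    rcases mul_eq_zero.mp this with h | h
    · exact sub_eq_zero.mp h
    · exact absurd h (mul_ne_zero hb hw)
  rw [h2, one_smul, add_eq_left, smul_eq_zero] at hc
  rcases hc with h | h
  · exact absurd h (mul_ne_zero hb hw)
  · exact absurd h hu0

variable [FiniteDimensional F V] {H : Subgroup (V ≃ₗ[F] V)}

/-- Two opposite transvections: the centres are conjugate in the group they generate. -/
theorem T1.exists_conj [Finite F] {u w : V} {φ ψ : Dual F V} (h1 : T1 H u φ) (h2 : T1 H w ψ)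
    (hu : φ u = 0) (hw : ψ w = 0) (huw : φ w ≠ 0) (hwu : ψ u ≠ 0) :
    ∃ h ∈ H, (∀ z, φ z = 0 → ψ z = 0 → h z = z) ∧ ∃ ε : F, ε ≠ 0 ∧ h u = ε • w := by
  haveI : Finite V := Module.finite_of_finite F
  obtain ⟨s, hs, hsf⟩ := h1.exists
  obtain ⟨t, ht, htf⟩ := h2.exists
  have hu0 : u ≠ 0 := by rintro rfl; simp at hwu
  have hw0 : w ≠ 0 := by rintro rfl; simp at huw
  have mu : u ∈ sp F [u, w] := mem_sp (by simp)
  have mw : w ∈ sp F [u, w] := mem_sp (by simp)
  obtain ⟨h, hh, ε, hε⟩ := exists_conj_point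
    (L := H ⊓ fixer {z | φ z = 0 ∧ ψ z = 0} ⊓ stab (sp F [u, w])) (s := s) (t := t) (w := w)
    ⟨⟨hs, fun z hz => by simp [hsf, hz.1]⟩, mem_stab_of_mapsTo fun x hx => by
      rw [hsf]; exact Submodule.add_mem _ hx (Submodule.smul_mem _ _ mu)⟩
    ⟨⟨ht, fun z hz => by simp [htf, hz.2]⟩, mem_stab_of_mapsTo fun x hx => by
      rw [htf]; exact Submodule.add_mem _ hx (Submodule.smul_mem _ _ mw)⟩
    (fun x => by simp [hsf, hu]) (fun x => by simp [htf, hw]) hu0 (by simp [hsf, hu])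
    (fun h hh h3 => mem_sp_of_shear hu0 hu huw (stab_apply hh.2 mu) (by rwa [hsf] at h3))
    (fun h hh h3 => mem_sp_of_shear hw0 hw hwu
      (sp_mono (l := [u, w]) (by simp) (stab_apply hh.2 mu)) (by rwa [htf] at h3))
  exact ⟨h, hh.1.1, fun z h3 h4 => hh.1.2 z ⟨h3, h4⟩, ε, hε⟩

section Conn

variable {σ : F →+* F} {B : V →ₛₗ[σ] V →ₗ[F] F} {S : V → Prop} {k : ℕ}

/-- A subspace which contains with a good singular vector all singular vectors orthogonal to it
is the whole space. -/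
theorem Solv.eq_top_of_conn (hS : Solv B S k) (h : RF B) (hk : 2 ≤ k) (hn : 2 < finrank F V)
    (hadd : ∀ x y, S x → S y → B x y = 0 → S (x + y)) (hself : ∀ x, S x → B x x = 0)
    {Z : Submodule F V} (Gd : V → Prop)
    (h1 : ∀ a ∈ Z, Gd a → S a → ∀ b, S b → B a b = 0 → b ∈ Z)
    {a : V} (ha : a ∈ Z) (hGa : Gd a) (hSa : S a)
    (h3 : ∀ x, x ∉ sp F [a] → Gd x ∨ Gd (a + x)) : Z = ⊤ := by
  have main : ∀ a ∈ Z, Gd a → S a → ∀ p, p ∉ sp F [a] → ∃ x ∈ Z, B p x ≠ 0 := by
    intro a ha hGa hSa p hp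
    obtain ⟨x, hx, h4, h5⟩ := hS.one h hp 1 (by simpa using hk)
    exact ⟨x, h1 a ha hGa hSa x hx (h4 a (by simp)), by rw [h5]; exact one_ne_zero⟩
  refine h.eq_top fun p hp => ?_
  by_cases hpa : p ∈ sp F [a]
  · obtain ⟨x, hx, h4, h5⟩ := hS.zero_not h [a] [a] (by simpa using hk) (by simpa using hn)
    have hax : B a x = 0 := h4 a (by simp)
    have key : ∀ y, S y → B a y = 0 → y ∉ sp F [a] → Gd y → ∃ x ∈ Z, B p x ≠ 0 := by
      intro y hy hay hyn hG
      refine main y (h1 a ha hGa hSa y hy hay) hG hy p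
        (not_mem_sp_one_symm (fun hm => hyn ?_) hp)
      exact sp_le (by simpa using hpa) hm
    rcases h3 x h5 with hG | hG
    · exact key x hx hax h5 hG
    · refine key _ (hadd a x hSa hx hax) (by rw [map_add, hself a hSa, hax, add_zero])
        (fun hm => h5 ?_) hG
      simpa using Submodule.sub_mem _ hm (mem_sp (F := F) (l := [a]) (x := a) (by simp))
  · exact main a ha hGa hSa p hpa

end Conn

section Rat

variable {K : Subfield F} {W : Type*} [AddCommGroup W] [Module K W]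

/-- `j : W → V` identifies `V` with the extension of scalars of `W`. -/
structure RS (j : W →ₗ[K] V) : Prop where
  ext : ∀ φ₀ : Dual K W, ∃ φ : Dual F V, ∀ x, φ (j x) = φ₀ x
  span : ∀ φ : Dual F V, (∀ x, φ (j x) = 0) → φ = 0

/-- Rational points. -/
def Rat (j : W →ₗ[K] V) (v : V) : Prop := ∃ (c : F) (x : W), v = c • j x

/-- Automorphisms normalising the rational structure. -/
def NR (j : W →ₗ[K] V) (g : V ≃ₗ[F] V) : Prop := ∃ c : F, c ≠ 0 ∧ ∀ x, ∃ y, g (j x) = c • j y

variable {j : W →ₗ[K] V}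

theorem j_smul (c : K) (x : W) : j (c • x) = (c : F) • j x := map_smul j c x

theorem dual_j_smul (φ : Dual F V) (c : K) (x : W) : φ (j (c • x)) = c * φ (j x) := by
  rw [j_smul, map_smul, smul_eq_mul]

theorem j_smul' {c : F} (hc : c ∈ K) (x : W) : c • j x = j ((⟨c, hc⟩ : K) • x) :=
  (map_smul j ⟨c, hc⟩ x).symm

theorem RS.exists_dual (hj : RS j) {l : List W} {a : W} (ha : a ∉ sp K l) :
    ∃ φ : Dual F V, (∀ x, φ (j x) ∈ K) ∧ (∀ w ∈ l, φ (j w) = 0) ∧ φ (j a) = 1 := by
  obtain ⟨φ₀, h1, h2⟩ := exists_dual_of_not_mem ha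
  obtain ⟨φ, hφ⟩ := hj.ext φ₀
  exact ⟨φ, fun x => by rw [hφ]; exact (φ₀ x).2,
    fun w hw => by rw [hφ, h1 w (mem_sp hw)]; rfl, by rw [hφ, h2]; rfl⟩

theorem RS.ne_zero (hj : RS j) {a : W} (ha : a ≠ 0) : j a ≠ 0 := by
  obtain ⟨φ, -, -, h⟩ := hj.exists_dual (l := []) (a := a) (by rwa [mem_sp_nil])
  intro h0
  simp [h0] at h

theorem RS.not_mem (hj : RS j) {l : List W} {a : W} (ha : a ∉ sp K l) : j a ∉ sp F (l.map j) := by
  obtain ⟨φ, -, h1, h2⟩ := hj.exists_dual ha
  refine not_mem_sp_of φ (fun w hw => ?_) (by rw [h2]; exact one_ne_zero)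
  obtain ⟨w, hw', rfl⟩ := List.mem_map.mp hw
  exact h1 w hw'

/-- Coefficients of a rational vector with respect to independent rational vectors. -/
theorem RS.coeff_mem (hj : RS j) {l : List W} {a y : W} (ha : a ∉ sp K l) {c : F} {z : V}
    (hz : z ∈ sp F (l.map j)) (h : c • j a + z = j y) : c ∈ K := by
  obtain ⟨φ, h0, h1, h2⟩ := hj.exists_dual ha
  have h3 : φ z = 0 := map_eq_zero_of_mem_sp φ (fun w hw => by
    obtain ⟨w, hw', rfl⟩ := List.mem_map.mp hw
    exact h1 w hw') hz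
  have := h0 y
  rwa [← h, map_add, map_smul, h2, h3, smul_eq_mul, mul_one, add_zero] at this

/-- A vector on which all rational functionals are rational is rational. -/
theorem RS.mem_range [FiniteDimensional K W] (hj : RS j) {v : V}
    (hv : ∀ φ : Dual F V, (∀ x, φ (j x) ∈ K) → φ v ∈ K) : ∃ x, v = j x := by
  classical
  let b := Module.finBasis K W
  choose φ hφ using fun i => hj.ext (b.coord i)
  have hK : ∀ i, φ i v ∈ K := fun i => hv _ fun x => by rw [hφ]; exact (b.coord i x).2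
  refine ⟨∑ i, (⟨φ i v, hK i⟩ : K) • b i, ?_⟩
  have key : ∀ ψ : Dual F V, ψ = ∑ i, ψ (j (b i)) • φ i := by
    intro ψ
    rw [← sub_eq_zero]
    apply hj.span
    intro x
    simp only [LinearMap.sub_apply, LinearMap.coe_sum, Finset.sum_apply, LinearMap.smul_apply, hφ]
    have : ψ (j x) = ψ (j (∑ i, b.repr x i • b i)) := by rw [b.sum_repr x]
    rw [this, map_sum, map_sum, sub_eq_zero]
    refine Finset.sum_congr rfl fun i _ => ?_
    rw [dual_j_smul, mul_comm]; rfl
  rw [← sub_eq_zero]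
  apply (Module.forall_dual_apply_eq_zero_iff F _).mp
  intro ψ
  have h1 := congrArg (fun l : Dual F V => l v) (key ψ)
  simp only [LinearMap.coe_sum, Finset.sum_apply, LinearMap.smul_apply, smul_eq_mul] at h1
  rw [map_sub, map_sum, map_sum, h1, sub_eq_zero]
  exact Finset.sum_congr rfl fun i _ => by rw [dual_j_smul, mul_comm]

theorem RS.rat_step (hj : RS j) {g : V ≃ₗ[F] V} {x x' y : W} {c : F} (hx : g (j x) = c • j x')
    (hx0 : x ≠ 0) (hc0 : c ≠ 0) (h1 : Rat j (g (j y))) (h2 : Rat j (g (j (x + y)))) :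
    ∃ y', g (j y) = c • j y' := by
  by_cases hyx : y ∈ sp K [x]
  · obtain ⟨d, rfl⟩ := mem_sp_one.mp hyx
    exact ⟨d • x', by rw [j_smul, j_smul, map_smul, hx, smul_comm]⟩
  obtain ⟨β, y', hy⟩ := h1
  obtain ⟨γ, z, hz⟩ := h2
  rw [map_add, map_add, hx, hy] at hz
  have hind : g (j y) ∉ sp F [g (j x)] := fun hm => by
    obtain ⟨d, hd⟩ := mem_sp_one.mp hm
    exact hj.not_mem hyx (mem_sp_one.mpr ⟨d, g.injective (by rw [hd, map_smul])⟩)
  have hγ : γ ≠ 0 := by
    rintro rfl
    apply hind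
    rw [hx, hy]
    exact mem_sp_one.mpr ⟨-1, by rw [zero_smul] at hz; rw [neg_one_smul, eq_neg_iff_add_eq_zero,
      add_comm, hz]⟩
  have hy' : y' ∉ sp K [x'] := fun hm => by
    obtain ⟨d, rfl⟩ := mem_sp_one.mp hm
    apply hind
    rw [hx, hy, j_smul]
    exact mem_sp_one.mpr ⟨β * d / c, by rw [smul_smul, smul_smul, div_mul_cancel₀ _ hc0]⟩
  have hx' : x' ≠ 0 := by
    rintro rfl
    exact hj.ne_zero hx0 (g.map_eq_zero_iff.mp (by simpa using hx))
  have h4 : β / γ ∈ K := hj.coeff_mem hy' (z := (c / γ) • j x') (y := z)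
    (Submodule.smul_mem _ _ (mem_sp (by simp))) (by
      rw [← smul_right_inj hγ, smul_add, smul_smul, smul_smul, mul_div_cancel₀ _ hγ,
        mul_div_cancel₀ _ hγ, add_comm, hz])
  have h5 : c / γ ∈ K := hj.coeff_mem (not_mem_sp_one_symm hy' hx') (z := (β / γ) • j y') (y := z)
    (Submodule.smul_mem _ _ (mem_sp (by simp))) (by
      rw [← smul_right_inj hγ, smul_add, smul_smul, smul_smul, mul_div_cancel₀ _ hγ,
        mul_div_cancel₀ _ hγ, hz])
  have h3 : β / c ∈ K := by
    have := K.div_mem h4 h5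
    rwa [div_div_div_cancel_right₀ hγ] at this
  refine ⟨(⟨β / c, h3⟩ : K) • y', ?_⟩
  rw [hy, j_smul, smul_smul, mul_div_cancel₀ _ hc0]

theorem RS.nr_of_rat_all [Nontrivial W] (hj : RS j) {g : V ≃ₗ[F] V} (hg : ∀ x, Rat j (g (j x))) :
    NR j g := by
  obtain ⟨a, ha0⟩ := exists_ne (0 : W)
  obtain ⟨c, a', hc⟩ := hg a
  have hc0 : c ≠ 0 := by
    rintro rfl
    exact hj.ne_zero ha0 (g.map_eq_zero_iff.mp (by simpa using hc))
  exact ⟨c, hc0, fun y => hj.rat_step hc ha0 hc0 (hg _) (hg _)⟩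

theorem RS.eq_top (hj : RS j) {A : Submodule F V} (hA : ∀ x, j x ∈ A) : A = ⊤ := by
  by_contra hne
  obtain ⟨z, -, hz⟩ := SetLike.exists_of_lt (lt_top_iff_ne_top.2 hne)
  obtain ⟨φ, h1, h2⟩ := exists_dual_of_not_mem hz
  rw [hj.span φ fun x => h1 _ (hA x)] at h2
  simp at h2

theorem RS.mem_sp_of_rat [FiniteDimensional K W] (hj : RS j) (l : List W) {v : V}
    (hv : ∀ φ : Dual F V, (∀ x, φ (j x) ∈ K) → (∀ w ∈ l, φ (j w) = 0) → φ v = 0) :
    v ∈ sp F (l.map j) := by
  induction l generalizing v with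
  | nil =>
    obtain ⟨x, rfl⟩ := hj.mem_range (v := v) fun φ hφ => by
      rw [hv φ hφ (by simp)]; exact K.zero_mem
    by_contra hne
    obtain ⟨φ, h0, -, h1⟩ := hj.exists_dual (l := []) (a := x) (by
      rw [mem_sp_nil]; rintro rfl; exact hne (by simp))
    rw [hv φ h0 (by simp)] at h1
    exact zero_ne_one h1
  | cons a l ih =>
    by_cases ha : a ∈ sp K l
    · refine sp_mono (l := l.map j) (fun _ h => List.mem_cons_of_mem _ h) (ih fun φ hφ h => hv φ hφ ?_)
      intro w hw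
      rcases List.mem_cons.mp hw with rfl | hw
      · exact map_eq_zero_of_mem_sp ((φ.restrictScalars K) ∘ₗ j) h ha
      · exact h w hw
    · obtain ⟨φ₁, h0, h1, h2⟩ := hj.exists_dual ha
      rw [List.map_cons, mem_sp_cons]
      refine ⟨φ₁ v, v - φ₁ v • j a, ih fun φ hφ h => ?_, by simp⟩
      have := hv (φ - φ (j a) • φ₁) (fun x => K.sub_mem (hφ x) (K.mul_mem (hφ a) (h0 x))) (by
        intro w hw
        rcases List.mem_cons.mp hw with rfl | hw
        · simp [h2]
        · simp [h w hw, h1 w hw])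
      simp only [LinearMap.sub_apply, LinearMap.smul_apply, smul_eq_mul] at this
      rw [map_sub, map_smul, smul_eq_mul, mul_comm, this]

/-- A rational vector in the kernel of some rational functionals, outside a small subspace. -/
theorem exists_rat_ker [FiniteDimensional K W] (L : List (Dual F V))
    (hL : ∀ φ ∈ L, ∀ x, φ (j x) ∈ K) (l : List W) (h : L.length + l.length < finrank K W) :
    ∃ x, (∀ φ ∈ L, φ (j x) = 0) ∧ x ∉ sp K l := by
  let f : W →ₗ[K] (Fin L.length → K) := LinearMap.pi fun i =>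
    { toFun := fun x => ⟨L.get i (j x), hL _ (List.get_mem L i) x⟩
      map_add' := fun x y => Subtype.ext (by simp)
      map_smul' := fun a x => Subtype.ext (dual_j_smul _ a x) }
  have h1 := LinearMap.finrank_range_add_finrank_ker f
  have h3 := Submodule.finrank_le (LinearMap.range f)
  have h4 := finrank_sp_le (F := K) l
  simp only [Module.finrank_fintype_fun_eq_card, Fintype.card_fin] at h3
  obtain ⟨x, hx, hx'⟩ := exists_mem_not_mem (U := LinearMap.ker f) (W := sp K l) (by omega)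
  refine ⟨x, fun φ hφ => ?_, hx'⟩
  obtain ⟨i, rfl⟩ := List.get_of_mem hφ
  exact congrArg Subtype.val (congrFun hx i)

variable [FiniteDimensional K W] {σ₀ : K →+* K} {B₀ : W →ₛₗ[σ₀] W →ₗ[K] K} {S : W → Prop} {k : ℕ}

/-- An automorphism mapping singular rational points to rational points normalises the rational
structure. -/
theorem RS.nr_of_rat (hj : RS j) (hS : Solv B₀ S k) (h : RF B₀) (hk : 2 ≤ k)
    (hn : 2 < finrank K W) (hadd : ∀ x y, S x → S y → B₀ x y = 0 → S (x + y))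
    (hself : ∀ x, S x → B₀ x x = 0) {g : V ≃ₗ[F] V} (hg : ∀ x, S x → Rat j (g (j x))) :
    NR j g := by
  obtain ⟨a, hSa, -, ha0⟩ := hS.zero_not h [] [] (by simp; omega) (by simp; omega)
  rw [mem_sp_nil] at ha0
  obtain ⟨c, a', hc⟩ := hg a hSa
  have hc0 : c ≠ 0 := by
    rintro rfl
    exact hj.ne_zero ha0 (g.map_eq_zero_iff.mp (by simpa using hc))
  let Z : Submodule K W :=
    { carrier := {x | ∃ y, g (j x) = c • j y}
      zero_mem' := ⟨0, by simp⟩
      add_mem' := by
        rintro x y ⟨x', hx⟩ ⟨y', hy⟩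
        exact ⟨x' + y', by rw [map_add, map_add, hx, hy, map_add, smul_add]⟩
      smul_mem' := by
        rintro d x ⟨x', hx⟩
        exact ⟨d • x', by rw [j_smul, j_smul, map_smul, hx, smul_comm]⟩ }
  have hZ : Z = ⊤ := by
    refine hS.eq_top_of_conn h hk hn hadd hself (fun x => x ≠ 0) ?_ (a := a) ⟨a', hc⟩ ha0 hSa
      (fun x hx => Or.inl (by rintro rfl; exact hx (Submodule.zero_mem _)))
    rintro x ⟨x', hx⟩ hx0 hSx y hSy hxy
    exact hj.rat_step hx hx0 hc0 (hg y hSy) (hg _ (hadd x y hSx hSy hxy))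
  exact ⟨c, hc0, fun x => (show x ∈ Z by rw [hZ]; trivial)⟩

/-- A functional taking proportional values at orthogonal singular rational vectors is a multiple
of a rational functional. -/
theorem RS.rat_dual (hS : Solv B₀ S k) (h : RF B₀) (hk : 2 ≤ k)
    (hn : 2 < finrank K W) (hadd : ∀ x y, S x → S y → B₀ x y = 0 → S (x + y))
    (hself : ∀ x, S x → B₀ x x = 0) {φ : Dual F V}
    (hφ : ∀ x y, S x → S y → B₀ x y = 0 → φ (j x) ≠ 0 → φ (j y) / φ (j x) ∈ K) :
    ∃ c : F, c ≠ 0 ∧ ∀ x, φ (j x) / c ∈ K := by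
  by_cases h0 : ∃ a, S a ∧ φ (j a) ≠ 0
  · obtain ⟨a, hSa, ha⟩ := h0
    let Z : Submodule K W :=
      { carrier := {x | φ (j x) / φ (j a) ∈ K}
        zero_mem' := by simp
        add_mem' := by
          intro x y hx hy
          simp only [Set.mem_setOf_eq, map_add, add_div] at hx hy ⊢
          exact K.add_mem hx hy
        smul_mem' := by
          intro d x hx
          simp only [Set.mem_setOf_eq, dual_j_smul, mul_div_assoc] at hx ⊢
          exact K.mul_mem d.2 hx }
    have hZ : Z = ⊤ := by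
      refine hS.eq_top_of_conn h hk hn hadd hself (fun x => φ (j x) ≠ 0) ?_ (a := a)
        (show φ (j a) / φ (j a) ∈ K by rw [div_self ha]; exact K.one_mem) ha hSa (fun x _ => ?_)
      · intro x hx hx0 hSx y hSy hxy
        have := K.mul_mem (hφ x y hSx hSy hxy hx0) hx
        rwa [div_mul_div_cancel₀ hx0] at this
      · by_cases hx : φ (j x) = 0
        · right; rwa [map_add, map_add, hx, add_zero]
        · exact Or.inl hx
    exact ⟨_, ha, fun x => (show x ∈ Z by rw [hZ]; trivial)⟩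
  · push Not at h0
    have : (LinearMap.ker ((φ.restrictScalars K) ∘ₗ j)) = ⊤ := h.eq_top fun a ha => by
      obtain ⟨x, hx, -, h1⟩ := hS.one h (l := []) (a := a) (by rwa [mem_sp_nil]) 1 (by simp; omega)
      exact ⟨x, h0 x hx, by rw [h1]; exact one_ne_zero⟩
    refine ⟨1, one_ne_zero, fun x => ?_⟩
    have hx : x ∈ LinearMap.ker ((φ.restrictScalars K) ∘ₗ j) := by rw [this]; trivial
    have hx' : φ (j x) = 0 := hx
    rw [hx', zero_div]; exact K.zero_mem

variable {σ : F →+* F} {B : V →ₛₗ[σ] V →ₗ[F] F}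

/-- A vector whose functional is a multiple of a rational functional is a rational point. -/
theorem RS.rat_of_dual (hj : RS j) (h : RF B) (h₀ : RF B₀) {d : F} (hd : d ≠ 0)
    (hB : ∀ x y, B (j x) (j y) = d * B₀ x y) {w : V} {c : F} (hc : c ≠ 0)
    (hw : ∀ x, B w (j x) / c ∈ K) : Rat j w := by
  let φ₀ : Dual K W :=
    { toFun := fun x => ⟨B w (j x) / c, hw x⟩
      map_add' := fun x y => Subtype.ext (by simp [add_div])
      map_smul' := fun a x => Subtype.ext (by
        simp only [dual_j_smul, smul_eq_mul, RingHom.id_apply, mul_div_assoc]; rfl) }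
  obtain ⟨a, ha⟩ := h₀.rep φ₀
  refine ⟨σ (c / d), a, h.inj ?_⟩
  rw [← h.smul_eq, ← sub_eq_zero]
  apply hj.span
  intro x
  rw [LinearMap.sub_apply, LinearMap.smul_apply, hB, ha]
  show B w (j x) - c / d * (d * (B w (j x) / c)) = 0
  field_simp
  ring

end Rat

/-- A subring of a finite field containing a subfield of prime degree. -/
theorem subring_dichotomy [Fintype F] {K : Subfield F} {r : ℕ} (hr : r.Prime)
    (hcard : Fintype.card F = Nat.card K ^ r) (M : Subring F) (hM : ∀ c ∈ K, c ∈ M) :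
    (∀ c ∈ M, c ∈ K) ∨ ∀ c, c ∈ M := by
  let A : Subalgebra K F := { M with algebraMap_mem' := fun c => hM c c.2 }
  have hfr : finrank K F = r := by
    have := Module.natCard_eq_pow_finrank (K := K) (V := F)
    rw [Nat.card_eq_fintype_card, hcard] at this
    exact (Nat.pow_right_injective (Finite.one_lt_card (α := K)) this).symm
  haveI := Subalgebra.isSimpleOrder_of_finrank_prime K F (hfr ▸ hr)
  rcases eq_bot_or_eq_top A with h | h
  · left
    intro c hc
    have : c ∈ A := hc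
    rw [h, Algebra.mem_bot] at this
    obtain ⟨k, rfl⟩ := this
    exact k.2
  · right
    intro c
    show c ∈ A
    rw [h]; trivial

end Cfsg.Agent.H77
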