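import Cfsg.Agent.H77.ONd
import Cfsg.Agent.H27.OPair
import Cfsg.Agent.H27.ODec3

/-!
Reducible and imprimitive maximal subgroups of the orthogonal groups in small dimension.
-/

set_option autoImplicit false
set_option linter.unusedSectionVars false
set_option linter.unusedSimpArgs false

namespace Cfsg.Agent.H77

open Module Cfsg.Geo QuadraticMap H11 H27

variable {ι : Type} [Fintype ι] [DecidableEq ι] {F : Type*} [Field F] [Fintype F]
variable {Q : QuadraticForm F (ι → F)} (h : ND Q) (hd : 7 ≤ Fintype.card ι)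
include h hd

theorem o_ts {W : Submodule F (ι → F)} (hW0 : W ≠ ⊥) (hW : IsTotallySingularQuad Q W)
    (hx : IsPlusTypeOn Q ⊤ → 2 * (finrank F W + 1) ≠ Fintype.card ι) :
    IsMaximalIn (omegaGL Q) (subspaceStabilizer W ⊓ omegaGL Q) :=
  isMaximalIn_omega (K := stab W)
    (h.not_le_stab (by omega) hW0 (h.ne_top_of_sing (by omega) hW))
    fun M hM hG g hg hg' => OM_le_of_ts h (by rw [fr_eq]; omega) hW
      (fun X hX hX' e => hx ⟨X, le_top, hX, by rw [hX', finrank_top]⟩ (by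
        rw [← e, hX', fr_eq])) hM hG hg hg'

theorem o_point {v : ι → F} (hv : Q v ≠ 0) :
    IsMaximalIn (omegaGL Q) (subspaceStabilizer (Submodule.span F {v}) ⊓ omegaGL Q) := by
  have hv0 : v ≠ 0 := by rintro rfl; simp at hv
  exact isMaximalIn_omega (K := stab (Submodule.span F {v}))
    (h.not_le_stab (by omega) (by simpa using hv0) (fun h1 => by
      have := finrank_span_singleton (K := F) hv0
      rw [h1, finrank_top, fr_eq] at this
      omega))
    fun M hM hG g hg hg' => OM_le_of_point h (by rwa [fr_eq]) hM hG hg hg'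

theorem o_nd {W : Submodule F (ι → F)} (k : ℕ) (hk : finrank F W = k) (h0 : 0 < k)
    (h1 : k < Fintype.card ι) (hW : IsNondegenerateOn (polar Q) W)
    (hni : 2 * k = Fintype.card ι → Even k ∧ ¬ IsPlusTypeOn Q ⊤)
    (h2 : k = 2 → IsPlusTypeOn Q W → 4 ≤ Fintype.card F) (h3 : 2 + k ≠ Fintype.card ι) :
    IsMaximalIn (omegaGL Q) (subspaceStabilizer W ⊓ omegaGL Q) := by
  subst hk
  refine isMaximalIn_stab_nd7 h hd (ne_bot_of_finrank_pos h0) (fun e => ?_) hW hni ?_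
  · rw [e, finrank_top, fr_eq] at h1; omega
  rintro ⟨a, U, b, -, c, rfl | ⟨-, e⟩⟩
  · have := h2 b c; omega
  · omega

theorem o_nd_odd {W : Submodule F (ι → F)} (he : Even (Fintype.card ι)) (h0 : W ≠ ⊥) (h1 : W ≠ ⊤)
    (ho : Odd (finrank F W)) (h2 : 2 * finrank F W ≠ Fintype.card ι)
    (hW : IsNondegenerateOn (polar Q) W) :
    IsMaximalIn (omegaGL Q) (subspaceStabilizer W ⊓ omegaGL Q) := by
  refine isMaximalIn_stab_nd7 h hd h0 h1 hW (fun e => absurd e h2) ?_
  obtain ⟨a, ha⟩ := he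
  obtain ⟨b, hb⟩ := ho
  rintro ⟨-, U, b, -, c, rfl | ⟨-, e⟩⟩ <;> omega

theorem o_nd_even {W : Submodule F (ι → F)} (ho : Odd (Fintype.card ι)) (h0 : W ≠ ⊥)
    (he : Even (finrank F W)) (hW : IsNondegenerateOn (polar Q) W)
    (hq : Odd (Fintype.card F))
    (h2 : ¬ (Fintype.card F = 3 ∧ finrank F W = 2 ∧ IsPlusTypeOn Q W)) :
    IsMaximalIn (omegaGL Q) (subspaceStabilizer W ⊓ omegaGL Q) := by
  obtain ⟨a, ha⟩ := he
  obtain ⟨b, hb⟩ := ho
  obtain ⟨c, hc⟩ := hq
  have : 1 < Fintype.card F := Fintype.one_lt_card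
  refine isMaximalIn_stab_nd7 h hd h0 (fun e => ?_) hW (fun e => by omega) ?_
  · rw [e, finrank_top, fr_eq] at ha; omega
  rintro ⟨a, U, b, -, c, rfl | ⟨-, e⟩⟩
  · exact h2 ⟨by omega, b, c⟩
  · omega

theorem o_pair {k : ℕ} (hke : Even k) (h5 : 5 ≤ k) {D : Fin 2 → Submodule F (ι → F)}
    (hD : IsMDecomposition k D) (hts : ∀ i, IsTotallySingularQuad Q (D i)) :
    IsMaximalIn (omegaGL Q) (decompositionStabilizer D ⊓ omegaGL Q) := by
  obtain ⟨d⟩ := exists_dec hD.indep hD.iSup_eq_top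
  rw [← comap_dstab]
  refine isMaximalIn_omega ?_ fun M hM hG g hg hg' =>
    OM_le_of_pair h d hts hD.finrank_eq hke h5 hM hG hg hg'
  rw [comap_dstab]
  obtain ⟨u, hu, hu0⟩ := Submodule.exists_mem_ne_zero_of_ne_bot
    (ne_bot_of_finrank_pos (W := D 0) (by rw [hD.finrank_eq]; omega))
  obtain ⟨y, hy, hy1, hy2⟩ := exists_ker_list [pB Q u] (W := D 1)
    (S := ⊥) (by rw [hD.finrank_eq]; simp; omega)
  refine h.not_le_decStab_of (by omega) hD.iSup_eq_top (hts 0 u hu) hu0 (hts 1 y hy)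
    (by simpa using hy2) (hy1 _ (List.mem_singleton_self _)) fun i => ?_
  fin_cases i
  · exact Or.inl ((H9.mem_perp' _).2 fun w hw => pB_of_sing (hts 0) hw hu)
  · exact Or.inr ((H9.mem_perp' _).2 fun w hw => pB_of_sing (hts 1) hw hy)

theorem o_halves {k : ℕ} (h5 : 5 ≤ k) {D : Fin 2 → Submodule F (ι → F)}
    (hD : IsNondegenerateMDecomposition (polar Q) k D) :
    IsMaximalIn (omegaGL Q) (decompositionStabilizer D ⊓ omegaGL Q) := by
  obtain ⟨d⟩ := exists_dec hD.decomp.indep hD.decomp.iSup_eq_top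
  have o : Orth (pB Q) D := hD.orthogonal
  have hk := hD.decomp.finrank_eq
  have h0 : ∀ i, D i ≠ ⊥ := fun i => ne_bot_of_finrank_pos (by rw [hk]; omega)
  refine isMaximalIn_omega' (K := dstab D) (h.not_le_decStab hd hD) fun M hM hG g hg hg' => ?_
  have hG' := hG.trans OM_le
  have S : OD Q D M := ⟨h, by rw [fr_eq]; omega, o,
    fun g hg h => hM ⟨mem_dstab_of_stab h, hg⟩, hG'⟩
  refine OM_le_of_nd4 S d hG (i := 0) (j := 1) (by decide) (by rw [hk]; omega)
    (irrOK_of_ne (ndon_summand h d o 0) (by rw [hk]; omega)) (fun _ e => by rw [hk] at e; omega) hg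
    (fun h1 => hg' (mem_dstab_of_stab (stab_of_stab h d o (hG' hg) h1))) fun h1 => hg' ?_
  have h2 := map_eq_of_mapsTo h1 (by rw [hk, hk])
  refine d.mem_dstab_of (fun i j => by rw [hk, hk]) h0 fun i => ?_
  rcases fin2_cases (i := 0) (j := 1) (by decide) i with rfl | rfl
  · refine ⟨1, fun v hv => mem_of_orthO h d o fun l hl z hz => ?_⟩
    rw [(fin2_cases (i := 0) (j := 1) (by decide) l).resolve_right hl, ← h2] at hz
    obtain ⟨z, hz, rfl⟩ := hz
    exact (OG_pB (hG' hg) _ _).trans (o 0 1 (by decide) v hv z hz)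
  · exact ⟨0, h1⟩

theorem o_dec3 {t k : ℕ} {D : Fin t → Submodule F (ι → F)} (hD : IsOrthogonalMDecomposition Q k D)
    (h3 : 3 ≤ k) (ht : t ≠ 2) (hk3 : k = 3 → Odd (Fintype.card F) ∧ Fintype.card F ≠ 3)
    (hk4 : k = 4 → Fintype.card F = 2 → ¬ ∀ i, IsPlusTypeOn Q (D i)) :
    IsMaximalIn (omegaGL Q) (decompositionStabilizer D ⊓ omegaGL Q) :=
  isMaximalIn_dec_of h hd hD fun _ S d g hg hg' =>
    S.OM_le_dec3 hD h3 (fun e => absurd e ht) hk3 hk4 d g hg hg'

end Cfsg.Agent.H77
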