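import Cfsg.Agent.H27.SkHInst
import Cfsg.Agent.H27.SpDec
import Cfsg.Agent.H27.MonoSL3

/-! Matrix-level forms (all dimensions) of the reducible and imprimitive rows for `Sp`. -/

set_option autoImplicit false

namespace Cfsg.Agent.H77

open Cfsg Cfsg.Geo Cfsg.Agent.H27

variable {F : Type*} [Field F] [Fintype F]

omit [Fintype F] in
theorem c1_sp_ts {m : ℕ} (W : Submodule F (Fin m ⊕ Fin m → F)) (hW0 : W ≠ ⊥)
    (hW : IsTotallySingularFor (Cfsg.sympForm m F) W) :
    IsMaximalIn (Cfsg.spGL m F) (subspaceStabilizer W ⊓ Cfsg.spGL m F) := by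
  have := isMaximalIn_comap (toLE (Fin m ⊕ Fin m) F)
    (skH_symp.isMaximalIn_stab_ti hW0 fun x hx y hy => by
      rw [sympBilin_apply]; exact hW x hx y hy)
  rwa [Subgroup.comap_inf, comap_GG_symp, comap_stab] at this

omit [Fintype F] in
theorem c1_sp_nd {m : ℕ} (W : Submodule F (Fin m ⊕ Fin m → F)) (hW0 : W ≠ ⊥)
    (hW : IsNondegenerateOn (Cfsg.sympForm m F) W) (hdim : Module.finrank F W < m) :
    IsMaximalIn (Cfsg.spGL m F) (subspaceStabilizer W ⊓ Cfsg.spGL m F) := by
  have := isMaximalIn_comap (toLE (Fin m ⊕ Fin m) F)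
    (isMaximalIn_stab_alt (B := sympBilin m F)
      sympBilin_isAlt sympBilin_nondegenerate.1 hW0 (fun x hx h => by
        by_contra h0
        obtain ⟨y, hy, hy'⟩ := (hW x hx h0).2
        exact hy' (by rw [← sympBilin_apply]; exact h y hy)) (by simp; omega))
  rwa [Subgroup.comap_inf, comap_GG_symp, comap_stab] at this

theorem c2_sp_nd {m t : ℕ} (k : ℕ) (hex : ¬ (k = 2 ∧ Fintype.card F = 2))
    (D : Fin t → Submodule F (Fin m ⊕ Fin m → F))
    (hD : IsNondegenerateMDecomposition (Cfsg.sympForm m F) k D) :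
    IsMaximalIn (Cfsg.spGL m F) (decompositionStabilizer D ⊓ Cfsg.spGL m F) := by
  classical
  obtain ⟨d⟩ := exists_dec hD.decomp.indep hD.decomp.iSup_eq_top
  have : Nontrivial (Fin t) := Fin.nontrivial_iff_two_le.2 hD.decomp.two_le
  have := isMaximalIn_comap (toLE (Fin m ⊕ Fin m) F)
    (isMaximalIn_dstab_alt (B := sympBilin m F)
      sympBilin_isAlt sympBilin_nondegenerate.1 d
      (fun i j hij x hx y hy => by
        rw [sympBilin_apply]; exact hD.orthogonal i j hij x hx y hy)
      hD.decomp.pos hD.decomp.finrank_eq fun hk => by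
        have h1 : 1 < Fintype.card F := Fintype.one_lt_card
        obtain ⟨c, hc⟩ := exists_not_mem_list [(0 : F), -1] (by
          have : Fintype.card F ≠ 2 := fun h => hex ⟨hk, h⟩
          simp only [List.length_cons, List.length_nil]; omega)
        exact ⟨c, by simpa using hc⟩)
  rwa [Subgroup.comap_inf, comap_GG_symp, comap_dstab] at this

end Cfsg.Agent.H77
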