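import Cfsg.Agent.H77.SubCore

/-! Overgroups of subfield subgroups in isometry groups: the main arguments. -/

set_option autoImplicit false
set_option linter.unusedSectionVars false

namespace Cfsg.Agent.H77

open Module Cfsg.Agent.H27

variable {F V : Type*} [Field F] [AddCommGroup V] [Module F V] [FiniteDimensional F V]
  {σ : F →+* F} {B : V →ₛₗ[σ] V →ₗ[F] F} {c : F} {H : Subgroup (V ≃ₗ[F] V)}
  {K : Subfield F} {W : Type*} [AddCommGroup W] [Module K W] [FiniteDimensional K W]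
  {j : W →ₗ[K] V} {σ₀ : K →+* K} {B₀ : W →ₛₗ[σ₀] W →ₗ[K] K} {S : W → Prop}

/-- The Eichler transformations in `H` with rational centre are rational. -/
def RatS (H : Subgroup (V ≃ₗ[F] V)) (B : V →ₛₗ[σ] V →ₗ[F] F) (c : F) (j : W →ₗ[K] V)
    (B₀ : W →ₛₗ[σ₀] W →ₗ[K] K) (S : W → Prop) : Prop :=
  ∀ u, S u → u ≠ 0 → ∀ x, Su H B c (j u) x → ∀ a, B₀ u a = 0 → B (j a) x ∈ K

/-- All Eichler transformations with rational centre occur in `H`. -/
def FullS (H : Subgroup (V ≃ₗ[F] V)) (B : V →ₛₗ[σ] V →ₗ[F] F) (c : F) (j : W →ₗ[K] V)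
    (S : W → Prop) : Prop :=
  ∀ u, S u → ∀ x, B (j u) x = 0 → Su H B c (j u) x

namespace EC

variable (E : EC H B c j B₀ S)
include E

theorem nr_of_rat {g : V ≃ₗ[F] V} (h : ∀ v, S v → v ≠ 0 → Rat j (g (j v))) : NR j g :=
  E.rs.nr_of_rat E.solv E.rf₀ (by norm_num) E.dim E.add E.self fun v hv => by
    by_cases h0 : v = 0
    · exact ⟨0, 0, by simp [h0]⟩
    · exact h v hv h0

theorem rat_of_ratio {w : V} (h : ∀ x y, S x → S y → B₀ x y = 0 → y ∉ sp K [x] → B w (j x) ≠ 0 →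
    B w (j y) ≠ 0 → B w (j y) / B w (j x) ∈ K) : Rat j w := by
  obtain ⟨d, hd, h1⟩ := RS.rat_dual (j := j) E.solv E.rf₀ (by norm_num) E.dim E.add E.self
    (φ := B w) fun x y hx hy hxy h1 => by
      by_cases h2 : B w (j y) = 0
      · rw [h2, zero_div]; exact K.zero_mem
      by_cases h3 : y ∈ sp K [x]
      · obtain ⟨d, rfl⟩ := mem_sp_one.mp h3
        rw [dual_j_smul, mul_div_cancel_right₀ _ h1]; exact d.2
      exact h x y hx hy hxy h3 h1 h2
  exact E.rs.rat_of_dual E.rf E.rf₀ one_ne_zero (by simpa using E.hB) hd h1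

/-- The argument with transvections. -/
theorem nr_of_tv [Finite F] (hA : RatS H B c j B₀ S) {t₀ : F} (ht : t₀ ≠ 0)
    (hT : ∀ u, S u → T1 H (j u) (t₀ • B (j u))) {g : V ≃ₗ[F] V} (hg : g ∈ H) : NR j g := by
  refine E.nr_of_rat fun v hv _ => E.rat_of_ratio fun u u' hu hu' huu hn h1 h2 => ?_
  have hTw := t1_map hg (E.iso g hg) (hT v hv)
  have hw : B (g (j v)) (g (j v)) = 0 := by rw [E.iso g hg, E.sf hv]
  set w := g (j v)
  have hu0 : u ≠ 0 := by rintro rfl; simp at h1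
  have hu0' : u' ≠ 0 := by rintro rfl; simp at h2
  obtain ⟨k₁, hk₁, f₁, ε, hε, e₁⟩ := T1.exists_conj (hT u hu) hTw (by simp [E.sf hu])
    (by simp [hw]) (by simp [ht, E.rf.refl_ne h1]) (by simp [ht, h1])
  obtain ⟨k₂, hk₂, f₂, ε', hε', e₂⟩ := T1.exists_conj (hT u' hu') hTw (by simp [E.sf hu'])
    (by simp [hw]) (by simp [ht, E.rf.refl_ne h2]) (by simp [ht, h2])
  set k := k₂⁻¹ * k₁ with hk
  have hkH : k ∈ H := H.mul_mem (H.inv_mem hk₂) hk₁
  have ku : k (j u) = (ε / ε') • j u' := by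
    apply k₂.injective
    rw [hk, le_mul_apply, le_apply_inv, e₁, map_smul, e₂, smul_smul, div_mul_cancel₀ _ hε']
  have hμ : ε / ε' ≠ 0 := div_ne_zero hε hε'
  set μ := ε / ε'
  have key : ∀ x, S x → B₀ u x = 0 → B₀ u' x = 0 → ∀ a, B₀ u' a = 0 →
      σ μ * (B (j a) (j x) - B w (j x) / B w (j u) * B (j a) (j u)) ∈ K := by
    intro x hx a1 a2 a ha
    have h3 := (E.su_rat hu hx a1).map hkH (E.iso k hkH)
    rw [ku] at h3
    have h4 := hA u' hu' hu0' _ (h3.of_smul E.rf hμ) a ha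
    have h5 : k (j x - (B w (j x) / B w (j u)) • j u) = j x - (B w (j x) / B w (j u)) • j u := by
      apply k₂.injective
      rw [hk, le_mul_apply, le_apply_inv, f₁ _ (by simp [E.z a1, E.sf hu]) (by simp [h1]),
        f₂ _ (by simp [E.z a2, E.z' huu]) (by simp [h1])]
    rw [map_sub, map_smul, ku, sub_eq_iff_eq_add] at h5
    simpa [h5, E.z' ha] using h4
  obtain ⟨x, hx, a1, a2⟩ := E.zero [u, u'] [u, u'] (by simp) (by simp)
  obtain ⟨a, -, a3, a4⟩ := E.one' a2 (by simp)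
  have h5 := key x hx (a1 u (by simp)) (a1 u' (by simp)) a (a3 u' (by simp))
  rw [E.o a4, E.z' (a3 u (by simp)), mul_zero, sub_zero, mul_one] at h5
  obtain ⟨b, -, b3, b4⟩ := E.one' (not_mem_sp_one_symm hn hu0) (by simp)
  have h6 := key u' hu' huu (E.self u' hu') b (b3 u' (by simp))
  rw [E.o b4, E.z' (b3 u' (by simp)), mul_one, zero_sub] at h6
  have h7 := K.neg_mem (K.div_mem h6 h5)
  rwa [mul_div_cancel_left₀ _ ((map_ne_zero σ).mpr hμ), neg_neg] at h7

theorem perp_sp {l : List W} {y : W} (hy : ∀ w ∈ l, B₀ w y = 0) {w : V}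
    (hw : w ∈ sp F (l.map j)) : B w (j y) = 0 :=
  E.rf.refl _ _ (map_eq_zero_of_mem_sp (B (j y)) (fun x hx => by
    obtain ⟨x, hx', rfl⟩ := List.mem_map.mp hx
    exact E.z' (hy x hx')) hw)

/-- The argument for extensions of degree two. -/
theorem nr_of_deg_two (hA : RatS H B c j B₀ S) (hn : 3 < finrank F V)
    (hd : ∀ w, ∃ x y, w ∈ sp F [j x, j y]) {g : V ≃ₗ[F] V} (hg : g ∈ H) : NR j g := by
  refine E.nr_of_rat fun v hv hv0 => ?_
  obtain ⟨w₁, w₂, hw⟩ := hd (g (j v))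
  obtain ⟨p, hp, hp'⟩ := exists_perp_not_mem B [j w₁, j w₂] [g (j v)] (by simpa using hn)
  obtain ⟨v', hv', h1, h2⟩ := E.exists_perp_ne (l := [v]) (by simp) (p := g⁻¹ p) fun hm => by
    obtain ⟨d, hd⟩ := mem_sp_one.mp hm
    exact hp' (mem_sp_one.mpr ⟨d, by rw [← map_smul, ← hd, le_apply_inv]⟩)
  rw [← E.iso g hg, le_apply_inv] at h2
  have hE := has_Ef_conj hg (E.iso g hg) (E.sieg v v' hv hv' (h1 v (by simp)))
  have hz := not_mem_sp_of (B p) (fun x hx => E.rf.refl _ _ (hp x hx)) h2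
  set w := g (j v)
  set z := g (j v')
  obtain ⟨z₁, z₂, hz'⟩ := hd z
  obtain ⟨y, hy, h3, h4⟩ := E.zero [w₁, w₂, z₁, z₂] [w₁, w₂, z₁, z₂] (by simp) (by simp)
  have hy0 : y ≠ 0 := by rintro rfl; exact h4 (Submodule.zero_mem _)
  obtain ⟨x, hx, h5, h6⟩ := E.exists_perp_ne (l := [y, w₁, w₂]) (by simp) (p := z)
    (not_mem_sp_exchange (fun hm => E.rs.not_mem h4 (sp_le (fun t ht => by
      simp only [List.map_cons, List.map_nil, List.mem_cons, List.not_mem_nil, or_false] at ht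
      rcases ht with rfl | rfl | rfl
      · exact sp_mono (by simp) hz'
      · exact mem_sp (by simp)
      · exact mem_sp (by simp)) hm)) hz)
  have h7 := (E.su_rat hy hx (h5 y (by simp))).act E.rf E.iso (E.sf hy) hE
    (E.perp_sp (l := [w₁, w₂]) (fun t ht => h3 t (by
      simp only [List.mem_cons, List.not_mem_nil, or_false] at ht ⊢; tauto)) hw)
    (E.perp_sp (l := [z₁, z₂]) (fun t ht => h3 t (by
      simp only [List.mem_cons, List.not_mem_nil, or_false] at ht ⊢; tauto)) hz')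
  rw [E.perp_sp (l := [w₁, w₂]) (fun t ht => h5 t (by simp [ht])) hw, zero_smul, zero_add,
    mul_zero, add_zero] at h7
  have hl : c * B z (j x) ≠ 0 := mul_ne_zero E.c_ne h6
  set lam := c * B z (j x)
  obtain ⟨e, h8, h9⟩ := E.rf₀.exists_perp (l := [w₁, w₂]) (a := y)
    (fun hm => h4 (sp_mono (by simp) hm)) 1
  obtain ⟨d, t, ht⟩ := E.rs.rat_of_dual E.rf E.rf₀ one_ne_zero (by simpa using E.hB) one_ne_zero
    (w := lam • w) fun t => by
      have := hA y hy hy0 _ h7 (t - B₀ y t • e) (by simp [h9])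
      have h10 := K.mul_mem (K.neg_mem E.c_mem) (E.sig_mem this)
      rw [← E.sym, map_sub, map_sub, dual_j_smul,
        E.perp_sp (l := [w₁, w₂]) h8 (Submodule.smul_mem _ _ hw)] at h10
      simpa using h10
  exact ⟨lam⁻¹ * d, t, by rw [mul_smul, ← ht, smul_smul, inv_mul_cancel₀ hl, one_smul]⟩

/-- Centres of Eichler transformations on a rational line are rational. -/
theorem line_rat (hA : RatS H B c j B₀ S) {a b : W} (ha : S a) (hb : S b) (hab : B₀ a b = 0)
    (ha0 : a ≠ 0) (hn : b ∉ sp K [a]) {α β δ : F} {y : V}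
    (hE : Has H (Ef B c (α • j a + β • j b) y δ)) (h1 : B y (j a) = 0) (h2 : B y (j b) = 0)
    (hy : y ∉ sp F [j a, j b]) : α / β ∈ K := by
  obtain ⟨z, hz, h3, h4⟩ := E.exists_perp_ne (l := [a, b]) (by simp) hy
  have hb0 : b ≠ 0 := by rintro rfl; exact hn (Submodule.zero_mem _)
  have h5 : B (α • j a + β • j b) (j z) = 0 := by
    simp [E.z (h3 a (by simp)), E.z (h3 b (by simp))]
  have h6 := (E.su_rat ha hz (h3 a (by simp))).act E.rf E.iso (E.sf ha) hE
    (by simp [E.sf ha, E.z' hab]) h1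
  have h7 := (E.su_rat hb hz (h3 b (by simp))).act E.rf E.iso (E.sf hb) hE
    (by simp [E.sf hb, E.z hab]) h2
  rw [h5, zero_smul, zero_add, mul_zero, add_zero] at h6 h7
  obtain ⟨e, -, e1, e2⟩ := E.one' hn (by simp)
  obtain ⟨f, -, f1, f2⟩ := E.one' (not_mem_sp_one_symm hn ha0) (by simp)
  have h8 := hA a ha ha0 _ h6 e (e1 a (by simp))
  have h9 := hA b hb hb0 _ h7 f (f1 b (by simp))
  simp only [map_smul, map_add, E.o e2, E.o f2, E.z' (e1 a (by simp)), E.z' (f1 b (by simp)),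
    smul_eq_mul, mul_zero, mul_one, zero_add, add_zero] at h8 h9
  have := K.div_mem h9 h8
  rwa [mul_div_mul_left _ _ (mul_ne_zero E.c_ne h4)] at this

theorem exists_move (hF : FullS H B c j S) {v : V} (hv : v ≠ 0) :
    ∃ u, S u ∧ B (j u) v ≠ 0 ∧ ∃ v₀, S v₀ ∧ v₀ ≠ 0 ∧ ∃ μ : F, μ ≠ 0 ∧ ∃ k ∈ H, ∃ τ : F,
      k (μ • j v₀) = v + τ • j u := by
  obtain ⟨u, hu, -, h1⟩ := E.exists_perp_ne (l := []) (by simp) (p := v)
    (by rwa [List.map_nil, mem_sp_nil])
  have h2 := E.rf.refl_ne h1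
  obtain ⟨v₀, hv₀, -, h3⟩ := E.solv.one E.rf₀ (l := []) (a := u)
    (by rw [mem_sp_nil]; rintro rfl; simp at h1) 1 (by simp)
  obtain ⟨-, δ, k, hk, hkf⟩ := hF u hu ((B (j u) v)⁻¹ • v - j v₀) (by simp [h2, E.o h3])
  refine ⟨u, hu, h2, v₀, hv₀, by rintro rfl; simp at h3, _, h2, k, hk,
    c * B ((B (j u) v)⁻¹ • v - j v₀) (B (j u) v • j v₀) + δ * B (j u) v, ?_⟩
  rw [hkf, Ef, map_smul (B (j u)), E.o h3, smul_eq_mul, mul_one, smul_sub, smul_smul,
    mul_inv_cancel₀ h2, one_smul, add_sub_cancel]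

theorem tv_of_full (hF : FullS H B c j S) (β : F) {u : W} (hu : S u) :
    T1 H (j u) ((c * β + σ β) • B (j u)) := by
  obtain ⟨b, -, h1, h2⟩ := E.zero [u] [u] (by simp) (by simp)
  obtain ⟨a, -, h3, h4⟩ := E.one' h2 (by simp)
  obtain ⟨hx, δ, e1⟩ := hF u hu (j a) (E.z (h3 u (by simp)))
  obtain ⟨hy, δ', e2⟩ := hF u hu (β • j b) (by simp [E.z (h1 u (by simp))])
  have e3 := has_Ef_comp E.rf (E.sf hu) hy hx e2 e1
  rw [add_comm (β • j b)] at e3
  have := has_Ef_diff E.rf (E.sf hu) (by simp [hx, hy]) (has_Ef_comp E.rf (E.sf hu) hx hy e1 e2) e3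
  convert this using 2
  rw [E.sym (j a), map_smul, E.o h4]
  rcases E.cc with rfl | rfl <;> simp <;> ring

theorem all_tv (hF : FullS H B c j S) {t₀ : F} (hT : ∀ u, S u → T1 H (j u) (t₀ • B (j u)))
    (hN : ∀ A : AddSubgroup F, (∀ γ, σ γ * γ * t₀ ∈ A) → ∀ t, σ t = c * t → t ∈ A)
    {v : V} (hv : B v v = 0) {t : F} (ht : σ t = c * t) : T1 H v (t • B v) := by
  have step : ∀ u, S u → u ≠ 0 → ∀ t, σ t = c * t → T1 H (j u) (t • B (j u)) := by
    intro u hu hu0
    refine hN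
      { carrier := {t | T1 H (j u) (t • B (j u))}
        zero_mem' := by simpa using t1_zero_right (j u)
        add_mem' := fun {a b} ha hb => by
          rw [Set.mem_setOf_eq, add_smul]; exact T1.add_right ha hb (by simp [E.sf hu])
        neg_mem' := fun {a} ha => by
          rw [Set.mem_setOf_eq, show (-a) • B (j u) = -(a • B (j u)) from neg_smul a (B (j u))]
          exact T1.neg_right ha (by simp [E.sf hu]) } fun γ => ?_
    show T1 H (j u) ((σ γ * γ * t₀) • B (j u))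
    rcases eq_or_ne γ 0 with rfl | hγ
    · simpa using t1_zero_right (j u)
    obtain ⟨b, hb, h1, h2⟩ := E.zero [u] [u] (by simp) (by simp)
    obtain ⟨a, -, h3, h4⟩ := E.one' h2 (by simp)
    obtain ⟨a', -, h5, h6⟩ := E.one' (not_mem_sp_one_symm h2 hu0) (by simp)
    obtain ⟨-, δ, k, hk, hkf⟩ := hF u hu (σ (c⁻¹ * γ) • j a) (by simp [E.z (h3 u (by simp))])
    obtain ⟨-, δ', k', hk', hkf'⟩ := hF b hb (σ (-(c * γ)⁻¹) • j a')
      (by simp [E.z (h5 b (by simp))])
    have h7 := t1_map hk' (E.iso k' hk') (t1_map hk (E.iso k hk) (hT b hb))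
    have h8 : k' (k (j b)) = γ • j u := by
      rw [hkf', hkf, Ef, Ef, ← E.rf.smul_eq, ← E.rf.smul_eq]
      simp only [map_add, map_smul, LinearMap.smul_apply, E.z (h1 u (by simp)), E.o h4, E.o h6,
        E.z' (h1 u (by simp)), E.sf hb, E.z' (h5 b (by simp)), smul_eq_mul]
      have := E.c_ne
      match_scalars <;> field_simp <;> ring
    rw [h8, t1_smul, map_smulₛₗ, smul_smul, smul_smul] at h7
    convert h7 using 2
    ring
  rcases eq_or_ne v 0 with rfl | hv0
  · exact t1_zero_left _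
  obtain ⟨u, hu, h1, v₀, hv₀, h2, μ, hμ, k, hk, τ, h3⟩ := E.exists_move hF hv0
  have hu0 : u ≠ 0 := by rintro rfl; simp at h1
  have h4 : T1 H (μ • j v₀) (t • B (μ • j v₀)) := by
    rw [t1_smul, map_smulₛₗ, smul_smul, smul_smul]
    exact step v₀ hv₀ h2 _ (by rw [map_mul, map_mul, ht, E.rf.inv]; ring)
  have h5 := E.iso k hk (μ • j v₀) (μ • j v₀)
  rw [h3] at h5
  simp only [map_add, map_smulₛₗ, LinearMap.add_apply, LinearMap.smul_apply, hv, E.sf hu,
    E.sf hv₀, E.sym (j u) v, smul_eq_mul, RingHom.id_apply] at h5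
  obtain ⟨s, hs, hsf⟩ := (step u hu hu0 (-τ / B (j u) v) (by
    have := (map_ne_zero σ).mpr h1
    rw [map_div₀, map_neg]
    field_simp
    linear_combination -h5)).exists
  have h6 := t1_map hs (E.iso s hs) (t1_map hk (E.iso k hk) h4)
  rwa [h3, show s (v + τ • j u) = v by
    rw [hsf]
    simp only [LinearMap.smul_apply, map_add, map_smul, E.sf hu, smul_eq_mul]
    match_scalars <;> field_simp <;> ring] at h6

end EC

section Orth

variable {B : V →ₗ[F] V →ₗ[F] F}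

/-- The argument with Siegel transformations. -/
theorem EC.nr_of_sieg [Finite F] (E : EC H B (-1) j B₀ S) (hA : RatS H B (-1) j B₀ S)
    {g : V ≃ₗ[F] V} (hg : g ∈ H) : NR j g := by
  haveI : Finite V := Module.finite_of_finite F
  have hs : ∀ x y, B y x = B x y := fun x y => by simpa using E.sym x y
  refine E.nr_of_rat fun v hv hv0 => E.rat_of_ratio fun a b ha hb hab hn h1 h2 => ?_
  have ha0 : a ≠ 0 := by rintro rfl; simp at h1
  have hww : B (g (j v)) (g (j v)) = 0 := by rw [E.iso g hg, E.sf hv]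
  have haa := E.sf ha
  have hbb := E.sf hb
  have hab' := E.z hab
  have hba := E.z' hab
  set w := g (j v) with hw
  set p := B w (j b) • j a - B w (j a) • j b with hp
  have hp0 : p ≠ 0 := fun h0 => E.rs.not_mem hn (mem_sp_one.mpr ⟨B w (j b) / B w (j a), by
    rw [← smul_right_inj h1, smul_smul, mul_div_cancel₀ _ h1, eq_comm, ← sub_eq_zero]
    exact h0⟩)
  have hap : B (j a) p = 0 := by simp [hp, haa, hab']
  have hbp : B (j b) p = 0 := by simp [hp, hbb, hba]
  have hwp : B w p = 0 := by simp [hp, mul_comm]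
  obtain ⟨v', hv', h3, h4⟩ := E.exists_perp_ne (l := [v]) (by simp) (p := g⁻¹ p) fun hm => by
    obtain ⟨d, hd⟩ := mem_sp_one.mp hm
    have h3 : p = d • w := by rw [hw, ← map_smul, ← hd, le_apply_inv]
    rw [h3, map_smul, smul_eq_zero] at hap
    exact hp0 (by rw [h3, hap.resolve_right (by rwa [hs]), zero_smul])
  rw [← E.iso g hg, le_apply_inv, hs] at h4
  have hvv : B₀ v v' = 0 := h3 v (by simp)
  obtain ⟨s, hsH, hsf⟩ := E.sieg a b ha hb hab
  obtain ⟨t, htH, htf⟩ := has_Ef_conj hg (E.iso g hg) (E.sieg v v' hv hv' hvv)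
  have h5 : B w (g (j v')) = 0 := by rw [hw, E.iso g hg, E.z hvv]
  have h6 : B (g (j v')) (g (j v')) = 0 := by rw [E.iso g hg, E.sf hv']
  obtain ⟨x, hx, h7, h8⟩ := E.zero [v, v'] [v, v'] (by simp) (by simp)
  have hE := has_Ef_conj hg (E.iso g hg) (E.sieg v x hv hx (h7 v (by simp)))
  have h9 : B w (g (j x)) = 0 := by rw [hw, E.iso g hg, E.z (h7 v (by simp))]
  have h10 : B (g (j v')) (g (j x)) = 0 := by rw [E.iso g hg, E.z (h7 v' (by simp))]
  have h11 : g (j x) ∉ sp F [w, g (j v')] := fun hm => by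
    obtain ⟨d, e, hd⟩ := mem_sp_two.mp hm
    exact E.rs.not_mem h8 (mem_sp_two.mpr ⟨d, e, g.injective (by
      rw [hd, map_add, map_smul, map_smul])⟩)
  rw [← hw] at htf hE
  set w' := g (j v')
  set y := g (j x)
  set p' := B w' (j b) • j a - B w' (j a) • j b with hp'
  have hwp' : B w p' = -B w' p := by simp [hp, hp']; ring
  have h5' : B w' w = 0 := by rw [hs, h5]
  have sp_ : s p = p := by rw [hsf, Ef_fix _ hap hbp]
  have sw : s w = w - p := by rw [hsf, Ef, hs w, hs w, hp]; module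
  have sp' : s p' = p' := by rw [hsf, Ef_fix] <;> simp [hp', haa, hab', hbb, hba]
  have sw' : s w' = w' - p' := by rw [hsf, Ef, hs w', hs w', hp']; module
  have tw : t w = w := by rw [htf, Ef_fix _ hww h5']
  have tw' : t w' = w' := by rw [htf, Ef_fix _ h5 h6]
  have tp : t p = p - B w' p • w := by rw [htf, Ef, hwp]; module
  have tp' : t p' = p' + B w p' • w' := by
    rw [htf, Ef, show B w' p' = 0 by simp [hp', mul_comm]]; module
  have st : ∀ (r : V ≃ₗ[F] V) (u z : V), r u ∈ sp F [u, z] → r z ∈ sp F [u, z] →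
      r ∈ stab (sp F [u, z]) := fun r u z e1 e2 => mem_stab_of_mapsTo fun x hx => by
    obtain ⟨d, e, rfl⟩ := mem_sp_two.mp hx
    rw [map_add, map_smul, map_smul]
    exact Submodule.add_mem _ (Submodule.smul_mem _ _ e1) (Submodule.smul_mem _ _ e2)
  have m1 : ∀ u z : V, u ∈ sp F [u, z] := fun u z => mem_sp (by simp)
  have m2 : ∀ u z : V, z ∈ sp F [u, z] := fun u z => mem_sp (by simp)
  have hw0 : w ≠ 0 := by rintro h0; simp [h0] at h1
  obtain ⟨h, hh, ε, hε, e1⟩ := exists_conj_point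
    (L := H ⊓ stab (sp F [p, w]) ⊓ stab (sp F [p', w'])) (s := s) (t := t) (u := p) (w := w)
    ⟨⟨hsH, st _ _ _ (by rw [sp_]; exact m1 _ _) (by
      rw [sw]; exact Submodule.sub_mem _ (m2 _ _) (m1 _ _))⟩, st _ _ _ (by rw [sp']; exact m1 _ _)
      (by rw [sw']; exact Submodule.sub_mem _ (m2 _ _) (m1 _ _))⟩
    ⟨⟨htH, st _ _ _ (by
      rw [tp]; exact Submodule.sub_mem _ (m1 _ _) (Submodule.smul_mem _ _ (m2 _ _)))
      (by rw [tw]; exact m2 _ _)⟩, st _ _ _ (by
      rw [tp']; exact Submodule.add_mem _ (m1 _ _) (Submodule.smul_mem _ _ (m2 _ _)))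
      (by rw [tw']; exact m2 _ _)⟩
    (fun x => by
      rw [hsf x, Ef, add_assoc, add_sub_cancel_left, hsf, Ef_fix] <;> simp [haa, hab', hbb, hba])
    (fun x => by
      rw [htf x, Ef, add_assoc, add_sub_cancel_left, htf, Ef_fix] <;> simp [hww, h5, h5', h6])
    hp0 sp_
    (fun h hh h3 => by
      obtain ⟨d, e, hd⟩ := mem_sp_two.mp (stab_apply hh.1.2 (m1 p w))
      refine mem_sp_of_shear (φ := -(B w (j a))⁻¹ • B (j a)) (w := w) hp0 (by simp [hap])
        (by simp [hs w, h1]) (stab_apply hh.1.2 (m1 p w)) ?_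
      convert h3 using 1
      simp only [hd, map_add, map_smul, sp_, sw, LinearMap.smul_apply, hap, hs w, smul_eq_mul]
      match_scalars <;> field_simp <;> ring)
    (fun h hh h3 => by
      obtain ⟨d, e, hd⟩ := mem_sp_two.mp (stab_apply hh.1.2 (m1 p w))
      refine mem_sp_of_shear (φ := -B w') (w := p) hw0 (by simp [h5'])
        (by simp [h4]) (sp_mono (l := [p, w]) (by simp) (stab_apply hh.1.2 (m1 p w))) ?_
      convert h3 using 1
      simp only [hd, map_add, map_smul, tp, tw, LinearMap.neg_apply, h5', smul_eq_mul]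
      module)
  have hH : h ∈ H := hh.1.1
  obtain ⟨d, e, e2⟩ := mem_sp_two.mp (stab_apply hh.2 (m1 p' w'))
  have hd : d = 0 := by
    have h12 := E.iso h hH p p'
    rw [e1, e2] at h12
    simp only [map_add, map_smul, LinearMap.smul_apply, h5, hwp', smul_eq_mul] at h12
    rw [show B p p' = 0 by simp [hp, hp', haa, hab', hbb, hba]] at h12
    simpa [hε, h4] using h12
  rw [hd, zero_smul, zero_add] at e2
  have hD : B w p' ≠ 0 := by rw [hwp']; exact neg_ne_zero.mpr h4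
  have hl : ∀ z ∈ sp F [j a, j b], h z ∈ sp F [w, w'] := by
    have q1 : j a = (B w p')⁻¹ • (B w (j a) • p' - B w' (j a) • p) := by
      rw [eq_inv_smul_iff₀ hD]
      simp only [hp, hp', map_sub, map_smul, smul_eq_mul]
      module
    have q2 : j b = (B w p')⁻¹ • (B w (j b) • p' - B w' (j b) • p) := by
      rw [eq_inv_smul_iff₀ hD]
      simp only [hp, hp', map_sub, map_smul, smul_eq_mul]
      module
    have q3 : ∀ α β γ : F, h (α • (β • p' - γ • p)) ∈ sp F [w, w'] := fun α β γ =>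
      mem_sp_two.mpr ⟨-(α * γ * ε), α * β * e, by
        rw [map_smul, map_sub, map_smul, map_smul, e1, e2]; module⟩
    intro z hz
    obtain ⟨d, e, rfl⟩ := mem_sp_two.mp hz
    rw [map_add, map_smul, map_smul]
    exact Submodule.add_mem _ (Submodule.smul_mem _ _ (by rw [q1]; exact q3 _ _ _))
      (Submodule.smul_mem _ _ (by rw [q2]; exact q3 _ _ _))
  have hy : ∀ z ∈ sp F [j a, j b], B (h⁻¹ y) z = 0 := fun z hz => by
    rw [← E.iso h hH, le_apply_inv]
    exact map_eq_zero_of_mem_sp (B y) (by simp [E.rf.refl _ _ h9, E.rf.refl _ _ h10]) (hl z hz)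
  have hE' := has_Ef_conj (H.inv_mem hH) (E.iso _ (H.inv_mem hH)) hE
  rw [show h⁻¹ w = (B w (j b) / ε) • j a + (-B w (j a) / ε) • j b by
    apply h.injective
    rw [le_apply_inv, ← smul_right_inj hε, ← e1, ← map_smul, hp]
    congr 1
    match_scalars <;> field_simp] at hE'
  have := K.neg_mem (E.line_rat hA ha hb hab ha0 hn hE' (hy _ (m1 _ _)) (hy _ (m2 _ _))
    fun hm => h11 (by simpa [le_apply_inv] using hl _ hm))
  convert this using 1
  field_simp

open QuadraticMap in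
theorem EC.all_su {Q : QuadraticForm F V} (E : EC H (polarBilin Q) (-1) j B₀ S)
    (hF : FullS H (polarBilin Q) (-1) j S) (hQ : ∀ g ∈ H, ∀ x, Q (g x) = Q x)
    (hS : ∀ x, S x → Q (j x) = 0) {v x : V} (hv : Q v = 0) (hv0 : v ≠ 0)
    (hx : polarBilin Q v x = 0) : Has H (Ef (polarBilin Q) (-1) v x (-Q x)) := by
  obtain ⟨u, hu, h1, v₀, hv₀, h2, μ, hμ, k, hk, τ, h3⟩ := E.exists_move hF hv0
  have h4 := hQ k hk (μ • j v₀)
  rw [h3, quad_add_smul, quad_smul, hv, hS u hu, hS v₀ hv₀, polar_comm] at h4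
  have hτ : τ = 0 := by simpa [show polar Q (j u) v ≠ 0 from h1] using h4
  rw [hτ, zero_smul, add_zero] at h3
  have h5 : Su H (polarBilin Q) (-1) (μ • j v₀) (k⁻¹ x) := by
    have h6 : polarBilin Q (μ • j v₀) (k⁻¹ x) = 0 := by rw [← E.iso k hk, le_apply_inv, h3, hx]
    have h7 := hF v₀ hv₀ (μ • k⁻¹ x) (by simpa using h6)
    have h8 := Su.of_smul E.rf (inv_ne_zero hμ) (H := H) (c := -1) (u := μ • j v₀) (x := μ • k⁻¹ x)
      (by rwa [smul_smul, inv_mul_cancel₀ hμ, one_smul])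
    rwa [RingHom.id_apply, smul_smul, inv_mul_cancel₀ hμ, one_smul] at h8
  obtain ⟨-, δ, s, hs, hsf⟩ := h5.map hk (E.iso k hk)
  rw [h3, le_apply_inv] at hsf
  obtain ⟨t, -, ht⟩ := E.rf.exists_perp (l := []) (a := v) (by rwa [mem_sp_nil]) 1
  have h6 := hQ s hs t
  have ht' : polar Q t v = 1 := by rwa [polar_comm]
  have hx' : polar Q x v = 0 := by rwa [polar_comm]
  rw [hsf, Ef, ht, quad_add_smul, one_smul, quad_add, polar_add_left, hv, ht', hx',
    polarBilin_apply_apply, polar_comm Q x t] at h6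
  exact ⟨s, hs, by rwa [show -Q x = δ by linear_combination -h6]⟩

end Orth

end Cfsg.Agent.H77
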