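import Cfsg.Agent.H77.SubSL

/-! Overgroups of subfield subgroups in isometry groups: Eichler transformations. -/

set_option autoImplicit false
set_option linter.unusedSectionVars false

namespace Cfsg.Agent.H77

open Module Cfsg.Agent.H27

variable {F V : Type*} [Field F] [AddCommGroup V] [Module F V] [FiniteDimensional F V]
  {σ : F →+* F} {B : V →ₛₗ[σ] V →ₗ[F] F} {c : F} {H : Subgroup (V ≃ₗ[F] V)}

/-- The Eichler transformation. -/
def Ef (B : V →ₛₗ[σ] V →ₗ[F] F) (c : F) (u x : V) (δ : F) (t : V) : V :=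
  t + B u t • x + (c * B x t + δ * B u t) • u

/-- `H` contains an Eichler transformation for the pair `u, x`. -/
def Su (H : Subgroup (V ≃ₗ[F] V)) (B : V →ₛₗ[σ] V →ₗ[F] F) (c : F) (u x : V) : Prop :=
  B u x = 0 ∧ ∃ δ, Has H (Ef B c u x δ)

theorem Ef_comp (h : RF B) {u x y : V} (hu : B u u = 0) (hx : B u x = 0) (hy : B u y = 0)
    (δ δ' : F) (t : V) :
    Ef B c u x δ (Ef B c u y δ' t) = Ef B c u (x + y) (δ + δ' + c * B x y) t := by
  simp only [Ef, map_add, map_smul, LinearMap.add_apply, hu, hy, h.refl _ _ hx, smul_eq_mul]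
  module

theorem Ef_smul (h : RF B) (μ : F) (u x : V) (δ : F) :
    Ef B c (μ • u) x δ = Ef B c u (σ μ • x) (δ * σ μ * μ) := by
  ext t
  simp only [Ef, map_smulₛₗ, LinearMap.smul_apply, h.inv, smul_eq_mul]
  module

theorem Ef_fix {p q v : V} (δ : F) (h1 : B p v = 0) (h2 : B q v = 0) : Ef B c p q δ v = v := by
  simp [Ef, h1, h2]

theorem has_Ef_conj {k : V ≃ₗ[F] V} (hk : k ∈ H) (hiso : ∀ x y, B (k x) (k y) = B x y)
    {u x : V} {δ : F} (h : Has H (Ef B c u x δ)) : Has H (Ef B c (k u) (k x) δ) :=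
  (h.conj hk).congr fun t => by
    have h1 : ∀ z, B z (k⁻¹ t) = B (k z) t := fun z => by rw [← hiso, le_apply_inv]
    simp only [Ef, map_add, map_smul, le_apply_inv, h1]

theorem has_Ef_comp (h : RF B) {u x y : V} (hu : B u u = 0) (hx : B u x = 0) (hy : B u y = 0)
    {δ δ' : F} (h1 : Has H (Ef B c u x δ)) (h2 : Has H (Ef B c u y δ')) :
    Has H (Ef B c u (x + y) (δ + δ' + c * B x y)) :=
  (h1.comp h2).congr (Ef_comp h hu hx hy δ δ')

theorem has_Ef_neg (h : RF B) {u x : V} (hu : B u u = 0) (hx : B u x = 0)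
    {δ : F} (h1 : Has H (Ef B c u x δ)) : Has H (Ef B c u (-x) (c * B x x - δ)) :=
  h1.inv fun t => by
    rw [Ef_comp h hu hx (by simp [hx])]
    simp [Ef]

theorem has_Ef_zero {u : V} {δ : F} : Has H (Ef B c u 0 δ) ↔ T1 H u (δ • B u) := by
  have : Ef B c u 0 δ = fun x => x + (δ • B u) x • u := by ext t; simp [Ef]
  rw [this, T1]

theorem has_Ef_diff (h : RF B) {u x : V} (hu : B u u = 0) (hx : B u x = 0) {δ δ' : F}
    (h1 : Has H (Ef B c u x δ)) (h2 : Has H (Ef B c u x δ')) : T1 H u ((δ - δ') • B u) := by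
  have := has_Ef_comp h hu hx (by simp [hx]) h1 (has_Ef_neg h hu hx h2)
  rw [add_neg_cancel, has_Ef_zero] at this
  convert this using 2
  simp only [map_neg]
  ring

theorem t1_map {k : V ≃ₗ[F] V} (hk : k ∈ H) (hiso : ∀ x y, B (k x) (k y) = B x y) {u : V} {t : F}
    (h : T1 H u (t • B u)) : T1 H (k u) (t • B (k u)) := by
  have := has_Ef_conj (c := 1) hk hiso (has_Ef_zero.mpr h)
  rwa [map_zero, has_Ef_zero] at this

theorem Su.add (h : RF B) {u x y : V} (hu : B u u = 0) (hx : Su H B c u x) (hy : Su H B c u y) :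
    Su H B c u (x + y) := by
  obtain ⟨h1, δ, h2⟩ := hx
  obtain ⟨h3, δ', h4⟩ := hy
  exact ⟨by simp [h1, h3], _, has_Ef_comp h hu h1 h3 h2 h4⟩

theorem Su.sub (h : RF B) {u x y : V} (hu : B u u = 0) (hx : Su H B c u x) (hy : Su H B c u y) :
    Su H B c u (x - y) := by
  rw [sub_eq_add_neg]
  obtain ⟨h3, δ', h4⟩ := hy
  exact hx.add h hu ⟨by simp [h3], _, has_Ef_neg h hu h3 h4⟩

theorem Su.map {k : V ≃ₗ[F] V} (hk : k ∈ H) (hiso : ∀ x y, B (k x) (k y) = B x y) {u x : V}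
    (h : Su H B c u x) : Su H B c (k u) (k x) := by
  obtain ⟨h1, δ, h2⟩ := h
  exact ⟨by rw [hiso, h1], δ, has_Ef_conj hk hiso h2⟩

theorem Su.of_smul (h : RF B) {μ : F} (hμ : μ ≠ 0) {u x : V} (hx : Su H B c (μ • u) x) :
    Su H B c u (σ μ • x) := by
  obtain ⟨h1, δ, h2⟩ := hx
  rw [Ef_smul h] at h2
  refine ⟨?_, _, h2⟩
  rw [map_smulₛₗ, LinearMap.smul_apply, smul_eq_zero, map_eq_zero] at h1
  rw [map_smul, h1.resolve_left hμ, smul_zero]

theorem su_self {u : V} (hu : B u u = 0) (a : F) : Su H B c u (a • u) :=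
  ⟨by simp [hu], -(a + c * σ a), (has_id H).congr fun t => by
    simp only [Ef, map_smulₛₗ, LinearMap.smul_apply, smul_eq_mul]
    module⟩

theorem su_zero (x : V) : Su H B c 0 x := ⟨by simp, 0, (has_id H).congr fun t => by simp [Ef]⟩

theorem Su.act (h : RF B) (hiso : ∀ g ∈ H, ∀ x y, B (g x) (g y) = B x y) {u y p q : V} {δ : F}
    (hu : B u u = 0) (hy : Su H B c u y) (hE : Has H (Ef B c p q δ)) (h1 : B p u = 0)
    (h2 : B q u = 0) : Su H B c u (B p y • q + (c * B q y + δ * B p y) • p) := by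
  obtain ⟨k, hk, hkf⟩ := hE
  have h3 := hy.map hk (hiso k hk)
  rw [hkf, hkf, Ef_fix δ h1 h2] at h3
  have := h3.sub h hu hy
  rwa [Ef, add_assoc, add_sub_cancel_left] at this

variable {K : Subfield F} {W : Type*} [AddCommGroup W] [Module K W] [FiniteDimensional K W]
  {j : W →ₗ[K] V} {σ₀ : K →+* K} {B₀ : W →ₛₗ[σ₀] W →ₗ[K] K} {S : W → Prop}

/-- A group of isometries containing the rational Siegel transformations. -/
structure EC (H : Subgroup (V ≃ₗ[F] V)) (B : V →ₛₗ[σ] V →ₗ[F] F) (c : F) (j : W →ₗ[K] V)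
    (B₀ : W →ₛₗ[σ₀] W →ₗ[K] K) (S : W → Prop) : Prop where
  rs : RS j
  rf : RF B
  rf₀ : RF B₀
  hB : ∀ x y, B (j x) (j y) = B₀ x y
  cc : c = 1 ∨ c = -1
  sym : ∀ x y, B y x = -c * σ (B x y)
  iso : ∀ g ∈ H, ∀ x y, B (g x) (g y) = B x y
  solv : Solv B₀ S 4
  zero : ∀ l l' : List W, l.length ≤ 4 → l'.length ≤ 4 →
    ∃ x, S x ∧ (∀ w ∈ l, B₀ w x = 0) ∧ x ∉ sp K l'
  dim : 2 < finrank K W
  add : ∀ x y, S x → S y → B₀ x y = 0 → S (x + y)
  self : ∀ x, S x → B₀ x x = 0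
  smul : ∀ (a : K) x, S x → S (a • x)
  sieg : ∀ a b, S a → S b → B₀ a b = 0 → Has H (Ef B c (j a) (j b) 0)

/-- The multiples of rational Siegel pairs. -/
def Rr (H : Subgroup (V ≃ₗ[F] V)) (B : V →ₛₗ[σ] V →ₗ[F] F) (c : F) (j : W →ₗ[K] V)
    (B₀ : W →ₛₗ[σ₀] W →ₗ[K] K) (S : W → Prop) (β : F) : Prop :=
  ∀ u b, S u → S b → B₀ u b = 0 → Su H B c (j u) (β • j b)

namespace EC

variable (E : EC H B c j B₀ S)
include E

theorem c_ne : c ≠ 0 := by rcases E.cc with rfl | rfl <;> simp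

theorem c_mem : c ∈ K := by
  rcases E.cc with rfl | rfl
  · exact K.one_mem
  · exact K.neg_mem K.one_mem

theorem z {x y : W} (h : B₀ x y = 0) : B (j x) (j y) = 0 := by rw [E.hB, h]; rfl

theorem z' {x y : W} (h : B₀ x y = 0) : B (j y) (j x) = 0 := E.z (E.rf₀.refl _ _ h)

theorem o {x y : W} (h : B₀ x y = 1) : B (j x) (j y) = 1 := by rw [E.hB, h]; rfl

theorem mem (x y : W) : B (j x) (j y) ∈ K := by rw [E.hB]; exact (B₀ x y).2

theorem z_of {x y : W} (h : B (j x) (j y) = 0) : B₀ x y = 0 := by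
  rw [E.hB] at h; exact Subtype.ext h

theorem sf {x : W} (h : S x) : B (j x) (j x) = 0 := E.z (E.self x h)

theorem su_rat {a b : W} (ha : S a) (hb : S b) (hab : B₀ a b = 0) : Su H B c (j a) (j b) :=
  ⟨E.z hab, 0, E.sieg a b ha hb hab⟩

theorem extract {u a b : W} {y : V} (hu : S u) (hy : Su H B c (j u) y) (ha : S a) (hb : S b)
    (hab : B₀ a b = 0) (hua : B₀ u a = 0) (hub : B₀ u b = 0) (hby : B (j b) y = 0) :
    Su H B c (j u) (B (j a) y • j b) := by
  simpa [hby] using hy.act E.rf E.iso (E.sf hu) (E.sieg a b ha hb hab) (E.z' hua) (E.z' hub)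

theorem one' {l : List W} {b : W} (hb : b ∉ sp K l) (hl : l.length ≤ 3) :
    ∃ a, S a ∧ (∀ w ∈ l, B₀ w a = 0) ∧ B₀ a b = 1 := by
  obtain ⟨a, ha, h1, h2⟩ := E.solv.one E.rf₀ hb 1 (by omega)
  have hd : B₀ a b ≠ 0 := E.rf₀.refl_ne (by rw [h2]; exact one_ne_zero)
  refine ⟨σ₀ (B₀ a b)⁻¹ • a, E.smul _ _ ha, fun w hw => by rw [map_smul, h1 w hw, smul_zero], ?_⟩
  rw [← E.rf₀.smul_eq, LinearMap.smul_apply, smul_eq_mul, inv_mul_cancel₀ hd]

theorem exists_ne : ∃ u, S u ∧ u ≠ 0 := by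
  obtain ⟨u, hu, -, hu0⟩ := E.zero [] [] (by simp) (by simp)
  exact ⟨u, hu, by rwa [mem_sp_nil] at hu0⟩

theorem sig_mem {d : F} (hd : d ∈ K) : σ d ∈ K := by
  obtain ⟨u, -, hu⟩ := E.exists_ne
  obtain ⟨a, -, -, h⟩ := E.one' (l := []) (b := u) (by rwa [mem_sp_nil]) (by simp)
  have := E.mem ((⟨d, hd⟩ : K) • a) u
  rwa [j_smul, map_smulₛₗ, LinearMap.smul_apply, E.o h, smul_eq_mul, mul_one] at this

theorem move1 {β : F} {u b : W} (hu : S u) (hb : b ∉ sp K [u])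
    (h : Su H B c (j u) (β • j b)) {b' : W} (hb' : S b') (hub' : B₀ u b' = 0) :
    Su H B c (j u) (β • j b') := by
  have step : ∀ b b', Su H B c (j u) (β • j b) → S b' → B₀ u b' = 0 → B₀ b b' = 0 →
      b ∉ sp K [b', u] → Su H B c (j u) (β • j b') := by
    intro b b' h hb' h1 h2 h3
    obtain ⟨a, ha, h4, h5⟩ := E.one' h3 (by simp)
    simpa [E.o h5] using E.extract hu h ha hb' (E.rf₀.refl _ _ (h4 b' (by simp))) (h4 u (by simp))
      h1 (by simp [E.z' h2])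
  obtain ⟨e, he, h1, h2⟩ := E.zero [u, b, b'] [b, b', u] (by simp) (by simp)
  exact step e b' (step b e h he (h1 u (by simp)) (h1 b (by simp))
    (not_mem_sp_exchange (fun hm => h2 (sp_mono (by simp) hm)) hb)) hb' hub'
    (E.rf₀.refl _ _ (h1 b' (by simp))) fun hm => h2 (sp_mono (by simp) hm)

theorem rr_of_one {β : F} {u b : W} (hu : S u) (hu0 : u ≠ 0) (hb : b ∉ sp K [u])
    (h : Su H B c (j u) (β • j b)) : Rr H B c j B₀ S β := by
  have step : ∀ u u', S u → u ≠ 0 → (∀ b, S b → B₀ u b = 0 → Su H B c (j u) (β • j b)) →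
      S u' → B₀ u u' = 0 → u' ∉ sp K [u] →
      ∀ b, S b → B₀ u' b = 0 → Su H B c (j u') (β • j b) := by
    intro u u' hu hu0 h hu' huu hn
    obtain ⟨b, hb, h1, h2⟩ := E.zero [u, u'] [u', u] (by simp) (by simp)
    have h3 : u' ∉ sp K [b, u] := not_mem_sp_exchange h2 hn
    have h4 : u ∉ sp K [b] := not_mem_sp_one_symm (fun hm => h2 (sp_mono (by simp) hm)) hu0
    obtain ⟨a, ha, h5, h6, h7⟩ := E.solv.two E.rf₀ h4
      (fun hm => h3 (sp_mono (by simp) hm)) 1 1 (by simp)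
    have hd : B₀ a u ≠ 0 := E.rf₀.refl_ne (by rw [h6]; exact one_ne_zero)
    have hs : S ((B₀ a u)⁻¹ • (u' + (-1 : K) • u)) :=
      E.smul _ _ (E.add _ _ hu' (E.smul _ _ hu) (by simp [E.rf₀.refl _ _ huu]))
    have h8 : B₀ (u' + (-1 : K) • u) a = 0 := by simp [h6, h7]
    obtain ⟨k, hk, hkf⟩ := E.sieg a _ ha hs (by rw [map_smul, E.rf₀.refl _ _ h8, smul_zero])
    have h9 := (h b hb (h1 u (by simp))).map hk (E.iso k hk)
    have e1 : k (j u) = j u' := by
      have : B₀ ((B₀ a u)⁻¹ • (u' + (-1 : K) • u)) u = 0 := by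
        simp [E.self u hu, E.rf₀.refl _ _ huu]
      rw [hkf, Ef, E.z this, E.hB, ← j_smul, smul_smul, mul_inv_cancel₀ hd]
      simp
    have e2 : k (β • j b) = β • j b := by
      rw [map_smul, hkf, Ef_fix _ (E.z' (h5 b (by simp))) (E.z ?_)]
      simp [h1 u (by simp), h1 u' (by simp)]
    rw [e1, e2] at h9
    exact fun b' hb' h10 => E.move1 hu' (fun hm => h2 (sp_mono (by simp) hm)) h9 hb' h10
  intro u' b' hu' hb' h1
  by_cases hu0' : u' = 0
  · rw [hu0', map_zero]; exact su_zero _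
  obtain ⟨e, he, h2, h3⟩ := E.zero [u, u'] [u, u'] (by simp) (by simp)
  have he0 : e ≠ 0 := by rintro rfl; exact h3 (Submodule.zero_mem _)
  exact step e u' he he0 (step u e hu hu0 (fun b' hb' h4 => E.move1 hu hb h hb' h4) he
    (h2 u (by simp)) fun hm => h3 (sp_mono (by simp) hm)) hu' (E.rf₀.refl _ _ (h2 u' (by simp)))
    (not_mem_sp_one_symm (fun hm => h3 (sp_mono (by simp) hm)) hu0') b' hb' h1

theorem rr_of_two {β γ : F} {u a b : W} (hu : S u) (hu0 : u ≠ 0) (hb : b ∉ sp K [u, a])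
    (h : Su H B c (j u) (β • j b + γ • j a)) : Rr H B c j B₀ S β := by
  obtain ⟨a', ha', h1, h2⟩ := E.one' hb (by simp)
  obtain ⟨b', hb', h3, h4⟩ := E.zero [u, a, b, a'] [u] (by simp) (by simp)
  refine E.rr_of_one hu hu0 h4 ?_
  simpa [E.z' (h1 a (by simp)), E.o h2] using E.extract hu h ha' hb' (h3 a' (by simp))
    (h1 u (by simp)) (h3 u (by simp)) (by simp [E.z' (h3 a (by simp)), E.z' (h3 b (by simp))])

/-- The ring of coefficients. -/
def ring : Subring F where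
  carrier := {β | Rr H B c j B₀ S β}
  one_mem' u b hu hb h := by rw [one_smul]; exact E.su_rat hu hb h
  zero_mem' u b hu hb h := by simpa using su_self (H := H) (c := c) (E.sf hu) 0
  add_mem' {β γ} hβ hγ u b hu hb h := by
    rw [add_smul]; exact (hβ u b hu hb h).add E.rf (E.sf hu) (hγ u b hu hb h)
  neg_mem' {β} hβ u b hu hb h := by
    simpa using (su_self (H := H) (c := c) (E.sf hu) 0).sub E.rf (E.sf hu) (hβ u b hu hb h)
  mul_mem' {β γ} hβ hγ := by
    obtain ⟨u, hu, hu0⟩ := E.exists_ne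
    obtain ⟨a, ha, h1, h2⟩ := E.zero [u] [u] (by simp) (by simp)
    obtain ⟨b, hb, h3, h4⟩ := E.solv.one E.rf₀ h2 1 (by simp)
    obtain ⟨b', hb', h5, h6⟩ := E.zero [u, a, b] [u, a] (by simp) (by simp)
    obtain ⟨-, δ, hE⟩ := hγ a b' ha hb' (h5 a (by simp))
    have := (hβ u b hu hb (h3 u (by simp))).act E.rf E.iso (E.sf hu) hE (E.z' (h1 u (by simp)))
      (by simp [E.z' (h5 u (by simp))])
    refine E.rr_of_two hu hu0 h6 (γ := δ * β) ?_
    simpa [E.o h4, E.z' (h5 b (by simp)), smul_smul] using this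

theorem span_perp {l : List W} (hl : l.length ≤ 3) {Z : Submodule K W}
    (h : ∀ a, S a → (∀ w ∈ l, B₀ w a = 0) → a ∈ Z) {a : W} (ha : ∀ w ∈ l, B₀ w a = 0) : a ∈ Z := by
  by_contra hne
  obtain ⟨φ, h1, h2⟩ := exists_dual_of_not_mem hne
  obtain ⟨p, rfl⟩ := E.rf₀.rep φ
  obtain ⟨x, hx, h3, h4⟩ := E.solv.one E.rf₀ (l := l) (a := p) (fun hm => by
    rw [E.rf₀.refl _ _ (map_eq_zero_of_mem_sp (B₀ a) (fun w hw => E.rf₀.refl _ _ (ha w hw)) hm)]
      at h2
    exact zero_ne_one h2) 1 (by omega)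
  rw [h1 x (h x hx h3)] at h4
  exact zero_ne_one h4

theorem exists_perp_ne {l : List W} (hl : l.length ≤ 3) {p : V} (hp : p ∉ sp F (l.map j)) :
    ∃ b, S b ∧ (∀ w ∈ l, B₀ w b = 0) ∧ B p (j b) ≠ 0 := by
  by_contra hc
  push Not at hc
  refine hp (E.rs.mem_sp_of_rat l fun φ h1 h2 => ?_)
  let φ₀ : Dual K W :=
    { toFun := fun x => ⟨φ (j x), h1 x⟩
      map_add' := fun x y => Subtype.ext (by simp)
      map_smul' := fun a x => Subtype.ext (dual_j_smul _ a x) }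
  obtain ⟨y, hy⟩ := E.rf₀.rep φ₀
  have h3 : φ = B (j y) := by
    rw [← sub_eq_zero]
    exact E.rs.span _ fun x => by rw [LinearMap.sub_apply, E.hB, hy]; exact sub_self _
  rw [h3] at h2 ⊢
  exact E.rf.refl _ _ (E.span_perp hl (Z := LinearMap.ker (((B p).restrictScalars K) ∘ₗ j)) hc
    fun w hw => E.rf₀.refl _ _ (E.z_of (h2 w hw)))

/-- The dichotomy. -/
theorem dich (hd : ∀ M : Subring F, (∀ c ∈ K, c ∈ M) → (∀ c ∈ M, c ∈ K) ∨ ∀ c, c ∈ M) :
    (∀ u, S u → u ≠ 0 → ∀ x, Su H B c (j u) x → ∀ a, B₀ u a = 0 → B (j a) x ∈ K) ∨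
      ∀ u, S u → ∀ x, B (j u) x = 0 → Su H B c (j u) x := by
  refine (hd E.ring fun d hd u b hu hb h => ?_).imp (fun hR u hu hu0 x hx a ha => ?_)
    fun hR u hu x hx => ?_
  · rw [j_smul' hd]
    exact E.su_rat hu (E.smul _ _ hb) (by rw [map_smul, h, smul_zero])
  · let Z : Submodule K W :=
      { carrier := {a | B (j a) x ∈ K}
        zero_mem' := by simp
        add_mem' := fun {a b} ha hb => by
          simpa only [Set.mem_setOf_eq, map_add, LinearMap.add_apply] using K.add_mem ha hb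
        smul_mem' := fun d a ha => by
          show B (j (d • a)) x ∈ K
          rw [j_smul, map_smulₛₗ]
          exact K.mul_mem (E.sig_mem d.2) ha }
    refine E.span_perp (l := [u]) (by simp) (Z := Z) (fun a ha h => hR _ ?_) (by simpa using ha)
    obtain ⟨b, hb, h1, h2⟩ := E.zero [u, a] [u, a] (by simp) (by simp)
    exact E.rr_of_two hu hu0 h2 (hx.act E.rf E.iso (E.sf hu) (E.sieg a b ha hb (h1 a (by simp)))
      (E.z' (h u (by simp))) (E.z' (h1 u (by simp))))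
  · let Z : Submodule F V :=
      { carrier := {x | ∀ β : F, Su H B c (j u) (β • x)}
        zero_mem' := fun β => by simpa using su_self (H := H) (c := c) (E.sf hu) 0
        add_mem' := fun {a b} ha hb β => by
          rw [smul_add]; exact (ha β).add E.rf (E.sf hu) (hb β)
        smul_mem' := fun d a ha β => by rw [smul_smul]; exact ha _ }
    suffices x ∈ Z by simpa using this 1
    by_contra hne
    obtain ⟨φ, h1, h2⟩ := exists_dual_of_not_mem hne
    obtain ⟨p, rfl⟩ := E.rf.rep φ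
    obtain ⟨b, hb, h3, h4⟩ := E.exists_perp_ne (l := [u]) (by simp) (p := p) (fun hm => by
      obtain ⟨d, rfl⟩ := mem_sp_one.mp hm
      simp [hx] at h2)
    exact h4 (h1 _ fun β => hR β u b hu hb (h3 u (by simp)))

end EC

end Cfsg.Agent.H77
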