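import Cfsg.Agent.H77.RatStr

/-! Overgroups of subfield subgroups in `SL(V)`. -/

set_option autoImplicit false
set_option linter.unusedSectionVars false

namespace Cfsg.Agent.H77

open Module Cfsg.Agent.H27

variable {F V : Type*} [Field F] [AddCommGroup V] [Module F V] [FiniteDimensional F V]
  {H : Subgroup (V ≃ₗ[F] V)} {K : Subfield F} {W : Type*} [AddCommGroup W] [Module K W]
  [FiniteDimensional K W] {j : W →ₗ[K] V}

/-- `c` times any rational transvection lies in `H`. -/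
def SLc (H : Subgroup (V ≃ₗ[F] V)) (j : W →ₗ[K] V) (c : F) : Prop :=
  ∀ (u : W) (φ : Dual F V), (∀ x, φ (j x) ∈ K) → φ (j u) = 0 → T1 H (j u) (c • φ)

theorem SLc.t1 (h : SLc H j 1) (u : W) (φ : Dual F V) (h1 : ∀ x, φ (j x) ∈ K) (h2 : φ (j u) = 0) :
    T1 H (j u) φ := by simpa using h u φ h1 h2

theorem slc_of_one (hj : RS j) (hn : 3 < finrank K W) (hT : SLc H j 1) {c : F} {u y : W}
    {φ : Dual F V} (hu : u ≠ 0) (hφu : φ (j u) = 0) (hy : φ (j y) = 1)
    (h : T1 H (j u) (c • φ)) (hφ : ∀ x, φ (j x) ∈ K) : SLc H j c := by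
  have M1 : ∀ (u y : W) (φ χ : Dual F V), T1 H (j u) (c • φ) → φ (j u) = 0 → φ (j y) = 1 →
      (∀ x, χ (j x) ∈ K) → χ (j u) = 0 → χ (j y) = 0 → T1 H (j u) (c • χ) := by
    intro u y φ χ h h1 h2 h3 h4 h5
    simpa [h2] using (hT.t1 y χ h3 h5).comm_right h h4 (by simp [h1])
  have P : ∀ (u y : W) (φ : Dual F V), T1 H (j u) (c • φ) → φ (j u) = 0 → φ (j y) = 1 →
      ∀ χ : Dual F V, (∀ x, χ (j x) ∈ K) → χ (j u) = 0 → T1 H (j u) (c • χ) := by
    intro u y φ h h1 h2 χ h3 h4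
    obtain ⟨z, hz, hz'⟩ := exists_rat_ker (j := j) [χ] (by simpa using h3) [u, y] (by simpa using hn)
    obtain ⟨φ₁, a1, a2, a3⟩ := hj.exists_dual hz'
    exact M1 u z φ₁ χ (M1 u y φ φ₁ h h1 h2 a1 (a2 u (by simp)) (a2 y (by simp))) (a2 u (by simp))
      a3 h3 h4 (hz χ (by simp))
  intro u' φ' h1 h2
  obtain ⟨z, -, hz⟩ := exists_rat_ker (j := j) [] (by simp) [u, u'] (by simp; omega)
  obtain ⟨χ, a1, a2, a3⟩ := hj.exists_dual hz
  have hχ := P u y φ h hφu hy χ a1 (a2 u (by simp))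
  by_cases huu : u ∈ sp K [u']
  · obtain ⟨k, rfl⟩ := mem_sp_one.mp huu
    have hk : (k : F) ≠ 0 := by
      intro h0
      exact hu (by rw [show k = 0 from Subtype.ext h0, zero_smul])
    rw [j_smul, t1_smul, smul_comm] at hχ
    refine P u' (k⁻¹ • z) ((k : F) • χ) hχ (by simp [a2 u' (by simp)]) ?_ φ' h1 h2
    rw [dual_j_smul]
    simp [a3, hk]
  · obtain ⟨χ', b1, b2, b3⟩ := hj.exists_dual huu
    have := (hT.t1 u' χ' b1 (b2 u' (by simp))).comm_left hχ (by simp [a2 u' (by simp)])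
      (by simp [a2 u (by simp)])
    rw [b3, one_smul] at this
    exact P u' z χ this (a2 u' (by simp)) a3 φ' h1 h2

/-- The ring of coefficients. -/
def slRing (hj : RS j) (hn : 3 < finrank K W) (hT : SLc H j 1) : Subring F where
  carrier := {c | SLc H j c}
  one_mem' := hT
  zero_mem' u φ _ _ := by simpa using t1_zero_right (j u)
  add_mem' {c d} hc hd u φ h1 h2 := by
    rw [add_smul]; exact (hc u φ h1 h2).add_right (hd u φ h1 h2) (by simp [h2])
  neg_mem' {c} hc u φ h1 h2 := by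
    rw [show (-c) • φ = -(c • φ) from neg_smul c φ]; exact (hc u φ h1 h2).neg_right (by simp [h2])
  mul_mem' {c d} hc hd u φ h1 h2 := by
    obtain ⟨x, hx, hx'⟩ := exists_rat_ker (j := j) [φ] (by simpa using h1) [u] (by simp; omega)
    obtain ⟨ψ, a1, a2, a3⟩ := hj.exists_dual hx'
    have hx0 : φ (j x) = 0 := hx φ (by simp)
    simpa [a3, smul_smul] using (hc u ψ a1 (a2 u (by simp))).comm_left (hd x φ h1 hx0)
      (by simp [h2]) (by simp [hx0])

theorem SLV_le_of_slc (hj : RS j) (h : ∀ c, SLc H j c) : SLV F V ≤ H :=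
  SLV_le_of_Aset (hj.eq_top fun u => mem_Aset_of_Dset fun p hp => by
    by_contra hc
    push Not at hc
    exact hp (hj.mem_sp_of_rat [u] fun φ h1 h2 =>
      hc φ ⟨h2 u (by simp), fun c => h c u φ h1 (h2 u (by simp))⟩))

theorem rat_axis (hj : RS j) (hn : 3 < finrank K W) (hT : SLc H j 1)
    (hA : ∀ c, SLc H j c → c ∈ K) {u : W} (hu : u ≠ 0) {ψ : Dual F V} (h : T1 H (j u) ψ)
    (hψ : ψ (j u) = 0) (x : W) : ψ (j x) ∈ K := by
  obtain ⟨y, -, hy⟩ := exists_rat_ker (j := j) [] (by simp) [u, x] (by simp; omega)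
  obtain ⟨φ, a1, a2, a3⟩ := hj.exists_dual hy
  exact hA _ (slc_of_one hj hn hT hu (a2 u (by simp)) a3
    ((hT.t1 x φ a1 (a2 x (by simp))).comm_right h (a2 u (by simp)) hψ) a1)

theorem rat_centre (hj : RS j) (hn : 3 < finrank K W) (hT : SLc H j 1)
    (hA : ∀ c, SLc H j c → c ∈ K) {w : V} {φ : Dual F V} (h : T1 H w φ) (hφ : ∀ x, φ (j x) ∈ K)
    (hw : φ w = 0) {y : W} (hy : φ (j y) = 1) : ∃ x, w = j x := by
  refine hj.mem_range fun χ hχ => ?_
  obtain ⟨x, hx, hx'⟩ := exists_rat_ker (j := j) [φ, χ] (by simp [hφ, hχ]) [] (by simp; omega)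
  rw [mem_sp_nil] at hx'
  exact hA _ (slc_of_one hj hn hT hx' (hx φ (by simp)) hy
    ((hT.t1 x χ hχ (hx χ (by simp))).comm_left h (hx φ (by simp)) hw) hφ)

theorem sl_ratio [Finite F] (hj : RS j) (hn : 3 < finrank K W) (hT : SLc H j 1)
    (hA : ∀ c, SLc H j c → c ∈ K) {w : V} {ψ : Dual F V} (h : T1 H w ψ) (hw : ψ w = 0)
    {u x : W} (hx : x ∉ sp K [u]) (hu1 : ψ (j u) ≠ 0) (hwn : w ∉ sp F [j u, j x]) :
    ψ (j x) / ψ (j u) ∈ K := by
  by_cases hx1 : ψ (j x) = 0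
  · rw [hx1, zero_div]; exact K.zero_mem
  have hu0 : u ≠ 0 := by rintro rfl; simp at hu1
  obtain ⟨φ, a1, a2, a3⟩ : ∃ φ : Dual F V, (∀ x, φ (j x) ∈ K) ∧ (∀ y ∈ [u, x], φ (j y) = 0) ∧
      φ w ≠ 0 := by
    by_contra hc
    push Not at hc
    exact hwn (hj.mem_sp_of_rat [u, x] hc)
  have au := a2 u (by simp)
  have ax := a2 x (by simp)
  obtain ⟨h1, hh1, f1, ε, hε, e1⟩ := T1.exists_conj (hT.t1 u φ a1 au) h au hw a3 hu1
  obtain ⟨h2, hh2, f2, ε', hε', e2⟩ := T1.exists_conj (hT.t1 x φ a1 ax) h ax hw a3 hx1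
  set k := h2⁻¹ * h1 with hk
  have hkH : k ∈ H := H.mul_mem (H.inv_mem hh2) hh1
  have ku : k (j u) = (ε / ε') • j x := by
    apply h2.injective
    rw [hk, le_mul_apply, le_apply_inv, e1, map_smul, e2, smul_smul, div_mul_cancel₀ _ hε']
  have kz : ∀ z, φ z = 0 → ψ z = 0 → k z = z := fun z b1 b2 => by
    apply h2.injective
    rw [hk, le_mul_apply, le_apply_inv, f1 z b1 b2, f2 z b1 b2]
  have hμ : ε / ε' ≠ 0 := div_ne_zero hε hε'
  set μ := ε / ε'
  have key : ∀ φ₁ : Dual F V, (∀ x, φ₁ (j x) ∈ K) → φ₁ (j x) = 0 → ∀ y, φ (j y) = 0 →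
      μ⁻¹ * (φ₁ (j y) - ψ (j y) / ψ (j u) * φ₁ (j u)) ∈ K := by
    intro φ₁ b1 b2 y hy
    have h3 := (hT.t1 x φ₁ b1 b2).conj' hkH
    have h4 : k⁻¹ (j x) = μ⁻¹ • j u := by
      apply k.injective
      rw [le_apply_inv, map_smul, ku, smul_smul, inv_mul_cancel₀ hμ, one_smul]
    rw [h4, t1_smul] at h3
    have h5 := rat_axis hj hn hT hA hu0 h3 (by simp [ku, b2]) y
    have h6 := kz (j y - (ψ (j y) / ψ (j u)) • j u) (by simp [hy, au]) (by simp [hu1])
    rw [map_sub, map_smul, ku, sub_eq_iff_eq_add] at h6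
    simpa [h6, b2] using h5
  obtain ⟨y, hy, hy'⟩ := exists_rat_ker (j := j) [φ] (by simpa using a1) [u, x] (by simpa using hn)
  obtain ⟨φ₁, b1, b2, b3⟩ := hj.exists_dual hy'
  have h5 := key φ₁ b1 (b2 x (by simp)) y (hy φ (by simp))
  rw [b3, b2 u (by simp), mul_zero, sub_zero, mul_one] at h5
  obtain ⟨φ₂, c1, c2, c3⟩ := hj.exists_dual (not_mem_sp_one_symm hx hu0)
  have h6 := key φ₂ c1 (c2 x (by simp)) x ax
  rw [c3, c2 x (by simp), mul_one, zero_sub] at h6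
  have h7 := K.neg_mem (K.div_mem h6 h5)
  rwa [mul_div_cancel_left₀ _ (inv_ne_zero hμ), neg_neg] at h7

theorem rat_of_t1 [Finite F] (hj : RS j) (hn : 3 < finrank K W) (hT : SLc H j 1)
    (hA : ∀ c, SLc H j c → c ∈ K) {w : V} {ψ : Dual F V} (h : T1 H w ψ) (hw : ψ w = 0)
    (hψ : ψ ≠ 0) : Rat j w := by
  obtain ⟨u, hu⟩ : ∃ u, ψ (j u) ≠ 0 := by
    by_contra hc
    push Not at hc
    exact hψ (hj.span ψ hc)
  by_cases hwu : w ∈ sp F [j u]
  · obtain ⟨c, hc⟩ := mem_sp_one.mp hwu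
    exact ⟨c, u, hc⟩
  obtain ⟨x₀, hx₀⟩ : ∃ x₀, ∀ x, x ∉ sp K [x₀, u] → ψ (j x) / ψ (j u) ∈ K := by
    by_cases hb : ∃ x₀, w ∈ sp F [j x₀, j u]
    · obtain ⟨x₀, hx₀⟩ := hb
      refine ⟨x₀, fun x hx => sl_ratio hj hn hT hA h hw (fun hm => hx (sp_mono (by simp) hm)) hu
        fun hm => ?_⟩
      refine not_mem_sp_exchange (fun h1 => hj.not_mem hx (sp_le ?_ h1)) hwu
        (sp_mono (l := [j u, j x]) (by simp) hm)
      intro y hy
      simp only [List.mem_cons, List.not_mem_nil, or_false] at hy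
      rcases hy with rfl | rfl
      · exact hx₀
      · exact mem_sp (by simp)
    · push Not at hb
      exact ⟨u, fun x hx => sl_ratio hj hn hT hA h hw (fun hm => hx (sp_mono (by simp) hm)) hu
        fun hm => hb x (sp_mono (by simp) hm)⟩
  have hall : ∀ x, ψ (j x) / ψ (j u) ∈ K := by
    intro x
    by_cases hx : x ∈ sp K [x₀, u]
    · obtain ⟨y, -, hy⟩ := exists_rat_ker (j := j) [] (by simp) [x₀, u] (by simp; omega)
      have := K.sub_mem (hx₀ (x + y) fun hm => hy (by simpa using Submodule.sub_mem _ hm hx))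
        (hx₀ y hy)
      rwa [map_add, map_add, add_div, add_sub_cancel_right] at this
    · exact hx₀ x hx
  have h1 : T1 H (ψ (j u) • w) ((ψ (j u))⁻¹ • ψ) := by
    rwa [t1_smul, smul_smul, mul_inv_cancel₀ hu, one_smul]
  obtain ⟨x, hx⟩ := rat_centre hj hn hT hA h1
    (fun x => by simpa [div_eq_inv_mul] using hall x) (by simp [hw]) (y := u) (by simp [hu])
  exact ⟨(ψ (j u))⁻¹, x, by rw [← hx, smul_smul, inv_mul_cancel₀ hu, one_smul]⟩

theorem sub_SLV_le [Finite F] (hj : RS j) (hn : 3 < finrank K W) (hT : SLc H j 1)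
    (hd : ∀ M : Subring F, (∀ c ∈ K, c ∈ M) → (∀ c ∈ M, c ∈ K) ∨ ∀ c, c ∈ M)
    {g : V ≃ₗ[F] V} (hg : g ∈ H) (hg' : ¬ NR j g) : SLV F V ≤ H := by
  rcases hd (slRing hj hn hT) (fun c hc u φ h1 h2 =>
    hT.t1 u _ (fun x => K.mul_mem hc (h1 x)) (by simp [h2])) with hA | hA
  · exfalso
    haveI : Nontrivial W := Module.nontrivial_of_finrank_pos (R := K) (by omega)
    refine hg' (hj.nr_of_rat_all fun v => ?_)
    obtain ⟨y, -, hy⟩ := exists_rat_ker (j := j) [] (by simp) [v] (by simp; omega)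
    obtain ⟨φ, a1, a2, a3⟩ := hj.exists_dual hy
    have av := a2 v (by simp)
    refine rat_of_t1 hj hn hT hA ((hT.t1 v φ a1 av).conj hg) (by simpa [le_inv_apply] using av) ?_
    intro h0
    have := LinearMap.congr_fun h0 (g (j y))
    simp [le_inv_apply, a3] at this
  · exact SLV_le_of_slc hj hA

section Mat

open Cfsg.Geo Matrix

variable {ι : Type} [Fintype ι] [DecidableEq ι]

/-- The rational structure given by the columns of `P`. -/
noncomputable def jP (K : Subfield F) (P : GL ι F) : (ι → K) →ₗ[K] (ι → F) where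
  toFun x := (P : Matrix ι ι F) *ᵥ fun i => (x i : F)
  map_add' x y := by rw [← Matrix.mulVec_add]; rfl
  map_smul' c x := by
    show _ = (c : F) • ((P : Matrix ι ι F) *ᵥ fun i => (x i : F))
    rw [← Matrix.mulVec_smul]; rfl

theorem jP_apply (P : GL ι F) (x : ι → K) :
    jP K P x = (P : Matrix ι ι F) *ᵥ fun i => (x i : F) := rfl

theorem rs_jP (K : Subfield F) (P : GL ι F) : RS (jP K P) := by
  have hsum : ∀ (φ : Dual F (ι → F)) (v : ι → F),
      φ ((P : Matrix ι ι F) *ᵥ v) = ∑ i, v i * φ (jP K P (Pi.single i 1)) := by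
    intro φ v
    have : v = ∑ i, v i • (fun k => ((Pi.single i 1 : ι → K) k : F)) := by
      ext k
      simp [Pi.single_apply, apply_ite]
    conv_lhs => rw [this, ← Matrix.mulVecLin_apply, map_sum, map_sum]
    exact Finset.sum_congr rfl fun i _ => by rw [map_smul, map_smul]; rfl
  refine ⟨fun φ₀ => ⟨(∑ i, (φ₀ (Pi.single i 1) : F) • LinearMap.proj i) ∘ₗ
    Matrix.toLin' ((P⁻¹ : GL ι F) : Matrix ι ι F), fun x => ?_⟩, fun φ hφ => ?_⟩
  · rw [LinearMap.comp_apply, jP_apply, Matrix.toLin'_apply, Matrix.mulVec_mulVec,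
      ← Units.val_mul, inv_mul_cancel, Units.val_one, Matrix.one_mulVec]
    conv_rhs => rw [← Finset.univ_sum_single x, map_sum]
    push_cast
    simp only [LinearMap.coe_sum, Finset.sum_apply, LinearMap.smul_apply, LinearMap.proj_apply,
      smul_eq_mul]
    refine Finset.sum_congr rfl fun i _ => ?_
    rw [show Pi.single i (x i) = x i • (Pi.single i 1 : ι → K) by
      rw [← Pi.single_smul, smul_eq_mul, mul_one], map_smul, mul_comm]
    rfl
  · refine LinearMap.ext fun v => ?_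
    have : v = (P : Matrix ι ι F) *ᵥ (((P⁻¹ : GL ι F) : Matrix ι ι F) *ᵥ v) := by
      rw [Matrix.mulVec_mulVec, ← Units.val_mul, mul_inv_cancel, Units.val_one, Matrix.one_mulVec]
    rw [this, hsum]
    simp [hφ]

theorem mem_subfield_iff_nr {P g : GL ι F} :
    g ∈ subfieldSubgroup K P ↔ NR (jP K P) (toLE ι F g) := by
  rw [Cfsg.Agent.H99.mem_subfieldSubgroup]
  have hP : ∀ v, ((P⁻¹ : GL ι F) : Matrix ι ι F) *ᵥ ((P : Matrix ι ι F) *ᵥ v) = v := fun v => by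
    rw [Matrix.mulVec_mulVec, ← Units.val_mul, inv_mul_cancel, Units.val_one, Matrix.one_mulVec]
  have hP' : ∀ v, (P : Matrix ι ι F) *ᵥ (((P⁻¹ : GL ι F) : Matrix ι ι F) *ᵥ v) = v := fun v => by
    rw [Matrix.mulVec_mulVec, ← Units.val_mul, mul_inv_cancel, Units.val_one, Matrix.one_mulVec]
  have hM : ∀ v, ((P⁻¹ * g * P : GL ι F) : Matrix ι ι F) *ᵥ v =
      ((P⁻¹ : GL ι F) : Matrix ι ι F) *ᵥ ((g : Matrix ι ι F) *ᵥ ((P : Matrix ι ι F) *ᵥ v)) := by
    intro v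
    simp only [Matrix.mulVec_mulVec, Units.val_mul, Matrix.mul_assoc]
  constructor
  · rintro ⟨c, hc, h⟩
    refine ⟨c⁻¹, inv_ne_zero hc, fun x => ⟨fun i => ⟨c * (((P⁻¹ * g * P : GL ι F) : Matrix ι ι F) *ᵥ
      fun k => (x k : F)) i, ?_⟩, ?_⟩⟩
    · rw [Matrix.mulVec, dotProduct, Finset.mul_sum]
      exact K.sum_mem fun k _ => by rw [← mul_assoc]; exact K.mul_mem (h i k) (x k).2
    · rw [toLE_apply, jP_apply, jP_apply, ← hP' (_ *ᵥ (_ *ᵥ _)), ← hM, ← Matrix.mulVec_smul]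
      congr 1
      ext i
      simp [hc]
  · rintro ⟨c, hc, h⟩
    refine ⟨c⁻¹, inv_ne_zero hc, fun i k => ?_⟩
    obtain ⟨y, hy⟩ := h (Pi.single k 1)
    have h1 := hM (fun i => ((Pi.single k 1 : ι → K) i : F))
    rw [toLE_apply, jP_apply, jP_apply] at hy
    rw [hy, Matrix.mulVec_smul, hP] at h1
    have h2 := congrFun h1 i
    have h3 : (fun i => ((Pi.single k 1 : ι → K) i : F)) = Pi.single k 1 := by
      ext i; simp [Pi.single_apply, apply_ite]
    rw [h3, Matrix.mulVec_single_one] at h2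
    have h4 : ((P⁻¹ * g * P : GL ι F) : Matrix ι ι F) i k = c * y i := h2
    rw [h4, inv_mul_cancel_left₀ hc]
    exact (y i).2

theorem subfield_ne_top [Fintype F] {K : Subfield F} {r : ℕ} (hr : r.Prime)
    (hcard : Fintype.card F = Nat.card K ^ r) : K ≠ ⊤ := by
  rintro rfl
  rw [Nat.card_congr Subfield.topEquiv.toEquiv, Nat.card_eq_fintype_card] at hcard
  have := Nat.pow_right_injective (Fintype.one_lt_card (α := F)) ((pow_one _).trans hcard)
  exact hr.one_lt.ne this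

end Mat

end Cfsg.Agent.H77
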