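import Cfsg.Agent.H77.TPPi
import Cfsg.Agent.H9.TC7o

/-! Two small orthogonal tensor factors: the invariant Lie algebra and the maximality of the
stabiliser. -/

set_option autoImplicit false
set_option linter.unusedSectionVars false
set_option linter.unusedVariables false
set_option linter.unusedSimpArgs false

namespace Cfsg.Agent.H77

open scoped MatrixGroups Matrix
open Matrix Cfsg.Geo Cfsg.Agent.H98 Cfsg.Agent.H9 PasO TOP

universe u

variable {ι α β : Type} [Fintype ι] [DecidableEq ι] [Fintype α] [DecidableEq α] [Fintype β]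
  [DecidableEq β] {F : Type u} [Field F]

variable {φ : Matrix β β F →ₐ[F] Matrix ι ι F} {ψ : Matrix α α F →ₐ[F] Matrix ι ι F}
  {M : Subgroup (GL ι F)} {G : Subgroup (GL β F)} {G' : Subgroup (GL α F)} {ε : F}
  {f : (ι → F) → (ι → F) → F} {f₂ : (β → F) → (β → F) → F} {f₁ : (α → F) → (α → F) → F}
  [Finite F] [Nonempty ι]

local notation:max "ad" => adj (RingEquiv.refl F)

theorem trace_skew_sym (hf : IsSesq (RingEquiv.refl F) ε f) (h2 : (2 : F) ≠ 0)
    {a t : Matrix ι ι F} (ha : ad f a = -a) (ht : ad f t = t) : (a * t).trace = 0 := by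
  have := hf.trace_adj (a * t)
  rw [hf.adj_mul, ha, ht, RingEquiv.refl_apply, mul_neg, trace_neg, trace_mul_comm] at this
  exact (mul_eq_zero.1 (show 2 * (a * t).trace = 0 by linear_combination -this)).resolve_left h2

theorem eq_zero_of_skew (hf : IsSesq (RingEquiv.refl F) ε f) (h2 : (2 : F) ≠ 0)
    {a : Matrix ι ι F} (ha : ad f a = -a) (h : ∀ b, (a * (b - ad f b)).trace = 0) : a = 0 :=
  eq_of_trace_mul fun b => by
    have h1 := trace_skew_sym hf h2 ha (t := b + ad f b) (by rw [hf.adj_add, hf.adj_adj, add_comm])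
    have h3 := h b
    rw [mul_add, trace_add] at h1
    rw [mul_sub, trace_sub] at h3
    rw [zero_mul, trace_zero]
    exact (mul_eq_zero.1 (show 2 * (a * b).trace = 0 by linear_combination h1 + h3)).resolve_left h2

theorem skew_lie (hf : IsSesq (RingEquiv.refl F) ε f) {a b : Matrix ι ι F} (ha : ad f a = -a)
    (hb : ad f b = -b) : ad f (a * b - b * a) = -(a * b - b * a) := by
  rw [hf.adj_sub, hf.adj_mul, hf.adj_mul, ha, hb, neg_mul_neg, neg_mul_neg, neg_sub]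

theorem ad_mem (O : OS f₂ G) (h3 : Nat.card F ≠ 3) {X : Submodule F (Matrix ι ι F)}
    (hX : ∀ g ∈ G, ∀ z ∈ X, H98.cj (gφ φ g) z ∈ X) {s : Matrix β β F} (hs : ad f₂ s = -s)
    {z : Matrix ι ι F} (hz : z ∈ X) : φ s * z - z * φ s ∈ X := by
  have hf := O.C.ses
  have h2 := O.two
  let L : Matrix β β F →ₗ[F] Matrix ι ι F :=
    (LinearMap.mulRight F z - LinearMap.mulLeft F z) ∘ₗ φ.toLinearMap
  refine O.skew_span (Z := X.comap L) (fun u w hu hw => ?_) hs
  change φ (Nv f₂ u w) * z - z * φ (Nv f₂ u w) ∈ X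
  have k : ∀ v, f₂ v u = 0 → φ (eo f₂ u v) * z * φ (eo f₂ u (-v)) ∈ X := fun v hv => by
    obtain ⟨g, hg, e⟩ := mem_matrixSet.1 (O.eo_mem hu hv)
    have := hX g hg z hz
    rwa [cj_apply, coe_gφ, coe_gφ_inv, Units.inv_eq_of_mul_eq_one_right (a := eo f₂ u (-v)) (by
      rw [e, eo_mul hf h2 hu hv (by rw [hf.neg_left, hv, neg_zero]), add_neg_cancel, eo_zero hf]),
      e] at this
  have k' : ∀ t : F, (2 * t) • (φ (Nv f₂ u w) * z - z * φ (Nv f₂ u w)) + (t * t * t * f₂ w w) •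
      (φ (br f₂ u u) * z * φ (Nv f₂ u w) - φ (Nv f₂ u w) * z * φ (br f₂ u u)) ∈ X := fun t => by
    have h1 : f₂ (t • w) u = 0 := by rw [hf.smul_left, hw, mul_zero]
    have := sub_mem (k _ h1) (k (-(t • w)) (by rw [hf.neg_left, h1, neg_zero]))
    rw [neg_neg, eo_neg hf h2, eo_eq] at this
    convert this using 1
    simp only [Nv_smul hf, hf.smul_left, smul_r hf, map_sub, map_add, map_one, map_smul, add_mul,
      mul_add, sub_mul, mul_sub, one_mul, mul_one, smul_mul_assoc, mul_smul_comm]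
    match_scalars <;> field_simp <;> ring
  obtain ⟨l, l0, l1⟩ := exists_sq_ne h2 h3
  have := sub_mem (X.smul_mem (l * l * l) (k' 1)) (k' l)
  rw [← X.smul_mem_iff (s := 2 * l * (l * l - 1)) (mul_ne_zero (mul_ne_zero h2 l0) (sub_ne_zero.2 l1))]
  convert this using 1
  module

theorem cm_of_skew (O : OS f₂ G) {z : Matrix ι ι F}
    (h : ∀ s, ad f₂ s = -s → φ s * z = z * φ s) : Cm φ z := by
  have hf := O.C.ses
  obtain ⟨x, y, H⟩ := O.C.exists_hp
  obtain ⟨v, v1, v2, v3⟩ := exists_v O.C O.two H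
  refine cm_of_gen (S := {s | ad f₂ s = -s}) (O.lie_top (fun a ha b hb => ?_) (s := Nv f₂ x v)
    (Algebra.subset_adjoin (TOB.adj_Nv hf x v))
    (Nv_ne_zero hf H v2 v1 (by rintro rfl; exact v3 (hf.zero_left _))) (TOB.adj_Nv hf x v)) h
  have := Algebra.subset_adjoin (R := F) (s := {s | ad f₂ s = -s}) ha
  exact sub_mem (mul_mem this hb) (mul_mem hb this)

variable (φ f₂) in
/-- The elements whose components along the factor are symmetric. -/
def Sy : Submodule F (Matrix ι ι F) where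
  carrier := {z | ∀ c s, Cm φ c → ad f₂ s = -s → (z * (c * φ s)).trace = 0}
  add_mem' := fun h h' c s hc hs => by rw [add_mul, trace_add, h c s hc hs, h' c s hc hs, add_zero]
  zero_mem' := fun c s _ _ => by simp
  smul_mem' := fun a z h c s hc hs => by rw [smul_mul_assoc, trace_smul, h c s hc hs, smul_zero]

theorem Sy.lie_cm {z c : Matrix ι ι F} (h : z ∈ Sy φ f₂) (hc : Cm φ c) :
    z * c - c * z ∈ Sy φ f₂ := fun d s hd hs => by
  rw [sub_mul, trace_sub, mul_assoc, ← mul_assoc c, h _ s (hc.mul hd) hs, mul_assoc, trace_mul_comm,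
    mul_assoc, mul_assoc, hc, ← mul_assoc d, h _ s (hd.mul hc) hs, sub_zero]

theorem Sy.of_cm (hf : IsSesq (RingEquiv.refl F) 1 f₂) (h2 : (2 : F) ≠ 0) [Nonempty β]
    {c : Matrix ι ι F} (hc : Cm φ c) : c ∈ Sy φ f₂ := fun d s hd hs => by
  rw [← mul_assoc]
  exact (hc.mul hd).trace_mul_phi (by simpa using trace_skew_sym hf h2 hs hf.adj_one)

namespace OP

variable (O : OP φ ψ M G G' ε f f₂ f₁)
include O

theorem skew_dec {Y : Submodule F (Matrix ι ι F)}
    (h : ∀ c s, Cm φ c → ad f₂ s = -s → c * φ s ∈ Y) (h' : ∀ t s, ad f₁ s = -s → φ t * ψ s ∈ Y)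
    (z : Matrix ι ι F) : z - ad f z ∈ Y := by
  have hf := O.A.hf
  have hf₂ := O.A.C.ses
  have hf₁ := O.A'.C.ses
  have k : ∀ c b, Cm φ c → c * φ b - ad f (c * φ b) ∈ Y := fun c b c1 => by
    have c2 := O.A.cm_adj c1
    obtain ⟨v, rfl⟩ := O.P.rg c c1
    change Cm φ (ψ v) at c1
    change Cm φ (ad f (ψ v)) at c2
    change ψ v * φ b - ad f (ψ v * φ b) ∈ Y
    rw [← Y.smul_mem_iff O.O.two]
    convert Y.add_mem (h' (b + ad f₂ b) (v - ad f₁ v) (by rw [hf₁.adj_sub, hf₁.adj_adj, neg_sub]))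
      (h _ (b - ad f₂ b) (c1.add c2) (by rw [hf₂.adj_sub, hf₂.adj_adj, neg_sub])) using 1
    rw [map_sub ψ, ← O.A'.adjφ, (c1.sub c2) _, hf.adj_mul, O.A.adjφ, c2, map_add, map_sub, two_smul]
    noncomm_ring
  rw [expand (φ := φ) z, hf.adj_sum, ← Finset.sum_sub_distrib]
  refine Y.sum_mem fun a _ => ?_
  rw [hf.adj_sum, ← Finset.sum_sub_distrib]
  exact Y.sum_mem fun b _ => k _ _ (cf_cm _ _ _)

theorem star (hL : LocA φ M f₂) {g : GL ι F} (hg : g ∈ M) {s : Matrix β β F} (hs : ad f₂ s = -s) :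
    ∃ s', ad f₂ s' = -s' ∧ H98.cj g (φ s) - φ s' ∈ Sy φ f₂ := by
  obtain ⟨Pi, hP, hsa, hA⟩ := O.exists_Pi hL
  have hf := O.A.C.ses
  have hF := O.A.hf
  have h2 := O.O.two
  have := O.A.C.nonempty
  have := O.A'.C.nonempty
  let Y : Submodule F (Matrix ι ι F) :=
    { carrier := {z | ∃ s', ad f₂ s' = -s' ∧ z - φ s' ∈ Sy φ f₂}
      add_mem' := by
        rintro a b ⟨s, h1, h3⟩ ⟨s', h1', h3'⟩
        exact ⟨s + s', by rw [hf.adj_add, h1, h1', neg_add], by
          rw [map_add, add_sub_add_comm]; exact add_mem h3 h3'⟩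
      zero_mem' := ⟨0, by simp [hf.adj_zero], by simp⟩
      smul_mem' := by
        rintro c a ⟨s, h1, h3⟩
        exact ⟨c • s, by rw [hf.adj_smul, h1, RingEquiv.refl_apply, smul_neg], by
          rw [map_smul, ← smul_sub]; exact Submodule.smul_mem _ _ h3⟩ }
  have hB : ∀ z, Pi (z - ad f z) ∈ Y := O.skew_dec (Y := Y.comap Pi) (fun c s hc hs => by
      obtain ⟨a, ha⟩ := hc.exists_ptr
      exact ⟨a • s, by rw [hf.adj_smul, hs, RingEquiv.refl_apply, smul_neg], by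
        rw [hA c hc s hs, ha, sub_self]; exact zero_mem _⟩)
    fun t s' hs' => ⟨0, by simp [hf.adj_zero], fun c s hc hs => by
      rw [map_zero, sub_zero, hsa, hA c hc s hs, ← mul_assoc, ← map_mul]
      exact (O.P'.cm _).trace_mul_phi (by
        simpa using trace_skew_sym O.A'.C.ses h2 hs' O.A'.C.ses.adj_one)⟩
  obtain ⟨c, hc, e⟩ := exists_ptr_one (φ := φ)
  have hc' := O.A.cm_adj hc
  have e' : ptr φ (ad f c * φ s) = s := eq_of_trace_mul fun b => by
    have k1 := hF.trace_adj (φ (ad f₂ (s * b)) * c)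
    have k2 := trace_ptr_mul (φ := φ) (c * φ 1) (ad f₂ (s * b))
    rw [hF.adj_mul, O.A.adjφ, hf.adj_adj, RingEquiv.refl_apply, trace_mul_comm (φ _)] at k1
    rw [e, map_one, mul_one, one_mul, hf.trace_adj, RingEquiv.refl_apply] at k2
    rw [trace_ptr_mul, mul_assoc, ← map_mul, k1, k2]
  have := hB (H98.cj g (c * φ s))
  rw [adj_cj hF (O.A.iso hg), ← map_sub, hP g hg, hF.adj_mul, O.A.adjφ, hs, map_neg,
    neg_mul, sub_neg_eq_add, hc', ← add_mul, hA _ (hc.add hc') s hs, add_mul, map_add, e, e',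
    ← two_smul F, map_smul, map_smul] at this
  exact (Y.smul_mem_iff h2).1 this

theorem lie_dec (h3 : Nat.card F ≠ 3) (hL : LocA ψ M f₁) {g : GL ι F} (hg : g ∈ M)
    {s : Matrix β β F} (hs : ad f₂ s = -s) {t : Matrix α α F} (ht : ad f₁ t = -t) :
    ∃ t', ad f₁ t' = -t' ∧
      H98.cj g (φ s) * ψ t - ψ t * H98.cj g (φ s) - ψ t' ∈ Sy ψ f₁ := by
  have hf := O.A'.C.ses
  let X : Submodule F (Matrix ι ι F) :=
    { carrier := {z | ∀ g ∈ M, ∃ s', ad f₁ s' = -s' ∧ H98.cj g z - ψ s' ∈ Sy ψ f₁}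
      add_mem' := fun {a b} h h' g hg => by
        obtain ⟨s, h1, h3⟩ := h g hg
        obtain ⟨s', h1', h3'⟩ := h' g hg
        exact ⟨s + s', by rw [hf.adj_add, h1, h1', neg_add], by
          rw [map_add, map_add, add_sub_add_comm]; exact add_mem h3 h3'⟩
      zero_mem' := fun g hg => ⟨0, by simp [hf.adj_zero], by simp⟩
      smul_mem' := fun c a h g hg => by
        obtain ⟨s, h1, h3⟩ := h g hg
        exact ⟨c • s, by rw [hf.adj_smul, h1, RingEquiv.refl_apply, smul_neg], by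
          rw [map_smul, map_smul, ← smul_sub]; exact Submodule.smul_mem _ _ h3⟩ }
  have hX : ∀ g ∈ M, ∀ z ∈ X, H98.cj g z ∈ X := fun g hg z hz k hk => by
    rw [← cj_mul]; exact hz _ (M.mul_mem hk hg)
  have := ad_mem (φ := φ) O.O h3 (fun k hk => hX _ (O.A.sub k hk)) hs
    (hX _ (M.inv_mem hg) (ψ t) fun k hk => O.symm.star hL hk ht) g hg
  rwa [map_sub, map_mul, map_mul, cj_cj_inv] at this

theorem gg (h3 : Nat.card F ≠ 3) (hL : LocA φ M f₂) (hL' : LocA ψ M f₁) {g : GL ι F} (hg : g ∈ M)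
    {s : Matrix β β F} (hs : ad f₂ s = -s) :
    ∃ s' t', ad f₂ s' = -s' ∧ H98.cj g (φ s) = φ s' + ψ t' := by
  have hf := O.A.C.ses
  have hf' := O.A'.C.ses
  have hF := O.A.hf
  have h2 := O.O.two
  have := O.A.C.nonempty
  have := O.A'.C.nonempty
  obtain ⟨s', h1, h4⟩ := O.star hL hg hs
  have h5 : ad f (H98.cj g (φ s) - φ s') = -(H98.cj g (φ s) - φ s') := by
    rw [hF.adj_sub, adj_cj hF (O.A.iso hg), O.A.adjφ, O.A.adjφ, hs, h1, map_neg, map_neg, map_neg]
    abel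
  have hA : ∀ t, ad f₁ t = -t → Cm φ ((H98.cj g (φ s) - φ s') * ψ t -
      ψ t * (H98.cj g (φ s) - φ s')) := fun t ht => by
    obtain ⟨t', k1, k2⟩ := O.lie_dec h3 hL' hg hs ht
    have k3 : H98.cj g (φ s) * ψ t - ψ t * H98.cj g (φ s) =
        (H98.cj g (φ s) - φ s') * ψ t - ψ t * (H98.cj g (φ s) - φ s') := by
      rw [sub_mul, mul_sub, O.P.cm]; abel
    rw [k3] at k2
    have k4 := sub_mem (Sy.lie_cm h4 (O.P.cm t)) (Sy.of_cm hf h2 (O.P.cm t'))
    have k5 := skew_lie hF h5 (b := ψ t) (by rw [O.A'.adjφ, ht, map_neg])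
    generalize (H98.cj g (φ s) - φ s') * ψ t - ψ t * (H98.cj g (φ s) - φ s') = y at k2 k4 k5
    have k6 : y - ψ t' = 0 := eq_zero_of_skew hF h2
      (by rw [hF.adj_sub, k5, O.A'.adjφ, k1, map_neg]; abel) fun b =>
      O.skew_dec (Y := LinearMap.ker (Matrix.traceLinearMap ι F F ∘ₗ LinearMap.mulLeft F (y - ψ t')))
        (fun c s hc hs => k4 c s hc hs) (fun t s hs => k2 _ s (O.P'.cm t) hs) b
    rw [sub_eq_zero.1 k6]
    exact O.P.cm t'
  generalize hb : H98.cj g (φ s) - φ s' = b at h4 h5 hA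
  have hB : Cm φ b := cm_of_skew O.O fun u hu => by
    obtain ⟨w, hw⟩ := O.P'.rg (φ u * b - b * φ u) (cm_of_skew O.O' fun t ht => by
      have k1 := hA t ht u
      have k2 := O.P.cm t u
      rw [← sub_eq_zero] at k1 ⊢
      rw [← neg_eq_zero, ← k1]
      simp only [mul_sub, sub_mul, mul_assoc, k2]
      simp only [← mul_assoc, k2]
      abel)
    replace hw : φ w = _ := hw
    have k1 := skew_lie hF (a := φ u) (by rw [O.A.adjφ, hu, map_neg]) h5
    rw [← hw, O.A.adjφ, ← map_neg] at k1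
    obtain ⟨c, hc, e⟩ := exists_ptr_one (φ := φ)
    rw [← sub_eq_zero, ← hw, eq_zero_of_skew hf h2 (phi_injective k1) fun b' => ?_, map_zero]
    have k2 : ad f₂ (b' - ad f₂ b') = -(b' - ad f₂ b') := by rw [hf.adj_sub, hf.adj_adj, neg_sub]
    generalize b' - ad f₂ b' = r at k2
    have k3 := h4 c _ hc (skew_lie hf k2 hu)
    rw [← e w, trace_ptr_mul, ← hc, hw, ← k3, map_sub, map_mul, map_mul]
    simp only [mul_sub, sub_mul, mul_assoc, trace_sub]
    rw [trace_mul_comm (φ u), hc.left]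
    simp only [mul_assoc]
  obtain ⟨t', ht'⟩ := O.P.rg b hB
  exact ⟨s', t', h1, by rw [show ψ t' = b from ht', ← hb]; abel⟩

theorem dich (h3 : Nat.card F ≠ 3) (hL : LocA φ M f₂) (hL' : LocA ψ M f₁) {g : GL ι F}
    (hg : g ∈ M) : g ∈ KB φ ∨ ∀ b, Cm φ (H98.cj g (φ b)) := by
  have hf := O.A.C.ses
  have := O.A.C.nonempty
  obtain ⟨x, y, H⟩ := O.A.C.exists_hp
  obtain ⟨v, v1, v2, v3⟩ := exists_v O.O.C O.O.two H
  have a0 := Nv_ne_zero hf H v2 v1 (by rintro rfl; exact v3 (hf.zero_left _))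
  have a1 := TOB.adj_Nv hf x v
  generalize Nv f₂ x v = a at a0 a1
  obtain ⟨b, c, hb, e1⟩ := O.gg h3 hL hL' hg a1
  by_cases hl : b = 0
  · have top := O.O.lie_top (S := ψ.range.comap
      (((H98.cj g : _ ≃ₐ[F] _) : Matrix ι ι F →ₐ[F] Matrix ι ι F).comp φ)) (fun s hs t ⟨t', ht⟩ => by
        obtain ⟨d, d', -, e⟩ := O.gg h3 hL hL' hg hs
        refine ⟨d' * t' - t' * d', ?_⟩
        change ψ t' = H98.cj g (φ t) at ht
        change ψ _ = H98.cj g (φ _)
        simp only [map_sub, map_mul, ← ht, e, add_mul, mul_add, O.P.cm t' d]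
        abel) (s := a) ⟨c, by
        change ψ _ = H98.cj g (φ _)
        rw [e1, hl, map_zero, zero_add]⟩ a0 a1
    refine Or.inr fun b => ?_
    obtain ⟨t, ht⟩ : b ∈ ψ.range.comap
      (((H98.cj g : _ ≃ₐ[F] _) : Matrix ι ι F →ₐ[F] Matrix ι ι F).comp φ) := top ▸ Algebra.mem_top
    exact (show ψ t = H98.cj g (φ b) from ht) ▸ O.P.cm t
  obtain ⟨a', ha', hn⟩ : ∃ a', ad f₂ a' = -a' ∧ b * a' ≠ a' * b := by
    by_contra hc
    push Not at hc
    exact hl (O.O.skew_cent hb hc)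
  obtain ⟨b', c', hb', e2⟩ := O.gg h3 hL hL' (inv_mem hg) ha'
  have e3 : H98.cj g (φ (b' * a - a * b')) = φ (a' * b - b * a') := by
    have k : φ (b' * a - a * b') = H98.cj g⁻¹ (φ a') * φ a - φ a * H98.cj g⁻¹ (φ a') := by
      simp only [map_sub, map_mul, e2, add_mul, mul_add, O.P.cm c' a]; abel
    rw [k, map_sub, map_mul, map_mul, cj_cj_inv, e1]
    simp only [map_sub, map_mul, add_mul, mul_add, O.P.cm c a']; abel
  have top := O.O.lie_top (S := AG φ g) (fun s hs t ⟨t', ht⟩ => by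
      obtain ⟨d, d', -, e⟩ := O.gg h3 hL hL' hg hs
      refine ⟨d * t' - t' * d, ?_⟩
      change φ t' = H98.cj g (φ t) at ht
      change φ _ = H98.cj g (φ _)
      simp only [map_sub, map_mul, ← ht, e, add_mul, mul_add, O.P.cm d' t']
      abel) (s := b' * a - a * b') ⟨_, e3.symm⟩ (fun h => by
      rw [h, map_zero, map_zero, eq_comm, map_eq_zero_iff _ (phi_injective (φ := φ)),
        sub_eq_zero] at e3
      exact hn e3.symm) (skew_lie hf hb' a1)
  exact Or.inl (mem_KB_of fun b => mem_AG.1 (top ▸ Algebra.mem_top))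

theorem loc_or {K : Subgroup (GL ι F)} (hG' : HasGen ψ M K (RingEquiv.refl F) f f₁) :
    LocA φ M f₂ ∨ K ≤ M := by
  refine or_iff_not_imp_left.2 fun hL => ?_
  simp only [LocA, not_forall] at hL
  obtain ⟨x, h0, hx, hL⟩ := hL
  obtain ⟨y, H⟩ := O.A.C.partner h0 hx
  obtain ⟨x', y', H'⟩ := O.A'.C.exists_hp
  obtain ⟨c, hc, hn⟩ := O.lev H hL H'
  exact (O.A'.fullQ_of_aa (by rcases O.O'.k with k | k <;> omega) H' fun z hz => O.A'.aa_of_lev H'
    (O.P'.lev_all (simp_o O.A.C O.O.two O.O.hex fun _ => O.O.an) O.A.sub hc hn z hz)).elim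
    (hG' x' y' H')

theorem fin (h3 : Nat.card F ≠ 3) {K : Subgroup (GL ι F)}
    (hG : HasGen φ M K (RingEquiv.refl F) f f₂) (hG' : HasGen ψ M K (RingEquiv.refl F) f f₁)
    (hd : ¬ Fintype.card β ∣ Fintype.card α) : M ≤ KB φ ∨ K ≤ M := by
  have := O.A.C.nonempty
  refine (O.loc_or hG').elim (fun hL => (O.symm.loc_or hG).imp_left fun hL' g hg => ?_) Or.inr
  exact (O.dich h3 hL hL' hg).resolve_right (O.P.not_cm hd g)

end OP

omit [Finite F] [Nonempty ι] in
/-- The tensor product of a three-dimensional and a four-dimensional minus type space. -/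
theorem isMaximalIn_om_tensor_34 [Fintype F] {Q : (ι → F) → F} (hQ : IsNondegenerateQuadraticForm Q)
    (h2 : (2 : F) ≠ 0) (h3 : Fintype.card F ≠ 3) {e : ι ≃ Fin 3 × Fin 4} {P : GL ι F}
    {f₁ : (Fin 3 → F) → (Fin 3 → F) → F} {f₂ : (Fin 4 → F) → (Fin 4 → F) → F}
    (hf₁ : IsSymmetricForm f₁) (hf₂ : IsSymmetricForm f₂)
    (h4 : ¬ IsPlusTypeOn (fun v => f₂ v v) ⊤)
    (hT : IsTensorFormStructure id (QuadraticMap.polar Q) f₁ f₂ e P) :
    IsMaximalIn (omegaGL Q) (tensorProductSubgroup 3 4 e P ⊓ omegaGL Q) := by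
  have hn := card_of_tensor e
  refine isMaximalIn_inf (by
    obtain ⟨Q, rfl, h⟩ := H11.exists_qf hQ
    exact h.not_le_tensor h2 le_rfl (by omega) hf₁ hf₂ hT) fun M hH hM => ?_
  have : Nonempty ι := Fintype.card_pos_iff.1 (by omega)
  have B := amG_om hQ h2 (by omega)
  have s1 := isSesq_of_symmetric hf₁
  have s2 := isSesq_of_symmetric hf₂
  have hR : ∀ x, gφ (φR e P) x ∈ omegaGL Q → gφ (φR e P) x ∈ M := fun x hx => hH ⟨gφR_mem x, hx⟩
  have hL : ∀ x, gφ (φL e P) x ∈ omegaGL Q → gφ (φL e P) x ∈ M := fun x hx => hH ⟨gφL_mem x, hx⟩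
  have aR := adj_φR B.hf s1 s2 hT
  have aL := adj_φL B.hf s1 s2 hT
  have A := B.amb aR hM hR (B.cl_o s2 h2 (by simp) aR hR) fun h hh => hh.2
  have A' := B.amb aL hM hL (B.cl_o s1 h2 (by simp) aL hL) fun h hh => hh.2
  have O : OP (φR e P) (φL e P) M _ _ 1 (QuadraticMap.polar Q) f₂ f₁ :=
    ⟨pair_R e P (by omega), pair_L e P (by omega), A, A',
      ⟨A.C, h2, by simp, h4_of_minus s2 (fun _ => h4) h2 (by simp), by simp,
        fun b => B.ms_unip s2 aR hR⟩,
      ⟨A'.C, h2, by simp, an_of_three A'.C h2 (by simp), by simpa using h3,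
        fun b => B.ms_unip s1 aL hL⟩⟩
  exact (O.fin (by simpa using h3) (B.hasGen A hM (Or.inl (by simp [hn])))
    (B.hasGen A' hM (Or.inl (by simp [hn]))) (by simp)).imp_left (le_tensor_R (by omega) (by omega))

end Cfsg.Agent.H77
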