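import Cfsg.Agent.H9.TOLoc
import Cfsg.Agent.H9.TOPi

/-! Two small orthogonal tensor factors: failure of the local statement. -/

set_option autoImplicit false
set_option linter.unusedSectionVars false
set_option linter.unusedVariables false
set_option linter.unusedSimpArgs false

namespace Cfsg.Agent.H77

open scoped MatrixGroups Matrix
open Matrix Cfsg.Geo Cfsg.Agent.H98 Cfsg.Agent.H9

universe u

variable {ι α β : Type} [Fintype ι] [DecidableEq ι] [Fintype α] [DecidableEq α] [Fintype β]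
  [DecidableEq β] {F : Type u} [Field F]

/-- A pair of small orthogonal factors. -/
structure OP (φ : Matrix β β F →ₐ[F] Matrix ι ι F) (ψ : Matrix α α F →ₐ[F] Matrix ι ι F)
    (M : Subgroup (GL ι F)) (G : Subgroup (GL β F)) (G' : Subgroup (GL α F)) (ε : F)
    (f : (ι → F) → (ι → F) → F) (f₂ : (β → F) → (β → F) → F) (f₁ : (α → F) → (α → F) → F) :
    Prop where
  P : Pair φ ψ
  P' : Pair ψ φ
  A : Amb φ M G (RingEquiv.refl F) ε f 1 f₂
  A' : Amb ψ M G' (RingEquiv.refl F) ε f 1 f₁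
  O : OS f₂ G
  O' : OS f₁ G'

variable {φ : Matrix β β F →ₐ[F] Matrix ι ι F} {ψ : Matrix α α F →ₐ[F] Matrix ι ι F}
  {M : Subgroup (GL ι F)} {G : Subgroup (GL β F)} {G' : Subgroup (GL α F)} {ε : F}
  {f : (ι → F) → (ι → F) → F} {f₂ : (β → F) → (β → F) → F} {f₁ : (α → F) → (α → F) → F}
  {x y : β → F}

theorem OP.symm (O : OP φ ψ M G G' ε f f₂ f₁) : OP ψ φ M G' G ε f f₁ f₂ :=
  ⟨O.P', O.P, O.A', O.A, O.O', O.O⟩

theorem cp_cf' (h : ∀ b, Cm ψ (φ b)) (χ u : β → F) (ℓ : Matrix ι ι F →ₗ[F] F) (z : Matrix ι ι F) :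
    cp ψ ℓ (cf φ χ z u) = cp ψ (ℓ ∘ₗ cfL φ χ u) z := by
  ext a b
  rw [cp_apply, show cf ψ (bv F a) (cf φ χ z u) (bv F b) = cf φ χ (cf ψ (bv F a) z (bv F b)) u from
    (cf_sum _ _ _ _).trans
      (Finset.sum_congr rfl fun k _ => by rw [(h _).mul_cf, (h _).cf_mul])]
  rfl

variable [Finite F] [Nonempty ι]

theorem OP.jj_ne (O : OP φ ψ M G G' ε f f₂ f₁) (H : HP f₂ x y) (h : ¬ Loc φ M x) :
    ∃ j, JJ φ M f₂ x j ∧ j ≠ 0 := by
  by_contra hJ
  push Not at hJ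
  have A := O.A
  have hf := A.C.ses
  have h2 := O.O.two
  have D := H.ad hf
  obtain ⟨ρ, hρ, w, hw, hn⟩ := (A.nc H h).resolve_right fun ⟨j, h1, h3⟩ => h3 (hJ j h1 ▸ Sc.zero)
  obtain ⟨v, v1, v2, e⟩ := GO.decomp hf H w
  have e0 : cf φ (dl f₂ y) ρ x = 0 := by
    have := cf_mul_phi (φ := φ) (dl f₂ y) (br f₂ x y) ρ x
    rwa [br, Rho.mul_a D.Ea hρ, cf_zero, ← br, br_mulVec hf, H.xy, one_smul, eq_comm] at this
  rw [e, hw, zero_smul, add_zero, cf_add_right, cf_smul_right, e0, smul_zero, add_zero] at hn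
  have v3 : f₂ v v ≠ 0 := fun h0 => hn (by
    rw [O.O.an x y H v v1 v2 h0, cf_zero_right]; exact Sc.zero)
  have v4 := hf.eq_zero_comm.1 v1
  have v5 := hf.eq_zero_comm.1 v2
  have s : ∀ u, ρ * φ (br f₂ v u) = cf φ (dl f₂ y) ρ v * φ (br f₂ x u) := fun u => by
    rw [br, br, ← sandwich, show φ (vecMulVec x (dl f₂ y)) * ρ = ρ from Rho.a_mul hρ]
  have hc := cf_cm (φ := φ) (dl f₂ y) ρ v
  let R : Submodule F (Matrix ι ι F) :=
    { carrier := Rho M (φ (br f₂ x y)) (φ (pr f₂ 1 x y))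
      add_mem' := add_mem
      zero_mem' := zero_mem _
      smul_mem' := fun c _ h => A.rho_smul_o h2 H c h }
  have hR : ∀ g ∈ G', ∀ z ∈ R, H98.cj (gφ ψ g) z ∈ R := fun g hg z hz => by
    have := Rho.cj (O.A'.sub g hg) hz
    rwa [(O.P'.cm _).cj_gφ, (O.P'.cm _).cj_gφ] at this
  have hf' := O.A'.C.ses
  have c2 : adj (RingEquiv.refl F) f (cf φ (dl f₂ y) ρ v) = cf φ (dl f₂ y) ρ v := by
    have k1 := A.h0 H v4 v5
    have k0 := hρ
    rw [A.hp] at k0 k1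
    have := (A.pd H).comm_mem A.hf A.iso k0 k1
    have k2 : φ (br f₂ x v) * adj (RingEquiv.refl F) f ρ -
        ρ * adj (RingEquiv.refl F) f (φ (br f₂ x v)) =
        (adj (RingEquiv.refl F) f (cf φ (dl f₂ y) ρ v) - cf φ (dl f₂ y) ρ v) *
          φ (br f₂ x x) := by
      rw [A.adj_br, one_smul, s, show φ (br f₂ x v) * adj (RingEquiv.refl F) f ρ =
        adj (RingEquiv.refl F) f (ρ * φ (br f₂ v x)) by rw [A.hf.adj_mul, A.adj_br, one_smul], s,
        A.hf.adj_mul, A.adj_br, one_smul, A.cm_adj hc, ← sub_mul]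
    rw [k2] at this
    exact sub_eq_zero.1 (hJ _ (A.jj_of_zed H ((A.cm_adj hc).sub hc) this))
  obtain ⟨t, ht⟩ := O.P.rg _ hc
  replace ht : ψ t = _ := ht
  obtain ⟨u, hu, hu'⟩ : ∃ z, f₁ z z = 0 ∧ f₁ (t *ᵥ z) z ≠ 0 := by
    by_contra hz
    push Not at hz
    obtain ⟨a, e⟩ := PasO.adj_eq O.O'.C h2 O.O'.hex hz
    rw [phi_injective (φ := ψ) (show ψ (adj (RingEquiv.refl F) f₁ t) = ψ t by
      rw [← O.A'.adjφ, ht, c2]), eq_sub_iff_add_eq, ← two_smul F] at e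
    exact hn (ht ▸ Sc.phi (Sc.of_smul h2 ⟨a, e⟩))
  have u0 : u ≠ 0 := by rintro rfl; exact hu' (hf'.zero_right _)
  obtain ⟨T, hT, e1⟩ := PasO.opE1 O.O'.C h2 O.O'.hex hu u0
  obtain ⟨ρ', hρ', e2⟩ := exists_tens hT hR (z := ρ) hρ
  have r0 : ρ' ≠ 0 := by
    rintro rfl
    obtain ⟨ℓ, hℓ⟩ := not_forall.1 fun h => one_ne_zero (α := Matrix ι ι F)
      ((Module.forall_dual_apply_eq_zero_iff F _).1 h)
    have := e2 (ℓ ∘ₗ cfL φ (dl f₂ y) v)
    rw [map_zero, ← cp_cf' O.P'.cm, ← ht, ← one_mul (ψ t), Cm.one.cp_mul_phi, map_smul,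
      e1] at this
    exact smul_ne_zero hℓ (smul_ne_zero hu' (br_ne_zero hf' u0 u0)) this.symm
  obtain ⟨p, q, r, e3⟩ := pure_of_cp (φ := ψ) (w := ρ') (br_ne_zero hf' u0 u0) fun ℓ =>
    ⟨_, by rw [e2, e1]⟩
  obtain ⟨b, hb⟩ := O.P'.rg _ ((cf_cm (φ := ψ) (bv F p) ρ' (bv F q)).smul r)
  replace hb : φ b = _ := hb
  rw [← hb, O.P.cm] at e3
  have n0 : ψ (br f₁ u u) ≠ 0 := fun h =>
    br_ne_zero hf' u0 u0 (phi_injective (φ := ψ) (h.trans (map_zero _).symm))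
  have canc : ∀ {b b'}, ψ (br f₁ u u) * φ b = ψ (br f₁ u u) * φ b' → b = b' :=
    fun {b b'} e => by_contra fun h => n0 ((O.P.cm _).eq_zero_of_mul (sub_ne_zero.2 h)
      (by rw [map_sub, mul_sub, e, sub_self]))
  have b1 : br f₂ x (adj (RingEquiv.refl F) f₂ b *ᵥ y) = b := canc (by
    rw [← br_mul hf, map_mul, ← (O.P.cm _).left, ← e3]; exact Rho.a_mul hρ')
  have b2 : b * (pr f₂ 1 x y - br f₂ x y) = b := canc (by
    rw [map_mul, ← mul_assoc, ← e3]; exact D.rho_mul hρ')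
  generalize adj (RingEquiv.refl F) f₂ b *ᵥ y = v' at b1
  subst b1
  have b3 : f₂ x v' = 0 := by
    have := congrArg (· *ᵥ x) b2
    simp only [← mulVec_mulVec, sub_mulVec, pr_fix hf H.xx, br_mulVec hf, H.xy, one_smul, sub_self,
      hf.zero_left, zero_smul] at this
    exact (smul_eq_zero.1 this.symm).resolve_right (H.ne hf)
  have b4 : f₂ y v' = 0 := by
    have := congrArg (· *ᵥ y) b2
    simp only [← mulVec_mulVec, sub_mulVec, H.pr_y hf, br_mulVec hf, H.yy, one_smul, sub_self,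
      hf.zero_left, zero_smul] at this
    exact (smul_eq_zero.1 this.symm).resolve_right (H.ne hf)
  have b5 : f₂ v' v' ≠ 0 := fun h0 => r0 (by
    rw [e3, O.O.an x y H v' (hf.eq_zero_comm.1 b3) (hf.eq_zero_comm.1 b4) h0, br_zero_right hf,
      map_zero, mul_zero])
  obtain ⟨u', H'⟩ := O.O'.C.partner u0 hu
  obtain ⟨g, hg, a, ha, e4⟩ := O.O'.C.trans hu H'.yy u0 (H'.ne' hf')
  have k1 := hR g hg _ hρ'
  rw [e3, map_mul, (O.P'.cm _).cj_gφ, cj_gφ, cj_br hf' (O.O'.C.le hg), e4] at k1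
  have k2 := TOL.comm A H hJ b3 b4 b5 (O.P.cm _) (O.P.cm _) (e3 ▸ hρ') k1
  rw [← map_mul, ← map_mul] at k2
  have k3 := congrArg (· *ᵥ u) (phi_injective k2)
  simp only [← mulVec_mulVec, br_mulVec hf', hu, zero_smul, mulVec_zero, hf'.smul_left,
    hf'.smul_right, H'.xy, H'.yx hf', RingEquiv.refl_apply, mul_one, hf'.zero_left] at k3
  exact smul_ne_zero (mul_ne_zero ha ha) u0 (by simpa using k3)


theorem skew_cent_Nv (O : OS f₂ G) (H : HP f₂ x y) {s : Matrix β β F}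
    (hs : adj (RingEquiv.refl F) f₂ s = -s)
    (h : ∀ v, f₂ v x = 0 → φ (eo f₂ x v) * φ s = φ s * φ (eo f₂ x v)) :
    ∃ w, f₂ w x = 0 ∧ f₂ w y = 0 ∧ s = PasO.Nv f₂ x w := by
  have hf := O.C.ses
  obtain ⟨a, b, w, w1, w2, e⟩ := O.cent H (s := s) fun v hv _ => by
    have k : ∀ v, f₂ v x = 0 → eo f₂ x v * s = s * eo f₂ x v := fun v hv =>
      phi_injective (φ := φ) (by rw [map_mul, map_mul, h v hv])
    rw [TOP.Nv_eq hf O.two, smul_mul_assoc, mul_smul_comm, sub_mul, mul_sub, k v hv,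
      k (-v) (by rw [hf.neg_left, hv, neg_zero])]
  refine ⟨w, w1, w2, smul_right_injective _ O.two ?_⟩
  have e2 := hs
  rw [e, hf.adj_add, hf.adj_add, hf.adj_smul, hf.adj_smul, hf.adj_one, adj_br hf, TOB.adj_Nv hf,
    one_smul, RingEquiv.refl_apply, RingEquiv.refl_apply] at e2
  have e3 : (2 : F) • (a • (1 : Matrix β β F) + b • br f₂ x x) = 0 := by
    rw [← sub_eq_zero] at e2; rw [← e2]; module
  simp only
  rw [e, show a • (1 : Matrix β β F) + PasO.Nv f₂ x w + b • br f₂ x x =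
    PasO.Nv f₂ x w + (a • (1 : Matrix β β F) + b • br f₂ x x) by abel, smul_add, e3, add_zero]

theorem OP.lev (O : OP φ ψ M G G' ε f f₂ f₁) (H : HP f₂ x y) (h : ¬ Loc φ M x) {x' y' : α → F}
    (H' : HP f₁ x' y') : ∃ c ∈ Lev M (ψ (br f₁ x' y')) (ψ (pr f₁ 1 x' y')) ψ true, ¬ Sc c := by
  classical
  obtain ⟨j₀, hj₀, j0⟩ := O.jj_ne H h
  have A := O.A
  have hf := O.A'.C.ses
  have h2 := O.O.two
  have := Fintype.ofFinite F
  let J : AddSubgroup (Matrix ι ι F) :=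
    { carrier := {j | JJ φ M f₂ x j}
      add_mem' := A.jj_add H.xx
      zero_mem' := A.jj_zero
      neg_mem' := A.jj_neg H.xx }
  have em : ∀ {v w}, f₁ v x' = 0 → f₁ w x' = 0 → eo f₁ x' v * eo f₁ x' w = eo f₁ x' (v + w) :=
    fun hv hw => TOP.eo_mul hf h2 H'.xx hv hw
  have ng : ∀ {v}, f₁ v x' = 0 → f₁ (-v) x' = 0 := fun hv => by rw [hf.neg_left, hv, neg_zero]
  have e1 : ∀ {v}, f₁ v x' = 0 → eo f₁ x' v * eo f₁ x' (-v) = 1 := fun hv => by
    rw [em hv (ng hv), add_neg_cancel, TOP.eo_zero hf]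
  let D : (α → F) → Module.End F (Matrix ι ι F) := fun a =>
    LinearMap.mulLeft F (ψ (eo f₁ x' a)) * LinearMap.mulRight F (ψ (eo f₁ x' (-a))) - 1
  have hD : ∀ a z, D a z = ψ (eo f₁ x' a) * (z * ψ (eo f₁ x' (-a))) - z := fun _ _ => rfl
  have cm : ∀ {v w}, f₁ v x' = 0 → f₁ w x' = 0 →
      ψ (eo f₁ x' v) * ψ (eo f₁ x' w) = ψ (eo f₁ x' w) * ψ (eo f₁ x' v) := fun hv hw => by
    rw [← map_mul, ← map_mul, em hv hw, em hw hv, add_comm]
  obtain ⟨ζ, hζ, z0, hz⟩ := common_ker (Finset.univ.filter fun a : α → F => f₁ a x' = 0)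
    (fun a => (D a).toAddMonoidHom) (fun a ha b hb z => by
      simp only [Finset.mem_filter] at ha hb
      have k1 := cm ha.2 hb.2
      have k2 := cm (ng ha.2) (ng hb.2)
      simp only [LinearMap.toAddMonoidHom_coe, hD, mul_sub, sub_mul, mul_assoc, k2]
      simp only [← mul_assoc, k1]
      abel)
    (fun a ha => by
      simp only [Finset.mem_filter] at ha
      have n : ∀ {v}, f₁ v x' = 0 → IsNilpotent (ψ (eo f₁ x' v) - 1) := fun hv =>
        ⟨3, by rw [← map_one ψ, ← map_sub, ← map_pow, eo, elm_sub_one_cube hf H'.xx hv, map_zero]⟩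
      have l1 := (LinearMap.isNilpotent_mulLeft_iff F _).2 (n ha.2)
      have l2 := (LinearMap.isNilpotent_mulRight_iff F _).2 (n (ng ha.2))
      obtain ⟨m, hm⟩ := Commute.isNilpotent_add (x := LinearMap.mulLeft F (ψ (eo f₁ x' a) - 1))
          (y := LinearMap.mulLeft F (ψ (eo f₁ x' a)) *
            LinearMap.mulRight F (ψ (eo f₁ x' (-a)) - 1)) (by
              ext1 z; simp only [Module.End.mul_apply, LinearMap.mulLeft_apply,
                LinearMap.mulRight_apply]; noncomm_ring) l1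
          ((LinearMap.commute_mulLeft_right _ _).isNilpotent_mul_left l2)
      refine ⟨m, fun z => ?_⟩
      rw [LinearMap.toAddMonoidHom_coe, ← Module.End.pow_apply, show D a = _ from ?_, hm,
        LinearMap.zero_apply]
      ext1 z
      simp only [hD, LinearMap.add_apply, Module.End.mul_apply, LinearMap.mulLeft_apply,
        LinearMap.mulRight_apply]
      noncomm_ring)
    J (fun a ha z hz => by
      simp only [Finset.mem_filter] at ha
      obtain ⟨g, hg, e⟩ := mem_matrixSet.1 (O.O'.eo_mem H'.xx ha.2)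
      have hc : Cm φ (gφ ψ g) := O.P.cm _
      have := A.jj_cj (O.A'.sub g hg) (φ' := φ) (x' := x) (c := 1)
        (by rw [cj_eq_iff, one_smul, hc]) hz (hz.1.cj (mem_KB_of_cm hc))
      rw [one_smul, cj_apply, coe_gφ, coe_gφ_inv, Units.inv_eq_of_mul_eq_one_right (e ▸ e1 ha.2), e,
        mul_assoc] at this
      exact sub_mem (show _ ∈ J from this) hz) (z := j₀) hj₀ j0
  obtain ⟨s, rfl⟩ := O.P.rg ζ hζ.1
  change ψ s ∈ J at hζ
  change ψ s ≠ 0 at z0
  obtain ⟨w, w1, w2, rfl⟩ := skew_cent_Nv (φ := ψ) O.O' H' (s := s) (phi_injective (φ := ψ) (by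
    rw [← O.A'.adjφ, A.jj_adj H.xx (H.ne A.C.ses) hζ, one_smul, map_neg])) fun v hv => by
      have h0 : D v (ψ s) = 0 := hz v (by simp [hv])
      rw [hD, sub_eq_zero] at h0
      have := congrArg (· * ψ (eo f₁ x' v)) h0
      simp only [mul_assoc, ← map_mul ψ (eo f₁ x' (-v))] at this
      rwa [mul_eq_one_comm.1 (e1 hv), map_one, mul_one] at this
  have w3 : f₁ w w ≠ 0 := fun h0 => z0 (by
    rw [O.O'.an x' y' H' w w1 w2 h0, PasO.Nv, br_zero_left, br_zero_right hf, sub_self, map_zero])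
  refine O.A'.lev_of_nil h2 H' w1 w2 w3 (O.P'.cm (br f₂ x x)) (fun h0 => ?_) ?_ ?_
  · exact br_ne_zero A.C.ses (H.ne A.C.ses) (H.ne A.C.ses)
      (phi_injective (φ := φ) (h0.trans (map_zero _).symm))
  · rw [← map_mul, br_mul_br A.C.ses, H.xx]; simp
  · have := hζ.2
    rwa [← O.P.cm] at this

end Cfsg.Agent.H77
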