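import Cfsg.Agent.H77.TPLoc

/-! Two small orthogonal tensor factors: the self-adjoint equivariant projection. -/

set_option autoImplicit false
set_option linter.unusedSectionVars false
set_option linter.unusedVariables false
set_option linter.unusedSimpArgs false

namespace Cfsg.Agent.H77

open scoped MatrixGroups Matrix
open Matrix Cfsg.Geo Cfsg.Agent.H98 Cfsg.Agent.H9 PasO TOP

universe u

variable {ι α β : Type} [Fintype ι] [DecidableEq ι] [Fintype α] [DecidableEq α] [Fintype β]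
  [DecidableEq β] {F : Type u} [Field F]

variable {φ : Matrix β β F →ₐ[F] Matrix ι ι F} {ψ : Matrix α α F →ₐ[F] Matrix ι ι F}

variable (φ) in
theorem exists_Pi_sa (M : Subgroup (GL ι F)) [Finite F] :
    ∃ Pi : Matrix ι ι F →ₗ[F] Matrix ι ι F, (∀ g ∈ M, ∀ z, Pi (H98.cj g z) = H98.cj g (Pi z)) ∧
      (∀ z w, (Pi z * w).trace = (Pi w * z).trace) ∧
      ∀ (A : Type u) [AddCommGroup A] [Fintype A] (ε : A → GL ι F),
        (∀ a b, ε (a + b) = ε a * ε b) → (∀ a, ε a ∈ M) → (∀ a, ε a ∈ KB φ) →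
        (¬ ∀ a, Cm φ (ε a)) →
        (∀ g ∈ M, ∀ a, a ≠ 0 → g⁻¹ * ε a * g ∈ KB φ → ∀ a', g⁻¹ * ε a' * g ∈ KB φ) →
        ∀ (U : Subgroup (GL ι F)), U ≤ M → U ≤ KB φ → IsPGroup (ringChar F) U →
        (∀ u ∈ U, ∀ a, u * ε a = ε a * u) →
        (∀ g ∈ M, (∀ a, g⁻¹ * ε a * g ∈ KB φ) → (¬ ∀ a, Cm φ (H98.cj g⁻¹ (ε a))) →
          (∀ u ∈ U, g⁻¹ * u * g ∈ KB φ) → g ∈ KB φ) →
        ∀ z, (∀ a, H98.cj (ε a) z = z) →
        (∀ g ∈ M, (∀ a, Cm φ (H98.cj g⁻¹ (ε a))) → piG φ g z = 0) →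
        (∀ g ∈ M, (∀ a, g⁻¹ * ε a * g ∈ KB φ) → (¬ ∀ a, Cm φ (H98.cj g⁻¹ (ε a))) →
          piG φ g z = φ (ptr φ z)) →
        ∃ w, Pi z - φ (ptr φ z) = nrm ε w := by
  classical
  let K : Subgroup M := (KB φ).subgroupOf M
  have : Fintype (M ⧸ K) := Fintype.ofFinite _
  obtain ⟨f, hfg⟩ : ∃ f : M ⧸ K → Matrix ι ι F →ₗ[F] Matrix ι ι F, ∀ g : M, f g = piG φ g :=
    ⟨Quotient.lift (fun g : M => piG φ g) (by
    intro a b hab
    have h1 : a⁻¹ * b ∈ K := QuotientGroup.leftRel_apply.1 hab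
    have h2 : (b : GL ι F) = a * ((a⁻¹ * b : M) : GL ι F) := by simp
    show piG φ a = piG φ b
    rw [h2, piG_mul_KB _ (Subgroup.mem_subgroupOf.1 h1)]), fun g => rfl⟩
  have ind : ∀ B : M ⧸ K, ∃ g : M, B = g := fun B => (QuotientGroup.mk_surjective B).imp
    fun g hg => hg.symm
  have hf : ∀ (g : M) (B : M ⧸ K) z, f (g • B) z = H98.cj (g : GL ι F) (f B (H98.cj (g : GL ι F)⁻¹ z)) := by
    intro g B z
    obtain ⟨b, rfl⟩ := ind B
    rw [show g • (b : M ⧸ K) = ((g * b : M) : M ⧸ K) from rfl, hfg, hfg]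
    exact piG_mul _ _ _
  refine ⟨∑ B, f B, fun g hg z => ?_, fun z w => ?_, ?_⟩
  · rw [LinearMap.sum_apply, LinearMap.sum_apply, map_sum]
    refine (Fintype.sum_equiv (MulAction.toPerm (⟨g, hg⟩ : M)) _ _ fun B => ?_).symm
    rw [MulAction.toPerm_apply, hf, cj_inv_cj]
  · rw [LinearMap.sum_apply, LinearMap.sum_apply, Finset.sum_mul, Finset.sum_mul, trace_sum,
      trace_sum]
    refine Finset.sum_congr rfl fun B _ => ?_
    obtain ⟨b, rfl⟩ := ind B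
    rw [hfg, piG_apply, piG_apply, trace_cj_mul, trace_cj_mul, trace_mul_comm, ← trace_ptr_mul,
      trace_mul_comm (φ _), ← trace_ptr_mul, trace_mul_comm]
  intro A _ _ ε hε hM hK hn hfree U hUM hUK hU hUε hUfix z hz hC hB
  let e : A → M := fun a => ⟨ε a, hM a⟩
  have hfix : ∀ (k g : M), k • (g : M ⧸ K) = g ↔ (g : GL ι F)⁻¹ * k * g ∈ KB φ := fun k g => by
    rw [show k • (g : M ⧸ K) = ((k * g : M) : M ⧸ K) from rfl, eq_comm, QuotientGroup.eq,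
      Subgroup.mem_subgroupOf]
    simp [mul_assoc]
  obtain ⟨c, hc⟩ : ∃ c : M ⧸ K → Prop, ∀ g : M, c g ↔ ∀ a, Cm φ (H98.cj (g : GL ι F)⁻¹ (ε a)) :=
    ⟨Quotient.lift (fun g : M => ∀ a, Cm φ (H98.cj (g : GL ι F)⁻¹ (ε a))) (by
    have key : ∀ a b : M, a⁻¹ * b ∈ K → (∀ x, Cm φ (H98.cj (a : GL ι F)⁻¹ (ε x))) →
        ∀ x, Cm φ (H98.cj (b : GL ι F)⁻¹ (ε x)) := fun a b hab h x => by
      have := (h x).cj ((KB φ).inv_mem (Subgroup.mem_subgroupOf.1 hab))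
      rw [← cj_mul] at this
      simpa using this
    intro a b hab
    have h1 : a⁻¹ * b ∈ K := QuotientGroup.leftRel_apply.1 hab
    exact propext ⟨key a b h1, key b a (by simpa using K.inv_mem h1)⟩), fun g => Iff.rfl⟩
  have := sum_split (F := F) e (fun a b => Subtype.ext (hε a b)) (fun B => f B z) c
    (LinearMap.range (nrm ε)).toAddSubgroup (φ (ptr φ z)) ?_ ?_ ?_ ?_ (U.subgroupOf M)
    (hU.comap_of_injective _ Subtype.val_injective) (fun u hu a => Subtype.ext (hUε _ hu a)) ?_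
    (B₀ := ((1 : M) : M ⧸ K)) (fun a => (hfix _ _).2 (by simpa [e] using hK a))
    (fun h => hn fun a => by simpa [H98.cj_one] using (hc 1).1 h a)
    (fun u hu => (hfix _ _).2 (by simpa using hUK hu)) ?_
  · obtain ⟨w, hw⟩ := this
    exact ⟨w, by rw [LinearMap.sum_apply]; exact hw.symm⟩
  · intro B a ha h a'
    obtain ⟨b, rfl⟩ := ind B
    exact (hfix (e a') b).2 (hfree b b.2 a ha ((hfix (e a) b).1 h) a')
  · intro B
    refine ⟨f B z, ?_⟩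
    rw [nrm_apply]
    refine Finset.sum_congr rfl fun a _ => ?_
    rw [hf]
    congr 2
    conv_lhs => rw [← cj_inv_cj (ε a) z, hz]
  · intro B h
    obtain ⟨b, rfl⟩ := ind B
    exact hfg b ▸ hC b b.2 ((hc b).1 h)
  · intro B h h'
    obtain ⟨b, rfl⟩ := ind B
    exact hfg b ▸ hB b b.2 (fun a => (hfix (e a) b).1 (h a)) fun h2 => h' ((hc b).2 h2)
  · intro u hu B h3
    obtain ⟨b, rfl⟩ := ind B
    refine (hc b).2 fun a => ?_
    have h4 : Cm φ (H98.cj ((u : GL ι F) * (b : GL ι F))⁻¹ (ε a)) := (hc (u * b)).1 h3 a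
    rwa [_root_.mul_inv_rev, cj_mul, cj_coe (u : GL ι F)⁻¹, mul_assoc, inv_inv,
      ← hUε u hu, inv_mul_cancel_left] at h4
  · intro B h1 h2 h3
    obtain ⟨b, rfl⟩ := ind B
    have := hUfix b b.2 (fun a => (hfix (e a) b).1 (h1 a)) (fun h => h2 ((hc b).2 h)) fun u hu =>
      (hfix ⟨u, hUM hu⟩ b).1 (h3 ⟨u, hUM hu⟩ hu)
    refine (QuotientGroup.eq.2 ?_).symm
    rw [Subgroup.mem_subgroupOf]
    simpa using this

variable {M : Subgroup (GL ι F)} {G : Subgroup (GL β F)} {G' : Subgroup (GL α F)} {ε : F}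
  {f : (ι → F) → (ι → F) → F} {f₂ : (β → F) → (β → F) → F} {f₁ : (α → F) → (α → F) → F}
  {x y : β → F} [Finite F] [Nonempty ι]

theorem OP.fix (O : OP φ ψ M G G' ε f f₂ f₁) (hL : LocA φ M f₂) (H : HP f₂ x y) {x' y' : α → F}
    (H' : HP f₁ x' y') {g : GL ι F} (hg : g ∈ M) (hm : Mov φ g x x) (h : ∀ w, f₁ w x' = 0 →
      ∀ e : GL α F, (e : Matrix α α F) = eo f₁ x' w → g⁻¹ * gφ ψ e * g ∈ KB φ) :
    g ∈ KB φ := by
  have A := O.A
  have hf := A.C.ses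
  have h2 := O.O.two
  have := A.C.nonempty
  by_cases h7 : 7 ≤ Nat.card F
  · exact (A.actL hL).mem_KB (geoL_o A.C h2 (Or.inr h7)) hg ⟨H.ne hf, H.xx⟩ (H.ne hf) hm
  obtain ⟨ζ, k, hk, h3, h4, e⟩ := bdec A O.O hL H hg hm
  have hn : φ (br f₂ x x) * φ (br f₂ x x) = 0 := by
    rw [← map_mul, br_mul_br hf, H.xx, zero_smul, map_zero]
  have e1 : ((g * k⁻¹ : GL ι F) : Matrix ι ι F) = 1 + ζ * φ (br f₂ x x) := by
    rw [Units.val_mul, e, Units.mul_inv_cancel_right]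
  have e2 : (((g * k⁻¹)⁻¹ : GL ι F) : Matrix ι ι F) = 1 - ζ * φ (br f₂ x x) :=
    Units.inv_eq_of_mul_eq_one_right (by
      rw [e1, add_mul, mul_sub, mul_sub, mul_assoc ζ, mul_assoc ζ, h3.left, hn]; simp)
  have key : ∀ w, f₁ w x' = 0 → ψ (eo f₁ x' w) * ζ = ζ * ψ (eo f₁ x' w) := fun w a1 => by
    obtain ⟨e, he, ee⟩ := O.O'.eo_mem H'.xx a1
    have c1 : Cm φ (gφ ψ e : GL ι F) := O.P.cm _
    have c2 := h3.cj (mem_KB_of_cm c1)
    have := eq_zero_of_KB A O.O H (c2.sub h3) (by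
      rw [A.hf.adj_sub, adj_cj A.hf (A.iso (O.A'.sub e he)), h4, map_neg]; abel)
      (k := (g * k⁻¹)⁻¹ * (gφ ψ e * (g * k⁻¹) * (gφ ψ e)⁻¹)) (by
        have := mul_mem (mul_mem (mul_mem hk (h w a1 e ee)) (inv_mem hk))
          (inv_mem (mem_KB_of_cm c1))
        simpa [mul_assoc] using this) (by
        rw [Units.val_mul, ← cj_coe, e1, e2, map_add, map_one, map_mul,
          (cj_eq_iff _ _ _).2 (c1 _).symm, sub_mul, mul_add, mul_add, mul_assoc ζ, mul_assoc ζ,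
          c2.left, hn, sub_mul]
        simp only [mul_one, one_mul, mul_zero, add_zero]; abel)
    rwa [sub_eq_zero, cj_eq_iff, coe_gφ, show (e : Matrix α α F) = _ from ee] at this
  have := zeta_zero A O.O (prime_field h2 h7) hL H hg hk h3 h4 (by
    obtain ⟨s, rfl⟩ := O.P.rg ζ h3
    change adj _ f (ψ s) = -ψ s at h4
    obtain ⟨w, w1, -, rfl⟩ := skew_cent_Nv (φ := ψ) O.O' H' (s := s) (phi_injective (φ := ψ) (by
      rw [← O.A'.adjφ, h4, map_neg])) key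
    exact ⟨3, by
      change ψ _ ^ 3 = 0
      rw [← map_pow, pow_succ', pow_two, Nv_mul O.A'.C.ses H'.xx w1 w1, mul_smul_comm,
        Nv_mul_n O.A'.C.ses H'.xx w1, smul_zero, map_zero]⟩) e
  rw [this, zero_mul, add_zero, one_mul] at e
  exact Units.ext e ▸ hk

theorem OP.exists_Pi (O : OP φ ψ M G G' ε f f₂ f₁) (hL : LocA φ M f₂) :
    ∃ Pi : Matrix ι ι F →ₗ[F] Matrix ι ι F, (∀ g ∈ M, ∀ z, Pi (H98.cj g z) = H98.cj g (Pi z)) ∧
      (∀ z w, (Pi z * w).trace = (Pi w * z).trace) ∧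
      ∀ c, Cm φ c → ∀ s, adj (RingEquiv.refl F) f₂ s = -s →
        Pi (c * φ s) = φ (ptr φ (c * φ s)) := by
  obtain ⟨Pi, hP, hsa, h⟩ := exists_Pi_sa φ M
  obtain ⟨x', y', H'⟩ := O.A'.C.exists_hp
  have hf' := O.A'.C.ses
  refine ⟨Pi, hP, hsa, fun c hc s hs => sub_eq_zero.1 ?_⟩
  have A := O.A
  have Os := O.O
  have hf := A.C.ses
  have h2 := Os.two
  refine Os.skew_span (Z := LinearMap.ker (dfc φ Pi c)) (fun x w hx hw => ?_) hs
  by_cases h0 : x = 0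
  · simp [h0, Nv, br_zero_left, br_zero_right hf]
  obtain ⟨y, H⟩ := A.C.partner h0 hx
  obtain ⟨v, a1, a2, ew⟩ := GO.decomp hf H w
  rw [ew, hw, zero_smul, add_zero, Nv_add hf, Nv_smul hf, Nv_self, smul_zero, add_zero,
    LinearMap.mem_ker]
  obtain ⟨B, _, _, L, hW, hi, ⟨b₀, hb₀⟩, hB, hs⟩ := TOP.fam (ι := ι) Os H
  choose e he ee using fun a => Os.eo_mem H.xx (hW a).1
  replace ee : ∀ a, (e a : Matrix β β F) = eo f₂ x (L a) := ee
  let S : Set (GL ι F) := {u | ∃ w, f₁ w x' = 0 ∧ ∃ e : GL α F,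
    (e : Matrix α α F) = eo f₁ x' w ∧ u = gφ ψ e}
  have hS : Subgroup.closure S ≤ CG φ := (Subgroup.closure_le _).2 (by
    rintro _ ⟨w, -, e, -, rfl⟩; exact O.P.cm _)
  have tri : ∀ g ∈ M, ∀ a, g⁻¹ * gφ φ (e a) * g ∈ KB φ →
      H98.cj g⁻¹ (φ (eo f₂ x (L a))) ∈ φ.range ∨ Cm φ (H98.cj g⁻¹ (φ (eo f₂ x (L a)))) :=
    fun g hg a h => ee a ▸ tri_o A Os hL H (M.inv_mem hg) (hW a).1 (hW a).2 (ee a)
      (by rwa [inv_inv])
  have key : ∀ g ∈ M, (∀ a, g⁻¹ * gφ φ (e a) * g ∈ KB φ) →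
      (¬ ∀ a, Cm φ (H98.cj g⁻¹ (gφ φ (e a) : GL ι F))) →
      ∃ g₁ ∈ M, Mov φ g₁ x x ∧ g₁⁻¹ * g ∈ KB φ := fun g hg h1 h3 => by
    obtain ⟨a, ha⟩ := not_forall.1 h3
    rw [coe_gφ, ee] at ha
    exact (rng A Os hL H hg (hW a).1 (hW a).2 (fun h => ha (by
      rw [h, eo_zero hf, map_one, map_one]; exact Cm.one)) ((tri g hg a (h1 a)).resolve_right ha)).2
  have hn : ∀ {ζ}, Cm φ ζ → ∀ {u : GL ι F}, (u : Matrix ι ι F) = 1 + ζ * φ (br f₂ x x) →
      ∀ {d}, Cm φ d → H98.cj u (d * φ (Nv f₂ x v)) = d * φ (Nv f₂ x v) := fun hζ u hu d hd => by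
    rw [cj_eq_iff, hu, add_mul, mul_add, mul_assoc, mul_assoc d _ (_ * _), hd.left, hζ.left,
      ← map_mul, ← map_mul, n_mul_Nv hf hx a1, Nv_mul_n hf hx a1]
    simp
  refine (h B (fun a => gφ φ (e a)) (fun a b => by
      rw [← map_mul]; congr 1
      exact Units.ext (by rw [Units.val_mul, ee, ee, ee, eo_mul hf h2 hx (hW a).1 (hW b).1, map_add]))
    (fun a => A.sub _ (he a)) (fun a => gφ_mem_KB _) (fun h => ?_)
    (fun g hg a ha h1 a' => conj_mem_KB (ee a' ▸ (tri g hg a h1).imp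
      (fun h => (rng A Os hL H hg (hW a).1 (hW a).2 (hi a ha) h).1 _ (hW a').1)
      fun h => cmt A Os hL H hg (hW a).1 (hW a).2 (hi a ha) h (hW a').1 (hW a').2))
    (Subgroup.closure S) ((Subgroup.closure_le _).2 (by
      rintro _ ⟨w, b1, e, he, rfl⟩
      exact O.A'.sub e (mem_of_ms (he ▸ O.O'.eo_mem H'.xx b1))))
    (fun u hu => mem_KB_of_cm (hS hu)) (isPGroup_closure ?_ ?_)
    (fun u hu a => Units.ext (hS hu (e a)).symm) (fun g hg h1 h3 h4 => ?_) (c * φ (Nv f₂ x v))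
    (fun a => ?_) (fun g hg h1 => piG_eq_zero fun b => ?_) fun g hg h1 h3 => ?_).elim fun w hw => ?_
  · obtain ⟨a, ha⟩ := scalar_of_cm_phi (h b₀)
    have := congrArg (fun z => f₂ (L b₀) (z *ᵥ y)) ha
    simp only [ee, eo, elm_partner hf H (hW b₀).2, smul_mulVec, one_mulVec, hf.sub_right,
      hf.add_right, smul_r hf, (hW b₀).1, (hW b₀).2, mul_zero, add_zero, zero_sub, neg_eq_zero] at this
    exact hi b₀ hb₀ (Os.an x y H _ (hW b₀).1 (hW b₀).2 this)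
  · rintro _ ⟨w, b1, e, he, rfl⟩ _ ⟨w', b2, e', he', rfl⟩
    refine Units.ext ?_
    rw [← map_mul, ← map_mul, coe_gφ, coe_gφ, Units.val_mul, Units.val_mul, he, he',
      eo_mul hf' h2 H'.xx b1 b2, eo_mul hf' h2 H'.xx b2 b1, add_comm]
  · rintro _ ⟨w, b1, e, he, rfl⟩
    rw [← map_pow, show e ^ ringChar F = 1 from Units.ext (by
      rw [Units.val_pow_eq_pow_val, he, eo_pow hf' h2 H'.xx b1, ringChar.Nat.cast_ringChar, zero_smul,
        eo_zero hf', Units.val_one]), map_one]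
  · obtain ⟨g₁, c1, c2, c3⟩ := key g hg h1 h3
    have := O.fix hL H H' c1 c2 fun w b1 e he => by
      have := mul_mem (mul_mem c3 (h4 _ (Subgroup.subset_closure ⟨w, b1, e, he, rfl⟩)))
        (inv_mem c3)
      simpa [mul_assoc] using this
    simpa using mul_mem this c3
  · rw [hc.cj_gφ_mul, (cj_eq_iff _ _ _).2]
    rw [ee, Nv_eq hf h2, mul_smul_comm, smul_mul_assoc, mul_sub, sub_mul,
      eo_mul hf h2 hx (hW a).1 a1, eo_mul hf h2 hx a1 (hW a).1, add_comm,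
      eo_mul hf h2 hx (hW a).1 (by rw [hf.neg_left, a1, neg_zero]),
      eo_mul hf h2 hx (by rw [hf.neg_left, a1, neg_zero]) (hW a).1, add_comm (-v)]
  · have h3 := ctype A Os hL H (M.inv_mem hg) (hW b₀).1 (hW b₀).2 (hi b₀ hb₀)
      (ee b₀ ▸ h1 b₀) a1 a2
    have h4 := congrArg (H98.cj g) (h3 b)
    rw [map_mul, map_mul, cj_cj_inv] at h4
    rw [← hc, mul_assoc]
    refine (Matrix.isNilpotent_trace_of_isNilpotent (Commute.isNilpotent_mul_right ?_ ⟨3, ?_⟩)).eq_zero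
    · rw [Commute, SemiconjBy, hc.left, ← h4, mul_assoc]
    · rw [← map_pow, pow_succ', pow_two, Nv_mul hf hx a1 a1, mul_smul_comm, Nv_mul_n hf hx a1,
        smul_zero, map_zero]
  · obtain ⟨g₁, c1, c2, c3⟩ := key g hg h1 h3
    obtain ⟨ζ, k, hk, d1, -, d2⟩ := bdec A Os hL H c1 c2
    have e1 : ((g₁ * k⁻¹ : GL ι F) : Matrix ι ι F) = 1 + ζ * φ (br f₂ x x) := by
      rw [Units.val_mul, d2, Units.mul_inv_cancel_right]
    obtain ⟨a, ha⟩ := hc.exists_ptr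
    have e2 := hn d1 e1 hc
    have e3 := hn d1 e1 (Cm.one.smul a)
    rw [show g = g₁ * k⁻¹ * (k * (g₁⁻¹ * g)) by group, piG_mul_KB _ (mul_mem hk c3), piG_apply]
    nth_rewrite 1 [← e2]
    rw [cj_inv_cj, ha, map_smul]
    simpa using e3
  · obtain ⟨γ, hγ, eγ⟩ := nrm_eq (φ := φ) hf h2 hx L (fun a => (hW a).1) ee hB hs w
    obtain ⟨k, hk, μ, ν, m0, m1, -, e1, -, e2⟩ := Os.exists_h H
    have := dfc_cj hc (hP _ (A.sub k hk)) (Nv f₂ x v)
    rw [cj_Nv hf (A.C.le hk), e1, e2 v a1 a2, Nv_smul hf, show Nv f₂ (μ • x) v = μ • Nv f₂ x v by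
      rw [Nv, br_smul_left, br_smul_right hf, Nv, smul_sub]; rfl, map_smul, map_smul, dfc_apply, hw,
      eγ, hγ.cj_gφ_mul, cj_br hf (A.C.le hk), e1, br_smul_left, br_smul_right hf, map_smul, map_smul,
      mul_smul_comm, mul_smul_comm, RingEquiv.refl_apply, ← sub_eq_zero, ← sub_smul] at this
    rw [dfc_apply, hw, eγ]
    exact (smul_eq_zero.1 ((smul_eq_zero.1 this).resolve_left (sub_ne_zero.2 m1))).resolve_left m0

end Cfsg.Agent.H77
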